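import Mathlib

/-!
# Interface for S4306 (nonabelian group of order `p * ℓ` acting fixed-point-freely and coprimely
on a finite solvable group: Fitting height at most 2)

Everything is "internal": `Γ` is a finite group, all groups are subgroups of `Γ`, all actions are
conjugation in `Γ`.  `A = F ⋊ T` is the operator group (`F` normal of order `p`, `|A| = p * ℓ`),
`V, Q, R` is the tower produced by the minimal-counterexample reduction (as in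
`Cfsg.Agent.Lib.Helper12.Ward.endgame`).

The `…Stmt` definitions are the exact statements of the pieces of the proof; each piece is proved
separately as `theorem … : …Stmt.{u}` (possibly from other pieces taken as hypotheses).
-/

set_option autoImplicit false

namespace Cfsg.Agent.Lib.Helper72.PQ

universe u

section Defs

variable {Γ : Type u} [Group Γ]

/-- `cz R Q = C_R(Q)`. -/
def cz (R Q : Subgroup Γ) : Subgroup Γ := R ⊓ Subgroup.centralizer (Q : Set Γ)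

theorem mem_cz {R Q : Subgroup Γ} {x : Γ} : x ∈ cz R Q ↔ x ∈ R ∧ ∀ y ∈ Q, y * x = x * y := by
  unfold cz
  rw [Subgroup.mem_inf, Subgroup.mem_centralizer_iff]
  rfl

/-- `H` is commutative (elementwise form). -/
def Ab (H : Subgroup Γ) : Prop := ∀ x ∈ H, ∀ y ∈ H, x * y = y * x

/-- The operator group: `|A| = p * ℓ`, `F ⊴ A` of order `p`, every element of `A` outside `F`
acts fixed-point-freely on `F` (so `A` is a Frobenius group with kernel `F`). -/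
structure Frob (p ℓ : ℕ) (A F : Subgroup Γ) : Prop where
  hp : p.Prime
  hℓ : ℓ.Prime
  hpℓ : p ≠ ℓ
  hA : Nat.card A = p * ℓ
  hFA : F ≤ A
  hF : Nat.card F = p
  hAF : A ≤ Subgroup.normalizer (F : Set Γ)
  hfrob : ∀ a ∈ A, a ∉ F → ∀ x ∈ F, a * x = x * a → x = 1

/-- The tower configuration of a minimal counterexample. -/
structure Tw (p ℓ r q s : ℕ) (A F V Q R : Subgroup Γ) : Prop where
  frob : Frob p ℓ A F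
  hr : r.Prime
  hq : q.Prime
  hs : s.Prime
  hAV : A ≤ Subgroup.normalizer (V : Set Γ)
  hAQ : A ≤ Subgroup.normalizer (Q : Set Γ)
  hAR : A ≤ Subgroup.normalizer (R : Set Γ)
  hQV : Q ≤ Subgroup.normalizer (V : Set Γ)
  hRV : R ≤ Subgroup.normalizer (V : Set Γ)
  hRQ : R ≤ Subgroup.normalizer (Q : Set Γ)
  hVc : Ab V
  hVr : IsPGroup r V
  hQq : IsPGroup q Q
  hRs : IsPGroup s R
  hqr : q ≠ r
  hqs : q ≠ s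
  hpr : p ≠ r
  hpq : p ≠ q
  hps : p ≠ s
  hℓr : ℓ ≠ r
  hℓq : ℓ ≠ q
  hℓs : ℓ ≠ s
  hV1 : V ≠ ⊥
  hQ1 : Q ≠ ⊥
  hE1 : ∀ v ∈ V, (∀ y ∈ Q, y * v = v * y) → v = 1
  hE2 : ∀ V₁ : Subgroup Γ, V₁ ≤ V → A ≤ Subgroup.normalizer (V₁ : Set Γ) →
    Q ≤ Subgroup.normalizer (V₁ : Set Γ) → R ≤ Subgroup.normalizer (V₁ : Set Γ) → V₁ = ⊥ ∨ V₁ = V
  hE2' : ∀ y ∈ Q, (∀ v ∈ V, y * v = v * y) → y = 1
  hE3 : ∀ Q₁ : Subgroup Γ, Q₁ ≤ Q → Q₁ ≠ Q → A ≤ Subgroup.normalizer (Q₁ : Set Γ) →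
    R ≤ Subgroup.normalizer (Q₁ : Set Γ) → ∀ y ∈ Q₁, ∀ x ∈ R, x * y = y * x
  hE4 : ∀ R₁ : Subgroup Γ, R₁ ≤ R → R₁ ≠ R → A ≤ Subgroup.normalizer (R₁ : Set Γ) →
    ∀ x ∈ R₁, ∀ y ∈ Q, x * y = y * x
  hE5 : ⁅Q, R⁆ = Q
  hfixV : ∀ v ∈ V, (∀ a ∈ A, a * v = v * a) → v = 1
  hfixQ : ∀ y ∈ Q, (∀ a ∈ A, a * y = y * a) → y = 1
  hfixR : ∀ x ∈ R, (∀ a ∈ A, a * x = x * a) → x = 1
  hnVQ : ∀ v ∈ V, ∀ y ∈ Q, (∀ a ∈ F, a * v = v * a) → (∀ a ∈ F, a * y = y * a) → v * y = y * v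
  hnQR : ∀ y ∈ Q, ∀ x ∈ R, (∀ a ∈ F, a * y = y * a) → (∀ a ∈ F, a * x = x * a) → x * y = y * x

/-- Type I: `F` centralises `R / C_R(Q)`. -/
def TypeI (F Q R : Subgroup Γ) : Prop := ∀ a ∈ F, ∀ x ∈ R, a * x * a⁻¹ * x⁻¹ ∈ cz R Q

/-- Type II: every non-identity element of `F` acts fixed-point-freely on `R / C_R(Q)`. -/
def TypeII (F Q R : Subgroup Γ) : Prop :=
  ∀ a ∈ F, a ≠ 1 → ∀ x ∈ R, a * x * a⁻¹ * x⁻¹ ∈ cz R Q → x ∈ cz R Q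

/-- Hypotheses of the core "extraspecial" configuration (faithful form). -/
structure P6H (q r s ℓ : ℕ) (M Q R₀ : Subgroup Γ) (t : Γ) : Prop where
  hq : q.Prime
  hr : r.Prime
  hs : s.Prime
  hℓ : ℓ.Prime
  ht : orderOf t = ℓ
  hQq : IsPGroup q Q
  hMc : Ab M
  hMr : ∀ m ∈ M, m ^ r = 1
  hM1 : M ≠ ⊥
  hRs : IsPGroup s R₀
  hqr : q ≠ r
  hqs : q ≠ s
  hℓq : ℓ ≠ q
  hℓr : ℓ ≠ r
  hℓs : ℓ ≠ s
  hQM : Q ≤ Subgroup.normalizer (M : Set Γ)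
  htM : t ∈ Subgroup.normalizer (M : Set Γ)
  hRQ : R₀ ≤ Subgroup.normalizer (Q : Set Γ)
  htQ : t ∈ Subgroup.normalizer (Q : Set Γ)
  htR : t ∈ Subgroup.normalizer (R₀ : Set Γ)
  hfaith : ∀ y ∈ Q, (∀ m ∈ M, y * m = m * y) → y = 1
  hMt : ∀ m ∈ M, t * m = m * t → m = 1
  hRt : ∀ x ∈ R₀, t * x = x * t → x = 1
  hQR : ⁅Q, R₀⁆ = Q
  hD : Nat.card (⁅Q, Q⁆ : Subgroup Γ) = q
  hDt : ∀ d ∈ (⁅Q, Q⁆ : Subgroup Γ), t * d = d * t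
  hDR : ∀ d ∈ (⁅Q, Q⁆ : Subgroup Γ), ∀ x ∈ R₀, x * d = d * x
  hpow : ∀ y ∈ Q, ∀ x ∈ R₀, x * y ^ q = y ^ q * x

end Defs

/-! ## General lemmas -/

/-- FM: a group `B` on which `c` acts fixed-point-freely (all nontrivial powers), acting coprimely
on an abelian group `W` with `C_W(c) = 1`, centralises `W`. -/
def FMStmt.{v} : Prop :=
  ∀ (Γ : Type v) [Group Γ] [Finite Γ] (W B : Subgroup Γ) (c : Γ) (m : ℕ),
    0 < m → c ^ m = 1 → Ab W → B ≤ Subgroup.normalizer (W : Set Γ) →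
    c ∈ Subgroup.normalizer (W : Set Γ) → c ∈ Subgroup.normalizer (B : Set Γ) →
    (∀ j, 0 < j → j < m → ∀ x ∈ B, c ^ j * x = x * c ^ j → x = 1) →
    (Nat.card B).Coprime (Nat.card W) →
    (∀ w ∈ W, c * w = w * c → w = 1) →
    ∀ x ∈ B, ∀ w ∈ W, x * w = w * x

/-- FMQ: the same for the action of `B / B₀` on the abelian section `W / W₀`. -/
def FMQStmt.{v} : Prop :=
  ∀ (Γ : Type v) [Group Γ] [Finite Γ] (W W₀ B B₀ : Subgroup Γ) (c : Γ) (m : ℕ),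
    0 < m → c ^ m = 1 → W₀ ≤ W → B₀ ≤ B →
    (∀ v ∈ W, ∀ w ∈ W, v * w * v⁻¹ * w⁻¹ ∈ W₀) →
    W ≤ Subgroup.normalizer (W₀ : Set Γ) →
    B ≤ Subgroup.normalizer (W : Set Γ) → B ≤ Subgroup.normalizer (W₀ : Set Γ) →
    c ∈ Subgroup.normalizer (W : Set Γ) → c ∈ Subgroup.normalizer (W₀ : Set Γ) →
    c ∈ Subgroup.normalizer (B : Set Γ) →
    B ≤ Subgroup.normalizer (B₀ : Set Γ) → c ∈ Subgroup.normalizer (B₀ : Set Γ) →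
    (∀ x ∈ B₀, ∀ w ∈ W, x * w * x⁻¹ * w⁻¹ ∈ W₀) →
    (∀ j, 0 < j → j < m → ∀ x ∈ B, c ^ j * x * (c ^ j)⁻¹ * x⁻¹ ∈ B₀ → x ∈ B₀) →
    (Nat.card B).Coprime (Nat.card W) →
    (∀ w ∈ W, c * w * c⁻¹ * w⁻¹ ∈ W₀ → w ∈ W₀) →
    ∀ x ∈ B, ∀ w ∈ W, x * w * x⁻¹ * w⁻¹ ∈ W₀

/-- Fixed points of `A` in a quotient by a coprime `A`-invariant subgroup lift. -/
def AFixStmt.{v} : Prop :=
  ∀ (Γ : Type v) [Group Γ] [Finite Γ] (p ℓ : ℕ) (A F N : Subgroup Γ),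
    Frob p ℓ A F → A ≤ Subgroup.normalizer (N : Set Γ) → (Nat.card N).Coprime (p * ℓ) →
    ∀ x ∈ Subgroup.normalizer (N : Set Γ), (∀ a ∈ A, a * x * a⁻¹ * x⁻¹ ∈ N) →
      ∃ n ∈ N, ∀ a ∈ A, a * (x * n) = (x * n) * a

/-- Structure of the operator group. -/
def AStrStmt.{v} : Prop :=
  ∀ (Γ : Type v) [Group Γ] [Finite Γ] (p ℓ : ℕ) (A F : Subgroup Γ), Frob p ℓ A F →
    (∃ t ∈ A, t ∉ F) ∧
    (∀ t ∈ A, t ∉ F → orderOf t = ℓ) ∧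
    (∀ t ∈ A, t ∉ F → ∀ a ∈ A, ∃ f ∈ F, ∃ i : ℕ, a = f * t ^ i) ∧
    ℓ ∣ p - 1

/-- Existence of a "weight": an index-`q` subgroup of the elementary abelian `q`-group `B` with
nontrivial fixed points on `W`. -/
def WExStmt.{v} : Prop :=
  ∀ (Γ : Type v) [Group Γ] [Finite Γ] (q : ℕ) (B W : Subgroup Γ),
    q.Prime → Ab B → (∀ b ∈ B, b ^ q = 1) → Ab W → B ≤ Subgroup.normalizer (W : Set Γ) →
    (Nat.card W).Coprime q → W ≠ ⊥ →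
    (∀ w ∈ W, (∀ b ∈ B, b * w = w * b) → w = 1) →
    ∃ Y : Subgroup Γ, Y ≤ B ∧ Nat.card B = q * Nat.card Y ∧
      ∃ w ∈ W, w ≠ 1 ∧ ∀ y ∈ Y, y * w = w * y

/-- The stabiliser in `A` of a weight `Y` has no fixed points on `C_V(Y)`. -/
def WIndStmt.{v} : Prop :=
  ∀ (Γ : Type v) [Group Γ] [Finite Γ] (q : ℕ) (A B V Y : Subgroup Γ),
    q.Prime → Ab V → A ≤ Subgroup.normalizer (V : Set Γ) → B ≤ Subgroup.normalizer (V : Set Γ) →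
    A ≤ Subgroup.normalizer (B : Set Γ) → Ab B → Y ≤ B → Nat.card B = q * Nat.card Y →
    (Nat.card A).Coprime (Nat.card V) → (Nat.card B).Coprime (Nat.card V) →
    (∀ v ∈ V, (∀ b ∈ B, b * v = v * b) → v = 1) →
    (∀ v ∈ V, (∀ a ∈ A, a * v = v * a) → v = 1) →
    ∀ v ∈ V, (∀ y ∈ Y, y * v = v * y) →
      (∀ a ∈ A, a ∈ Subgroup.normalizer (Y : Set Γ) → a * v = v * a) → v = 1

/-- The stabiliser of a weight `Y` of `B` (on which `F` acts fixed-point-freely) is a complement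
of `F` in `A`, centralising `B / Y` and fixed-point-free on `C_V(Y)`. -/
def WStabStmt.{v} : Prop :=
  ∀ (Γ : Type v) [Group Γ] [Finite Γ] (p ℓ q : ℕ) (A F B V Y : Subgroup Γ),
    Frob p ℓ A F → q.Prime → Ab V → A ≤ Subgroup.normalizer (V : Set Γ) →
    B ≤ Subgroup.normalizer (V : Set Γ) → A ≤ Subgroup.normalizer (B : Set Γ) → Ab B →
    Y ≤ B → Nat.card B = q * Nat.card Y →
    (Nat.card A).Coprime (Nat.card V) → (Nat.card B).Coprime (Nat.card V) →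
    (Nat.card A).Coprime (Nat.card B) →
    (∀ v ∈ V, (∀ b ∈ B, b * v = v * b) → v = 1) →
    (∀ v ∈ V, (∀ a ∈ A, a * v = v * a) → v = 1) →
    (∀ b ∈ B, (∀ a ∈ F, a * b = b * a) → b = 1) →
    (∃ v ∈ V, v ≠ 1 ∧ ∀ y ∈ Y, y * v = v * y) →
    ∀ t₀ ∈ A, t₀ ∉ F → ∃ t ∈ A, t₀⁻¹ * t ∈ F ∧ t ∈ Subgroup.normalizer (Y : Set Γ) ∧
      (∀ b ∈ B, t * b * t⁻¹ * b⁻¹ ∈ Y) ∧
      (∀ v ∈ V, (∀ y ∈ Y, y * v = v * y) → t * v = v * t → v = 1)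

/-- Lang-type lemma modulo `C`: if `c` is fixed-point-free on the abelian group `R / C` and
normalises `R₁ ⊇ C`, then `x⁻¹ x^c ∈ R₁` forces `x ∈ R₁`. -/
def LangQStmt.{v} : Prop :=
  ∀ (Γ : Type v) [Group Γ] [Finite Γ] (s m : ℕ) (R C R₁ : Subgroup Γ) (c : Γ),
    s.Prime → IsPGroup s R → m.Coprime s → c ^ m = 1 →
    c ∈ Subgroup.normalizer (R : Set Γ) → c ∈ Subgroup.normalizer (R₁ : Set Γ) →
    C ≤ R₁ → R₁ ≤ R →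
    (∀ x ∈ R, ∀ x' ∈ R, x * x' * x⁻¹ * x'⁻¹ ∈ C) →
    (∀ x ∈ R, c * x * c⁻¹ * x⁻¹ ∈ C → x ∈ C) →
    ∀ x ∈ R, x⁻¹ * (c * x * c⁻¹) ∈ R₁ → x ∈ R₁

/-! ## Structure of the tower -/

/-- `R / C_R(Q)` is abelian; type dichotomy; consequences of type I. -/
def L1Stmt.{v} : Prop :=
  ∀ (Γ : Type v) [Group Γ] [Finite Γ] (p ℓ r q s : ℕ) (A F V Q R : Subgroup Γ),
    Tw p ℓ r q s A F V Q R →
    (∀ x ∈ R, ∀ x' ∈ R, x * x' * x⁻¹ * x'⁻¹ ∈ cz R Q) ∧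
    (TypeI F Q R ∨ TypeII F Q R) ∧
    (TypeI F Q R → ∀ t ∈ A, t ∉ F → ∀ x ∈ R, t * x * t⁻¹ * x⁻¹ ∈ cz R Q → x ∈ cz R Q) ∧
    (TypeI F Q R → ∀ x ∈ R, ∃ n ∈ cz R Q, ∀ a ∈ F, a * (x * n) = (x * n) * a)

/-- `Z = C_Q(R)` is central in `Q`, contains `Q'` and all `q`-th powers; `Z = 1` if `Q` is
abelian. -/
def L2Stmt.{v} : Prop :=
  ∀ (Γ : Type v) [Group Γ] [Finite Γ] (p ℓ r q s : ℕ) (A F V Q R : Subgroup Γ),
    Tw p ℓ r q s A F V Q R →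
    (∀ z ∈ cz Q R, ∀ y ∈ Q, z * y = y * z) ∧
    (∀ y ∈ Q, ∀ y' ∈ Q, y * y' * y⁻¹ * y'⁻¹ ∈ cz Q R) ∧
    (∀ y ∈ Q, y ^ q ∈ cz Q R) ∧
    (Ab Q → cz Q R = ⊥)

/-- `V` has exponent `r`; nontrivial normal (`A`, `Q`, `R`-invariant) subgroups of `Q` have no
fixed points on `V`. -/
def L3Stmt.{v} : Prop :=
  ∀ (Γ : Type v) [Group Γ] [Finite Γ] (p ℓ r q s : ℕ) (A F V Q R : Subgroup Γ),
    Tw p ℓ r q s A F V Q R →
    (∀ v ∈ V, v ^ r = 1) ∧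
    (∀ N : Subgroup Γ, N ≤ Q → N ≠ ⊥ → A ≤ Subgroup.normalizer (N : Set Γ) →
      Q ≤ Subgroup.normalizer (N : Set Γ) → R ≤ Subgroup.normalizer (N : Set Γ) →
      ∀ v ∈ V, (∀ n ∈ N, n * v = v * n) → v = 1)

/-! ## Type II -/

/-- Type II: `C_Q(F) ⊄ Z`. -/
def II0Stmt.{v} : Prop :=
  ∀ (Γ : Type v) [Group Γ] [Finite Γ] (p ℓ r q s : ℕ) (A F V Q R : Subgroup Γ),
    Tw p ℓ r q s A F V Q R → TypeII F Q R →
    ∃ u ∈ Q, u ∉ cz Q R ∧ ∀ a ∈ F, a * u = u * a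

/-- `Q` abelian: a weight `Y` of `Q` on `V` contains `C_Q(F)` or `[Q, F]`. -/
def IIWStmt.{v} : Prop :=
  ∀ (Γ : Type v) [Group Γ] [Finite Γ] (p ℓ r q s : ℕ) (A F V Q R : Subgroup Γ),
    Tw p ℓ r q s A F V Q R → Ab Q →
    ∀ Y : Subgroup Γ, Y ≤ Q → Nat.card Q = q * Nat.card Y →
      (∃ v ∈ V, v ≠ 1 ∧ ∀ y ∈ Y, y * v = v * y) →
      (∀ u ∈ Q, (∀ a ∈ F, a * u = u * a) → u ∈ Y) ∨ (∀ a ∈ F, ∀ y ∈ Q, a * y * a⁻¹ * y⁻¹ ∈ Y)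

/-- Type II, `Q` abelian: if `[Q, F] ≤ Y` and `[Q, F] ≤ x Y x⁻¹` then `[Q, x] ≤ Y`. -/
def IIRStmt.{v} : Prop :=
  ∀ (Γ : Type v) [Group Γ] [Finite Γ] (p ℓ r q s : ℕ) (A F V Q R : Subgroup Γ),
    Tw p ℓ r q s A F V Q R → TypeII F Q R → Ab Q →
    ∀ Y : Subgroup Γ, Y ≤ Q → (∀ a ∈ F, ∀ y ∈ Q, a * y * a⁻¹ * y⁻¹ ∈ Y) →
      ∀ x ∈ R, (∀ a ∈ F, ∀ y ∈ Q, x⁻¹ * (a * y * a⁻¹ * y⁻¹) * x ∈ Y) →
        ∀ y ∈ Q, x * y * x⁻¹ * y⁻¹ ∈ Y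

/-- Type II, `Q` abelian: contradiction. -/
def IIabStmt.{v} : Prop :=
  ∀ (Γ : Type v) [Group Γ] [Finite Γ] (p ℓ r q s : ℕ) (A F V Q R : Subgroup Γ),
    Tw p ℓ r q s A F V Q R → TypeII F Q R → Ab Q → False

/-- Hall–Higman step (via S3765): `F` cannot be fixed-point-free on `V` and nontrivial on `Q`. -/
def HHFStmt.{v} : Prop :=
  ∀ (Γ : Type v) [Group Γ] [Finite Γ] (p ℓ r q s : ℕ) (A F V Q R : Subgroup Γ),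
    Tw p ℓ r q s A F V Q R →
    (∀ v ∈ V, (∀ a ∈ F, a * v = v * a) → v = 1) → (∃ a ∈ F, ∃ y ∈ Q, a * y ≠ y * a) → False

/-- Type II, `Q` nonabelian: contradiction. -/
def IInonStmt.{v} : Prop :=
  ∀ (Γ : Type v) [Group Γ] [Finite Γ] (p ℓ r q s : ℕ) (A F V Q R : Subgroup Γ),
    Tw p ℓ r q s A F V Q R → TypeII F Q R → ¬ Ab Q → False

/-! ## Type I -/

/-- Type I, `Q` abelian: the key step. -/
def IabXStmt.{v} : Prop :=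
  ∀ (Γ : Type v) [Group Γ] [Finite Γ] (p ℓ r q s : ℕ) (A F V Q R : Subgroup Γ),
    Tw p ℓ r q s A F V Q R → TypeI F Q R → Ab Q →
    ∀ Y : Subgroup Γ, Y ≤ Q → ∀ t ∈ A, t ∉ F → (∀ y ∈ Q, t * y * t⁻¹ * y⁻¹ ∈ Y) →
      ∀ x ∈ R, ∀ t' ∈ A, t⁻¹ * t' ∈ F →
        (∀ y ∈ Q, x⁻¹ * (t' * y * t'⁻¹ * y⁻¹) * x ∈ Y) →
        ∀ y ∈ Q, ((t⁻¹ * x⁻¹ * t) * x) * y * ((t⁻¹ * x⁻¹ * t) * x)⁻¹ * y⁻¹ ∈ Y

/-- Type I, `Q` abelian: contradiction. -/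
def IabStmt.{v} : Prop :=
  ∀ (Γ : Type v) [Group Γ] [Finite Γ] (p ℓ r q s : ℕ) (A F V Q R : Subgroup Γ),
    Tw p ℓ r q s A F V Q R → TypeI F Q R → Ab Q → False

/-- Core configuration: abelian `t`-invariant subgroups of `Q` are centralised by `t`; `t` does
not centralise `Q`; `C_Q(R₀) = Z(Q)` and `t` centralises it. -/
def P6AStmt.{v} : Prop :=
  ∀ (Γ : Type v) [Group Γ] [Finite Γ] (q r s ℓ : ℕ) (M Q R₀ : Subgroup Γ) (t : Γ),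
    P6H q r s ℓ M Q R₀ t →
    (∀ B : Subgroup Γ, B ≤ Q → Ab B → t ∈ Subgroup.normalizer (B : Set Γ) →
      ∀ b ∈ B, t * b = b * t) ∧
    (∃ y ∈ Q, t * y ≠ y * t) ∧
    (∀ z ∈ Q, (∀ x ∈ R₀, x * z = z * x) → (∀ y ∈ Q, z * y = y * z) ∧ t * z = z * t) ∧
    (∀ z ∈ Q, (∀ y ∈ Q, z * y = y * z) → ∀ x ∈ R₀, x * z = z * x)

/-- Core configuration: the subgroup `E = [Q, t]`. -/
def P6SStmt.{v} : Prop :=
  ∀ (Γ : Type v) [Group Γ] [Finite Γ] (q r s ℓ : ℕ) (M Q R₀ : Subgroup Γ) (t : Γ),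
    P6H q r s ℓ M Q R₀ t →
    ∃ E : Subgroup Γ, E ≤ Q ∧ t ∈ Subgroup.normalizer (E : Set Γ) ∧
      (∀ e ∈ E, ∀ c ∈ Q, t * c = c * t → e * c = c * e) ∧
      (∀ y ∈ Q, ∃ e ∈ E, ∃ c ∈ Q, t * c = c * t ∧ y = e * c) ∧
      (⁅Q, Q⁆ : Subgroup Γ) ≤ E ∧
      (∀ e ∈ E, t * e = e * t → e ∈ (⁅Q, Q⁆ : Subgroup Γ)) ∧
      (∃ e ∈ E, ∃ e' ∈ E, e * e' ≠ e' * e)

/-- Core configuration: `E` is extraspecial and S3764 applies. -/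
def P6XStmt.{v} : Prop :=
  ∀ (Γ : Type v) [Group Γ] [Finite Γ] (q r s ℓ : ℕ) (M Q R₀ E : Subgroup Γ) (t : Γ),
    P6H q r s ℓ M Q R₀ t → E ≤ Q → t ∈ Subgroup.normalizer (E : Set Γ) →
    (⁅Q, Q⁆ : Subgroup Γ) ≤ E →
    (∀ e ∈ E, t * e = e * t → e ∈ (⁅Q, Q⁆ : Subgroup Γ)) →
    (∃ e ∈ E, ∃ e' ∈ E, e * e' ≠ e' * e) →
    q = 2 ∧ ∃ n : ℕ, ℓ = 2 ^ n + 1 ∧ Nat.card E = 2 ^ (2 * n + 1)

/-- Core configuration: the count (via S1545) and the final contradiction. -/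
def P6NStmt.{v} : Prop :=
  ∀ (Γ : Type v) [Group Γ] [Finite Γ] (q r s ℓ : ℕ) (M Q R₀ E : Subgroup Γ) (t : Γ),
    P6H q r s ℓ M Q R₀ t → E ≤ Q →
    (∀ e ∈ E, ∀ c ∈ Q, t * c = c * t → e * c = c * e) →
    (∀ y ∈ Q, ∃ e ∈ E, ∃ c ∈ Q, t * c = c * t ∧ y = e * c) →
    (⁅Q, Q⁆ : Subgroup Γ) ≤ E →
    (∀ e ∈ E, t * e = e * t → e ∈ (⁅Q, Q⁆ : Subgroup Γ)) →
    q = 2 → ∀ n : ℕ, ℓ = 2 ^ n + 1 → Nat.card E = 2 ^ (2 * n + 1) → False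

/-- Core configuration (faithful form): contradiction. -/
def P6CStmt.{v} : Prop :=
  ∀ (Γ : Type v) [Group Γ] [Finite Γ] (q r s ℓ : ℕ) (M Q R₀ : Subgroup Γ) (t : Γ),
    P6H q r s ℓ M Q R₀ t → False

/-- Core configuration, non-faithful form (kernel `C_Q(M)`): contradiction. -/
def P6Stmt.{v} : Prop :=
  ∀ (Γ : Type v) [Group Γ] [Finite Γ] (q r s ℓ : ℕ) (M Q R₀ : Subgroup Γ) (t : Γ),
    q.Prime → r.Prime → s.Prime → ℓ.Prime → orderOf t = ℓ → IsPGroup q Q → Ab M →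
    (∀ m ∈ M, m ^ r = 1) → M ≠ ⊥ → IsPGroup s R₀ →
    q ≠ r → q ≠ s → ℓ ≠ q → ℓ ≠ r → ℓ ≠ s →
    Q ≤ Subgroup.normalizer (M : Set Γ) → t ∈ Subgroup.normalizer (M : Set Γ) →
    R₀ ≤ Subgroup.normalizer (M : Set Γ) → R₀ ≤ Subgroup.normalizer (Q : Set Γ) →
    t ∈ Subgroup.normalizer (Q : Set Γ) → t ∈ Subgroup.normalizer (R₀ : Set Γ) →
    (∀ m ∈ M, t * m = m * t → m = 1) →
    (∀ x ∈ R₀, t * x = x * t → x = 1) →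
    ⁅Q, R₀⁆ = Q →
    Nat.card (⁅Q, Q⁆ : Subgroup Γ) = q * Nat.card (⁅Q, Q⁆ ⊓ cz Q M : Subgroup Γ) →
    (∀ d ∈ (⁅Q, Q⁆ : Subgroup Γ), t * d * t⁻¹ * d⁻¹ ∈ cz Q M) →
    (∀ d ∈ (⁅Q, Q⁆ : Subgroup Γ), ∀ x ∈ R₀, x * d = d * x) →
    (∀ y ∈ Q, ∀ x ∈ R₀, x * y ^ q = y ^ q * x) →
    False

/-- Type I, `Q` nonabelian: contradiction. -/
def InonStmt.{v} : Prop :=
  ∀ (Γ : Type v) [Group Γ] [Finite Γ] (p ℓ r q s : ℕ) (A F V Q R : Subgroup Γ),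
    Tw p ℓ r q s A F V Q R → TypeI F Q R → ¬ Ab Q → False

/-! ## Endgame and reduction -/

/-- The tower configuration is contradictory. -/
def EndStmt.{v} : Prop :=
  ∀ (Γ : Type v) [Group Γ] [Finite Γ] (p ℓ r q s : ℕ) (A F V Q R : Subgroup Γ),
    Tw p ℓ r q s A F V Q R → False

/-- Internal form of the theorem: `G` is metanilpotent. -/
def RedStmt.{v} : Prop :=
  ∀ (Γ : Type v) [Group Γ] [Finite Γ] (p ℓ : ℕ) (A F G : Subgroup Γ),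
    Frob p ℓ A F → Group.IsSolvable G → A ≤ Subgroup.normalizer (G : Set Γ) →
    (Nat.card G).Coprime (p * ℓ) →
    (∀ g ∈ G, (∀ a ∈ A, a * g = g * a) → g = 1) →
    ∃ k m : ℕ, (G.lowerCentralSeries k).lowerCentralSeries m = ⊥

/-- The statement of S4306. -/
def FinStmt.{v, w} : Prop :=
  ∀ (G : Type v) (A : Type w) [Group G] [Finite G] [Group.IsSolvable G] [Group A] [Finite A]
    [MulDistribMulAction A G] (p q : ℕ), p.Prime → q.Prime → p ≠ q →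
    Nat.card A = p * q → ¬ IsMulCommutative A → (Nat.card G).Coprime (p * q) →
    (∀ g : G, (∀ a : A, a • g = g) → g = 1) →
    ∃ F : Subgroup G, ∃ _ : F.Normal, Group.IsNilpotent ↥F ∧ Group.IsNilpotent (G ⧸ F)

end Cfsg.Agent.Lib.Helper72.PQ
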