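import Mathlib
import Cfsg.Prelude.Def_JComponents
import Cfsg.Agent.Lib.Helper72.SCDefs
import Cfsg.Agent.Lib.Helper78.JcDefs

/-! Interface for the S2942 project JL (helper72): `J(T)`-components of a ZN-group inside a
solvable overgroup of characteristic 2 are subnormal.  Definitions and the exact statements of
the pieces. -/

set_option autoImplicit false

namespace Cfsg.Agent.Lib.Helper72.JL

open Cfsg.Agent.Lib.Helper72.SC
open Cfsg.Agent.Lib.Helper78.Jc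

open scoped commutatorElement

universe u

/-- the normal closure of `Ω₁(Z(T))` -/
def VT {X : Type*} [Group X] (T : Subgroup X) : Subgroup X :=
  Subgroup.normalClosure (Cfsg.omegaCenterOf T : Set X)

instance VT_normal {X : Type*} [Group X] (T : Subgroup X) : (VT T).Normal :=
  Subgroup.normalClosure_normal

/-- the conjugation action of `X` on the normal closure of `Ω₁(Z(T))` -/
def rhoT {X : Type*} [Group X] (T : Subgroup X) : X →* MulAut ↥(VT T) :=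
  MulAut.conjNormal

/-- the abstract setting: `T` is a Sylow 2-subgroup of the solvable group `X` of characteristic 2,
and the centralizer of `Ω₁(Z(T))` normalizes `T` -/
structure Setting (X : Type*) [Group X] (T : Subgroup X) : Prop where
  hT2 : IsPGroup 2 ↥T
  hTodd : Odd T.index
  hsolv : Group.IsSolvable X
  hchar : Subgroup.centralizer (Cfsg.pCore 2 X : Set X) ≤ Cfsg.pCore 2 X
  hZN : ∀ x : X, (∀ z ∈ Cfsg.omegaCenterOf T, x * z = z * x) →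
    x ∈ Subgroup.normalizer (T : Set X)

/-! ### statements of the pieces -/

/-- JL-VAB -/
def VabStmt.{w} : Prop :=
  ∀ (X : Type w) [Group X] [Finite X] (T : Subgroup X), Setting X T →
    VT T ≤ Cfsg.pCore 2 X ∧ (∀ a ∈ VT T, ∀ b ∈ VT T, a * b = b * a) ∧ (∀ a ∈ VT T, a * a = 1) ∧
      Cfsg.pCore 2 X ≤ T ∧ ∀ q ∈ Cfsg.pCore 2 X, ∀ v ∈ VT T, q * v = v * q

/-- JL-O2 -/
def O2Stmt.{w} : Prop :=
  ∀ (X : Type w) [Group X] [Finite X] (T : Subgroup X), Setting X T →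
    Cfsg.pCore 2 ↥(rhoT T).range = ⊥

/-- JL-PS -/
def PsStmt.{w} : Prop :=
  ∀ (X : Type w) [Group X] [Finite X] (T : Subgroup X), Setting X T →
    Cfsg.IsPSolvable 2 ↥(rhoT T).range

/-- JL-BO -/
def BoStmt.{w} : Prop :=
  ∀ (X : Type w) [Group X] [Finite X] (T : Subgroup X), Setting X T →
    ∀ A : Subgroup X, IsMaxEA T A →
      Cfsg.IsBestOffenderOn 2 (Vs ↥(VT T)) (up (A.map (rhoT T)))

/-- JL-EXTM -/
def ExtmStmt.{w} : Prop :=
  ∀ (G : Type w) [Group G] [Finite G] (V H : Subgroup G), Cfsg.IsElementaryAbelian 2 V →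
    H ≤ Subgroup.normalizer (V : Set G) → H ⊓ Subgroup.centralizer (V : Set G) = ⊥ →
    Subgroup.centralizer (Cfsg.pPrimeCore 2 ↥H : Set ↥H) ≤ Cfsg.pPrimeCore 2 ↥H →
    H = ⨆ A : {A : Subgroup G // A ≤ H ∧ Cfsg.IsBestOffenderOn 2 V A}, (A : Subgroup G) →
    ∀ B : Subgroup G, B ≤ H → Cfsg.IsBestOffenderOn 2 V B → ⁅V, B⁆ ≠ ⊥ →
      (∀ C : Subgroup G, C ≤ B → Cfsg.IsBestOffenderOn 2 V C → ⁅V, C⁆ ≠ ⊥ → C = B) →
      ∀ h ∈ H, ∀ b ∈ B, h * b * h⁻¹ * b⁻¹ ∈ (Cfsg.pCore 3 ↥H).map H.subtype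

/-- JL-EXTA -/
def ExtaStmt.{w} : Prop :=
  ∀ (G : Type w) [Group G] [Finite G] (V H : Subgroup G), Cfsg.IsElementaryAbelian 2 V →
    H ≤ Subgroup.normalizer (V : Set G) → H ⊓ Subgroup.centralizer (V : Set G) = ⊥ →
    Subgroup.centralizer (Cfsg.pPrimeCore 2 ↥H : Set ↥H) ≤ Cfsg.pPrimeCore 2 ↥H →
    H = ⨆ A : {A : Subgroup G // A ≤ H ∧ Cfsg.IsBestOffenderOn 2 V A}, (A : Subgroup G) →
    ∀ h ∈ H, h * h ∈ (Cfsg.pCore 3 ↥H).map H.subtype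

/-- the external normal structure of a solvable failure-of-factorization group for `p = 2`
(JL-EXTB proves it from FFA, FFB, EXTA) -/
def ExtStmt.{w} : Prop :=
  ∀ (V : Type w) [Group V] [Finite V] (Gb : Subgroup (MulAut V)),
    (∀ a b : V, a * b = b * a) → (∀ v : V, v ^ 2 = 1) →
    Cfsg.IsPSolvable 2 ↥Gb → Cfsg.pCore 2 ↥Gb = ⊥ →
    ∃ N : Subgroup (MulAut V), N ≤ Gb ∧ (∀ g ∈ Gb, ∀ n ∈ N, g * n * g⁻¹ ∈ N) ∧ IsPGroup 3 ↥N ∧
      ∀ h : MulAut V, (SemidirectProduct.inr h : Gam V) ∈ Hs 2 Gb → h * h ∈ N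

/-- JL-KN -/
def KnStmt.{w} : Prop :=
  ∀ (X : Type w) [Group X] [Finite X] (T : Subgroup X), Setting X T →
    ∀ N : Subgroup (MulAut ↥(VT T)),
      (∀ h : MulAut ↥(VT T),
        (SemidirectProduct.inr h : Gam ↥(VT T)) ∈ Hs 2 (rhoT T).range → h * h ∈ N) →
    ∀ (𝒮 : Set (Subgroup X)) (K : Subgroup X), (∀ A ∈ 𝒮, IsMaxEA T A) →
      ⁅K, sSup 𝒮⁆ = K → Subgroup.closure {g : X | g ∈ K ∧ Odd (orderOf g)} = K →
      K.map (rhoT T) ≤ N

/-- JL-CT -/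
def CtStmt.{w} : Prop :=
  ∀ (X : Type w) [Group X] [Finite X] (T : Subgroup X), Setting X T →
    Cfsg.pCore 2 X ≤ (rhoT T).ker ∧ ∀ c ∈ (rhoT T).ker, ∀ t ∈ T, ⁅c, t⁆ ∈ Cfsg.pCore 2 X

/-- JL-SUBNIL -/
def SubnilStmt.{w} : Prop :=
  ∀ (X : Type w) [Group X] [Finite X], Group.IsNilpotent X → ∀ H : Subgroup X, H.IsSubnormal

/-- JL-KC -/
def KcStmt.{w} : Prop :=
  ∀ (X : Type w) [Group X] (Q C K J : Subgroup X), Q.Normal → C.Normal →
    (∀ c ∈ C, ∀ j ∈ J, ⁅c, j⁆ ∈ Q) → ⁅K, J⁆ = K → ∀ k ∈ K, ∀ c ∈ C, ⁅k, c⁆ ∈ Q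

/-- JL-AL -/
def AlStmt.{w} : Prop :=
  ∀ (X : Type w) [Group X] [Finite X] (Q C M K J : Subgroup X), Q.Normal → C.Normal → M.Normal →
    Q ≤ C → C ≤ M → (∀ m ∈ M, ∃ n : ℕ, m ^ 3 ^ n ∈ C) → (∀ c ∈ C, ∀ j ∈ J, ⁅c, j⁆ ∈ Q) →
    ⁅K, J⁆ = K → K ≤ M → Q ≤ Subgroup.normalizer (K : Set X) → K.IsSubnormal

/-- the hypotheses of the ZN-group statements -/
def ZNHyp (G : Type*) [Group G] : Prop :=
  Cfsg.IsCharacteristicTwoType G ∧
    (∀ N : Subgroup G, Cfsg.IsTwoLocal N → Group.IsSolvable ↥N) ∧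
    ∀ S : Sylow 2 G, Subgroup.centralizer (Cfsg.omegaCenterOf (S : Subgroup G) : Set G) ≤
      Subgroup.normalizer ((S : Subgroup G) : Set G)

/-- JL-TRA -/
def TraStmt.{w} : Prop :=
  ∀ (G : Type w) [Group G] [Finite G] (T L : Subgroup G), L ∈ Cfsg.jOvergroups T →
    IsPGroup 2 ↥(T.subgroupOf L) ∧ Odd (T.subgroupOf L).index ∧
      Subgroup.centralizer (Cfsg.pCore 2 ↥L : Set ↥L) ≤ Cfsg.pCore 2 ↥L

/-- JL-TRB -/
def TrbStmt.{w} : Prop :=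
  ∀ (G : Type w) [Group G] [Finite G], ZNHyp G → ∀ (T L : Subgroup G), L ∈ Cfsg.jOvergroups T →
    Group.IsSolvable ↥L

/-- JL-TRC -/
def TrcStmt.{w} : Prop :=
  ∀ (G : Type w) [Group G] [Finite G], ZNHyp G → ∀ (T L : Subgroup G), L ∈ Cfsg.jOvergroups T →
    ∀ x : ↥L, (∀ z ∈ Cfsg.omegaCenterOf (T.subgroupOf L), x * z = z * x) →
      x ∈ Subgroup.normalizer ((T.subgroupOf L : Subgroup ↥L) : Set ↥L)

/-- JL-TRJ -/
def TrjStmt.{w} : Prop :=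
  ∀ (G : Type w) [Group G] [Finite G] (T L : Subgroup G), T ≤ L →
    ∃ 𝒮 : Set (Subgroup ↥L), (∀ A ∈ 𝒮, IsMaxEA (T.subgroupOf L) A) ∧
      sSup 𝒮 = (Cfsg.thompsonSubgroupOf 2 T).subgroupOf L

/-- JL-TRK -/
def TrkStmt.{w} : Prop :=
  ∀ (G : Type w) [Group G] [Finite G] (T K L : Subgroup G), Cfsg.IsJComponent T K → K ≤ L →
    T ≤ L →
    ⁅K.subgroupOf L, (Cfsg.thompsonSubgroupOf 2 T).subgroupOf L⁆ = K.subgroupOf L ∧
      Subgroup.closure {g : ↥L | g ∈ K.subgroupOf L ∧ Odd (orderOf g)} = K.subgroupOf L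

/-- JL-TRQ -/
def TrqStmt.{w} : Prop :=
  ∀ (G : Type w) [Group G] [Finite G], ZNHyp G → ∀ (T : Subgroup G), IsPGroup 2 ↥T → T ≠ ⊥ →
    ∀ L : Subgroup G, L ∈ Cfsg.jOvergroups T → ∀ K : Subgroup G, Cfsg.IsJComponent T K → K ≤ L →
      Cfsg.pCore 2 ↥L ≤ Subgroup.normalizer ((K.subgroupOf L : Subgroup ↥L) : Set ↥L)

/-- the abstract theorem: in the setting, a subgroup `K = [K, J]` generated by its elements of odd
order and normalized by `O₂(X)`, where `J` is generated by elementary abelian subgroups of `T` of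
largest order, is subnormal -/
def MainStmt.{w} : Prop :=
  ∀ (X : Type w) [Group X] [Finite X] (T : Subgroup X), Setting X T →
    ∀ (𝒮 : Set (Subgroup X)) (K : Subgroup X), (∀ A ∈ 𝒮, IsMaxEA T A) →
      ⁅K, sSup 𝒮⁆ = K → Subgroup.closure {g : X | g ∈ K ∧ Odd (orderOf g)} = K →
      Cfsg.pCore 2 X ≤ Subgroup.normalizer (K : Set X) → K.IsSubnormal

end Cfsg.Agent.Lib.Helper72.JL
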