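import Mathlib

/-!
# Interface for S4305 (fixed-point-free coprime action of `S₃` on a solvable group)

Everything is phrased for a finite commutative group `V` and subgroups / elements of `MulAut V`
(so `(g * h) v = g (h v)` holds by `rfl` and conjugation is `g * x * g⁻¹`).

The `…Stmt` definitions below are the exact statements of the pieces of the proof; each piece is
proved separately as `theorem … : …Stmt.{u}` (possibly from other pieces taken as hypotheses).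
-/

set_option autoImplicit false

namespace Cfsg.Agent.Lib.Helper72.S3F

universe u

section Defs

variable {V : Type u} [CommGroup V]

/-- Common fixed points in `V` of a subgroup `B` of automorphisms. -/
def fix (B : Subgroup (MulAut V)) : Subgroup V where
  carrier := {v | ∀ b ∈ B, b v = v}
  mul_mem' := by
    intro a b ha hb c hc
    show c (a * b) = a * b
    rw [map_mul, ha c hc, hb c hc]
  one_mem' := by
    intro c _
    exact map_one c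
  inv_mem' := by
    intro a ha c hc
    show c a⁻¹ = a⁻¹
    rw [map_inv, ha c hc]

theorem mem_fix {B : Subgroup (MulAut V)} {v : V} : v ∈ fix B ↔ ∀ b ∈ B, b v = v := Iff.rfl

/-- `[R, g]`: the subgroup generated by the elements `u⁻¹ * (g * u * g⁻¹)`, `u ∈ R`. -/
def cm (R : Subgroup (MulAut V)) (g : MulAut V) : Subgroup (MulAut V) :=
  Subgroup.closure {x | ∃ u ∈ R, x = u⁻¹ * (g * u * g⁻¹)}

/-- `H` is commutative (elementwise form). -/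
def Comm (H : Subgroup (MulAut V)) : Prop := ∀ x ∈ H, ∀ y ∈ H, x * y = y * x

/-- `f`, `t` satisfy the relations of `S₃` (they generate a quotient of `S₃`). -/
structure S3 (f t : MulAut V) : Prop where
  f3 : f ^ 3 = 1
  t2 : t ^ 2 = 1
  tf : t * f * t⁻¹ = f⁻¹

/-- `⟨f, t⟩` normalises `H`, coprimely and without nontrivial common fixed points in `H`. -/
structure Act (H : Subgroup (MulAut V)) (f t : MulAut V) : Prop where
  s3 : S3 f t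
  fH : ∀ x ∈ H, f * x * f⁻¹ ∈ H
  tH : ∀ x ∈ H, t * x * t⁻¹ ∈ H
  cop : (Nat.card H).Coprime 6
  fpf : ∀ x ∈ H, f * x * f⁻¹ = x → t * x * t⁻¹ = x → x = 1

/-- `V` is a nontrivial elementary abelian `p`-group on which `⟨f, t⟩` has no nontrivial common
fixed point. -/
structure Mod (p : ℕ) (f t : MulAut V) : Prop where
  pp : p.Prime
  exp : ∀ v : V, v ^ p = 1
  fpf : ∀ v : V, f v = v → t v = v → v = 1
  nt : ∃ v : V, v ≠ 1

/-- `V` is irreducible under `H`, `f`, `t`. -/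
def Irr (H : Subgroup (MulAut V)) (f t : MulAut V) : Prop :=
  ∀ W : Subgroup V, (∀ x ∈ H, ∀ w ∈ W, x w ∈ W) → (∀ w ∈ W, f w ∈ W) → (∀ w ∈ W, t w ∈ W) →
    W = ⊥ ∨ W = ⊤

/-- The data of the "maximal abelian normal subgroup" situation: `R` is an abelian normal
`f,t`-invariant self-centralising subgroup of `H`, of order prime to `|V|`, with `H / R` abelian and
without `f,t`-invariant subgroups strictly between `R` and `H`; `R ≠ H`; and `Z(H) = 1`. -/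
structure Max (H R : Subgroup (MulAut V)) (f t : MulAut V) : Prop where
  le : R ≤ H
  comm : Comm R
  nH : ∀ h ∈ H, ∀ x ∈ R, h * x * h⁻¹ ∈ R
  fR : ∀ x ∈ R, f * x * f⁻¹ ∈ R
  tR : ∀ x ∈ R, t * x * t⁻¹ ∈ R
  cop : (Nat.card R).Coprime (Nat.card V)
  self : ∀ x ∈ H, (∀ u ∈ R, x * u = u * x) → x ∈ R
  ab : ∀ x ∈ H, ∀ y ∈ H, x * y * x⁻¹ * y⁻¹ ∈ R
  max : ∀ K : Subgroup (MulAut V), R ≤ K → K ≤ H → (∀ x ∈ K, f * x * f⁻¹ ∈ K) →
    (∀ x ∈ K, t * x * t⁻¹ ∈ K) → K = R ∨ K = H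
  ne : ∃ x ∈ H, x ∉ R
  cen : ∀ x ∈ H, (∀ y ∈ H, x * y = y * x) → x = 1

/-- `C_R([H, t])`. -/
def R0 (H R : Subgroup (MulAut V)) (t : MulAut V) : Subgroup (MulAut V) :=
  R ⊓ Subgroup.centralizer (cm H t : Set (MulAut V))

/-- `[H,t] ∩ [H,t^f] ∩ [H,t^{f²}]`. -/
def Q3 (H : Subgroup (MulAut V)) (f t : MulAut V) : Subgroup (MulAut V) :=
  cm H t ⊓ cm H (f * t * f⁻¹) ⊓ cm H (f ^ 2 * t * (f ^ 2)⁻¹)

end Defs

/-! ## The statements of the pieces -/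

/-- Main module-theoretic theorem: a solvable `H` acting faithfully and irreducibly (with `f,t`)
is commutative. -/
def CoreStmt : Prop :=
  ∀ (V : Type u) [CommGroup V] [Finite V] (p : ℕ) (H : Subgroup (MulAut V)) (f t : MulAut V),
    Act H f t → Mod p f t → Irr H f t → Group.IsSolvable H → Comm H

/-- Coprime lifting of fixed points for one automorphism of prime order. -/
def Lift1Stmt : Prop :=
  ∀ (Γ : Type u) [Group Γ] (φ : MulAut Γ) (p : ℕ) (K : Subgroup Γ) (g : Γ),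
    p.Prime → φ ^ p = 1 → Finite K → (Nat.card K).Coprime p → (∀ k ∈ K, φ k ∈ K) →
    g⁻¹ * φ g ∈ K → ∃ k ∈ K, φ (g * k) = g * k

/-- Coprime lifting of fixed points for `⟨φ, τ⟩ ≅ S₃`. -/
def LiftStmt : Prop :=
  ∀ (Γ : Type u) [Group Γ] (φ τ : MulAut Γ) (K : Subgroup Γ) (g : Γ),
    φ ^ 3 = 1 → τ ^ 2 = 1 → τ * φ * τ⁻¹ = φ⁻¹ → Finite K → (Nat.card K).Coprime 6 →
    (∀ k ∈ K, φ k ∈ K) → (∀ k ∈ K, τ k ∈ K) → g⁻¹ * φ g ∈ K → g⁻¹ * τ g ∈ K →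
    ∃ k ∈ K, φ (g * k) = g * k ∧ τ (g * k) = g * k

/-- A fixed-point-free involution inverts, and the group is commutative. -/
def InvStmt : Prop :=
  ∀ (Γ : Type u) [Group Γ] (H : Subgroup Γ) (t : Γ), Finite H → t ^ 2 = 1 →
    (∀ x ∈ H, t * x * t⁻¹ ∈ H) → (∀ x ∈ H, t * x * t⁻¹ = x → x = 1) →
    (∀ x ∈ H, t * x * t⁻¹ = x⁻¹) ∧ (∀ x ∈ H, ∀ y ∈ H, x * y = y * x)

/-- Regular-orbit decomposition, power form. -/
def Reg6Stmt : Prop :=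
  ∀ (V : Type u) [CommGroup V] [Finite V] (f t : MulAut V) (R : Subgroup (MulAut V)),
    S3 f t → (∀ v : V, f v = v → t v = v → v = 1) → Comm R →
    (∀ x ∈ R, f * x * f⁻¹ ∈ R) → (∀ x ∈ R, t * x * t⁻¹ ∈ R) →
    ∀ v : V, ∃ a ∈ fix (cm R f), ∃ w₀ ∈ fix (cm R t), ∃ w₁ ∈ fix (cm R t), ∃ w₂ ∈ fix (cm R t),
      v ^ Nat.card R = a * w₀ * f w₁ * f (f w₂)

/-- Regular-orbit decomposition, coprime form. -/
def Reg6cStmt : Prop :=
  ∀ (V : Type u) [CommGroup V] [Finite V] (f t : MulAut V) (R : Subgroup (MulAut V)),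
    S3 f t → (∀ v : V, f v = v → t v = v → v = 1) → Comm R →
    (∀ x ∈ R, f * x * f⁻¹ ∈ R) → (∀ x ∈ R, t * x * t⁻¹ ∈ R) →
    (Nat.card R).Coprime (Nat.card V) →
    ∀ v : V, ∃ a ∈ fix (cm R f), ∃ w₀ ∈ fix (cm R t), ∃ w₁ ∈ fix (cm R t), ∃ w₂ ∈ fix (cm R t),
      v = a * w₀ * f w₁ * f (f w₂)

/-- If the norm of `f` vanishes on `V`, then `f` centralises abelian `f`-invariant coprime
subgroups. -/
def Reg3Stmt : Prop :=
  ∀ (V : Type u) [CommGroup V] [Finite V] (f : MulAut V) (R : Subgroup (MulAut V)),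
    f ^ 3 = 1 → (∀ v : V, v * f v * f (f v) = 1) → Comm R → (∀ x ∈ R, f * x * f⁻¹ ∈ R) →
    (Nat.card R).Coprime (Nat.card V) → ∀ u ∈ R, f * u * f⁻¹ = u

/-- Two families of subgroups of an abelian coprime `R`. -/
def LemXStmt : Prop :=
  ∀ (V : Type u) [CommGroup V] [Finite V] (R : Subgroup (MulAut V)) (ι κ : Type)
    (B : ι → Subgroup (MulAut V)) (B' : κ → Subgroup (MulAut V)),
    Comm R → (Nat.card R).Coprime (Nat.card V) → (∀ i, B i ≤ R) → (∀ j, B' j ≤ R) →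
    (⨆ j, fix (B' j)) = ⊤ → (∀ i j, fix (B i ⊔ B' j) = ⊥) → ∀ i, fix (B i) = ⊥

/-- If the three `[H, tᵢ]` intersect trivially then `H` is commutative. -/
def LemQStmt : Prop :=
  ∀ (V : Type u) [CommGroup V] [Finite V] (H : Subgroup (MulAut V)) (f t : MulAut V),
    Act H f t → Q3 H f t = ⊥ → Comm H

/-- A "block" decomposition `V = B₀ ⊕ f B₀ ⊕ f² B₀` forces `Q3 = ⊥`. -/
def BlockStmt : Prop :=
  ∀ (V : Type u) [CommGroup V] [Finite V] (H : Subgroup (MulAut V)) (f t : MulAut V)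
    (B₀ : Subgroup V),
    Act H f t → (∀ v : V, f v = v → t v = v → v = 1) →
    (∀ x ∈ H, ∀ w ∈ B₀, x w ∈ B₀) → (∀ w ∈ B₀, t w ∈ B₀) →
    (∀ w ∈ B₀, ∀ w₁ ∈ B₀, ∀ w₂ ∈ B₀, w = f w₁ * f (f w₂) → w = 1) →
    (∀ v : V, ∃ w₀ ∈ B₀, ∃ w₁ ∈ B₀, ∃ w₂ ∈ B₀, v = w₀ * f w₁ * f (f w₂)) →
    Q3 H f t = ⊥

/-- A central `f,t`-invariant coprime subgroup not centralised by `f` forces commutativity. -/
def GenStepStmt : Prop :=
  ∀ (V : Type u) [CommGroup V] [Finite V] (H Z : Subgroup (MulAut V)) (f t : MulAut V),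
    Act H f t → (∀ v : V, f v = v → t v = v → v = 1) → Irr H f t →
    Z ≤ H → (∀ z ∈ Z, ∀ x ∈ H, z * x = x * z) →
    (∀ z ∈ Z, f * z * f⁻¹ ∈ Z) → (∀ z ∈ Z, t * z * t⁻¹ ∈ Z) →
    (Nat.card Z).Coprime (Nat.card V) → (∃ z ∈ Z, f * z * f⁻¹ ≠ z) → Comm H

/-- In a non-commutative `H`, a nontrivial central `f,t`-invariant coprime subgroup is centralised
by `f`, and the norm of `f` vanishes on `V`. -/
def ZfStmt : Prop :=
  ∀ (V : Type u) [CommGroup V] [Finite V] (H Z : Subgroup (MulAut V)) (f t : MulAut V),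
    Act H f t → (∀ v : V, f v = v → t v = v → v = 1) → Irr H f t → ¬ Comm H →
    Z ≤ H → (∀ z ∈ Z, ∀ x ∈ H, z * x = x * z) →
    (∀ z ∈ Z, f * z * f⁻¹ ∈ Z) → (∀ z ∈ Z, t * z * t⁻¹ ∈ Z) →
    (Nat.card Z).Coprime (Nat.card V) → Z ≠ ⊥ →
    (∀ z ∈ Z, f * z * f⁻¹ = z) ∧ (∀ v : V, v * f v * f (f v) = 1)

/-- Extraspecial-type independence. -/
def EsStmt : Prop :=
  ∀ (V : Type u) [CommGroup V] [Finite V] (x₀ x₁ : MulAut V) (r : ℕ) (W : Subgroup V),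
    r.Prime → 3 ≤ r → r.Coprime (Nat.card V) →
    x₀ ^ r = 1 → (x₀ * x₁ * x₀⁻¹ * x₁⁻¹) ^ r = 1 →
    (x₀ * x₁ * x₀⁻¹ * x₁⁻¹) * x₀ = x₀ * (x₀ * x₁ * x₀⁻¹ * x₁⁻¹) →
    (x₀ * x₁ * x₀⁻¹ * x₁⁻¹) * x₁ = x₁ * (x₀ * x₁ * x₀⁻¹ * x₁⁻¹) →
    (∀ w ∈ W, x₀ w ∈ W) → (∀ w ∈ W, x₁ w ∈ W) →
    (∀ w ∈ W, x₀⁻¹ w ∈ W) → (∀ w ∈ W, x₁⁻¹ w ∈ W) →
    (∀ w ∈ W, (x₀ * x₁ * x₀⁻¹ * x₁⁻¹) w = w → w = 1) →
    (∀ v₀ ∈ W, ∀ v₁ ∈ W, ∀ v₂ ∈ W, x₀ v₀ = v₀ → x₁ v₁ = v₁ → (x₁⁻¹ * x₀⁻¹) v₂ = v₂ →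
      v₀ * v₁ * v₂ = 1 → v₀ = 1) ∧
    (W ≠ ⊥ → ∃ v ∈ W, v ≠ 1 ∧ x₀ v = v)

/-- Group-theoretic reduction for `NMStmt`: a minimal counterexample contains an
extraspecial-like configuration. -/
def NMAStmt : Prop :=
  ∀ (Γ : Type u) [Group Γ] (H : Subgroup Γ) (f : Γ),
    Finite H → Group.IsSolvable H → f ^ 3 = 1 → (∀ x ∈ H, f * x * f⁻¹ ∈ H) →
    (Nat.card H).Coprime 6 →
    (∀ R : Subgroup Γ, R ≤ H → (∀ x ∈ R, ∀ y ∈ R, x * y = y * x) → (∀ x ∈ R, f * x * f⁻¹ ∈ R) →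
      ∀ u ∈ R, f * u * f⁻¹ = u) →
    (∃ x ∈ H, f * x * f⁻¹ ≠ x) →
    ∃ (r : ℕ) (y : Γ), r.Prime ∧ r ∣ Nat.card H ∧ y ∈ H ∧ y ^ r = 1 ∧
      y * (f * y * f⁻¹) * y⁻¹ * (f * y * f⁻¹)⁻¹ ≠ 1 ∧
      (y * (f * y * f⁻¹) * y⁻¹ * (f * y * f⁻¹)⁻¹) ^ r = 1 ∧
      (y * (f * y * f⁻¹) * y⁻¹ * (f * y * f⁻¹)⁻¹) * y = y * (y * (f * y * f⁻¹) * y⁻¹ * (f * y * f⁻¹)⁻¹) ∧
      (y * (f * y * f⁻¹) * y⁻¹ * (f * y * f⁻¹)⁻¹) * (f * y * f⁻¹) =
        (f * y * f⁻¹) * (y * (f * y * f⁻¹) * y⁻¹ * (f * y * f⁻¹)⁻¹) ∧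
      f * (y * (f * y * f⁻¹) * y⁻¹ * (f * y * f⁻¹)⁻¹) * f⁻¹ = y * (f * y * f⁻¹) * y⁻¹ * (f * y * f⁻¹)⁻¹ ∧
      y * (f * y * f⁻¹) * (f ^ 2 * y * (f ^ 2)⁻¹) = 1

/-- If the norm of `f` vanishes on `V` then `f` centralises every solvable coprime group it
normalises. -/
def NMStmt : Prop :=
  ∀ (V : Type u) [CommGroup V] [Finite V] (H : Subgroup (MulAut V)) (f : MulAut V),
    Group.IsSolvable H → f ^ 3 = 1 → (∀ x ∈ H, f * x * f⁻¹ ∈ H) → (Nat.card H).Coprime 6 →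
    (Nat.card H).Coprime (Nat.card V) → (∀ v : V, v * f v * f (f v) = 1) →
    ∀ x ∈ H, f * x * f⁻¹ = x

/-- Proper normal invariant subgroups are commutative, given the theorem for smaller groups. -/
def C1Stmt : Prop :=
  ∀ (V : Type u) [CommGroup V] [Finite V] (p : ℕ) (H : Subgroup (MulAut V)) (f t : MulAut V),
    Act H f t → Mod p f t → Irr H f t → Group.IsSolvable H →
    (∀ (V' : Type u) [CommGroup V'] [Finite V'] (p' : ℕ) (H' : Subgroup (MulAut V'))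
      (f' t' : MulAut V'), Nat.card H' < Nat.card H → Act H' f' t' → Mod p' f' t' →
      Irr H' f' t' → Group.IsSolvable H' → Comm H') →
    ∀ H₀ : Subgroup (MulAut V), H₀ ≤ H → (∃ x ∈ H, x ∉ H₀) →
      (∀ h ∈ H, ∀ x ∈ H₀, h * x * h⁻¹ ∈ H₀) →
      (∀ x ∈ H₀, f * x * f⁻¹ ∈ H₀) → (∀ x ∈ H₀, t * x * t⁻¹ ∈ H₀) → Comm H₀

/-- Commutative normal invariant subgroups have order prime to `|V|`. -/
def OpStmt : Prop :=
  ∀ (V : Type u) [CommGroup V] [Finite V] (p : ℕ) (H Z₁ : Subgroup (MulAut V)) (f t : MulAut V),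
    Mod p f t → Irr H f t → Comm Z₁ → (∀ h ∈ H, ∀ x ∈ Z₁, h * x * h⁻¹ ∈ Z₁) →
    (∀ x ∈ Z₁, f * x * f⁻¹ ∈ Z₁) → (∀ x ∈ Z₁, t * x * t⁻¹ ∈ Z₁) →
    (Nat.card Z₁).Coprime (Nat.card V)

/-- If `H` has class at most two then `|H|` is prime to `|V|`. -/
def Cl2Stmt : Prop :=
  ∀ (V : Type u) [CommGroup V] [Finite V] (p : ℕ) (H : Subgroup (MulAut V)) (f t : MulAut V),
    Act H f t → Mod p f t → Irr H f t →
    (∀ a ∈ H, ∀ b ∈ H, ∀ c ∈ H, (a * b * a⁻¹ * b⁻¹) * c = c * (a * b * a⁻¹ * b⁻¹)) →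
    (Nat.card H).Coprime (Nat.card V)

/-- Case (i): some `c ∈ H ∖ R` is centralised by `f`. -/
def HpStmt : Prop :=
  ∀ (V : Type u) [CommGroup V] [Finite V] (p : ℕ) (H R : Subgroup (MulAut V)) (f t : MulAut V),
    Act H f t → Mod p f t → Irr H f t → Max H R f t →
    (∃ c ∈ H, c ∉ R ∧ f * c * f⁻¹ = c) → False

/-- Case (ii), group part (F1): `[H, f] R = H`. -/
def F1Stmt : Prop :=
  ∀ (V : Type u) [CommGroup V] [Finite V] (H R : Subgroup (MulAut V)) (f t : MulAut V),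
    Act H f t → Max H R f t → (∀ x ∈ H, f * x * f⁻¹ = x → x ∈ R) → cm H f ⊔ R = H

/-- Case (ii), group part: `t` inverts `R0`, and `R0`, `R0^f`, `R0^{f²}` are independent. -/
def KindStmt : Prop :=
  ∀ (V : Type u) [CommGroup V] [Finite V] (H R : Subgroup (MulAut V)) (f t : MulAut V),
    Act H f t → Max H R f t → (∀ x ∈ H, f * x * f⁻¹ = x → x ∈ R) →
    (∀ u ∈ R0 H R t, t * u * t⁻¹ = u⁻¹) ∧
    (∀ u₀ ∈ R0 H R t, ∀ u₁ ∈ R0 H R t, ∀ u₂ ∈ R0 H R t,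
      u₀ = (f * u₁ * f⁻¹) * (f ^ 2 * u₂ * (f ^ 2)⁻¹) → u₀ = 1)

/-- Case (ii), group part: `R0 ≠ ⊥`. -/
def KnzStmt : Prop :=
  ∀ (V : Type u) [CommGroup V] [Finite V] (H R : Subgroup (MulAut V)) (f t : MulAut V),
    Act H f t → Max H R f t → (∀ x ∈ H, f * x * f⁻¹ = x → x ∈ R) → R0 H R t ≠ ⊥

/-- Case (ii), module part. -/
def KmodStmt : Prop :=
  ∀ (V : Type u) [CommGroup V] [Finite V] (p : ℕ) (H R : Subgroup (MulAut V)) (f t : MulAut V),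
    Act H f t → Mod p f t → Irr H f t → Max H R f t → R0 H R t ≠ ⊥ →
    (∀ u ∈ R0 H R t, t * u * t⁻¹ = u⁻¹) →
    (∀ u₀ ∈ R0 H R t, ∀ u₁ ∈ R0 H R t, ∀ u₂ ∈ R0 H R t,
      u₀ = (f * u₁ * f⁻¹) * (f ^ 2 * u₂ * (f ^ 2)⁻¹) → u₀ = 1) →
    Comm H

/-- The statement S4305 itself (for groups in universe `u`). -/
def MainStmt : Prop :=
  ∀ (G : Type u) [Group G] [Finite G] [Group.IsSolvable G]
    [MulDistribMulAction (Equiv.Perm (Fin 3)) G], (Nat.card G).Coprime 6 →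
    (∀ g : G, (∀ a : Equiv.Perm (Fin 3), a • g = g) → g = 1) →
    Group.IsNilpotent ↥(commutator G)

end Cfsg.Agent.Lib.Helper72.S3F
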