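import Mathlib
import Cfsg.Agent.Lib.Helper72.JLDefs
import Cfsg.Agent.Lib.Helper41.Cores

/-! Interface, part 1, for the S2943 project JM (helper72): a sharper form of the piece JL-EXTM
(the normal subgroup of order 3 attached to a minimal best offender) and its reduction. -/

set_option autoImplicit false

namespace Cfsg.Agent.Lib.Helper72.JM

open Cfsg.Agent.Lib.Helper72.SC
open Cfsg.Agent.Lib.Helper72.JL
open Cfsg.Agent.Lib.Helper78.Jc

open scoped commutatorElement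

universe u

/-- JM-EXTM2 -/
def Extm2Stmt.{w} : Prop :=
  ∀ (G : Type w) [Group G] [Finite G] (V H : Subgroup G), Cfsg.IsElementaryAbelian 2 V →
    H ≤ Subgroup.normalizer (V : Set G) → H ⊓ Subgroup.centralizer (V : Set G) = ⊥ →
    Subgroup.centralizer (Cfsg.pPrimeCore 2 ↥H : Set ↥H) ≤ Cfsg.pPrimeCore 2 ↥H →
    H = ⨆ A : {A : Subgroup G // A ≤ H ∧ Cfsg.IsBestOffenderOn 2 V A}, (A : Subgroup G) →
    ∀ B : Subgroup G, B ≤ H → Cfsg.IsBestOffenderOn 2 V B → ⁅V, B⁆ ≠ ⊥ →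
      (∀ C : Subgroup G, C ≤ B → Cfsg.IsBestOffenderOn 2 V C → ⁅V, C⁆ ≠ ⊥ → C = B) →
      ∃ M : Subgroup G, M ≤ H ∧ (∀ h ∈ H, ∀ m ∈ M, h * m * h⁻¹ ∈ M) ∧ Nat.card ↥M = 3 ∧
        ∀ h ∈ H, ∀ b ∈ B, h * b * h⁻¹ * b⁻¹ ∈ M

/-- JL-EXTM follows from JM-EXTM2 -/
theorem extm_of_extm2 (h : Extm2Stmt.{u}) : ExtmStmt.{u} := by
  intro G _ _ V H hV hHV hf hS1 hS3 B hBH hB hVB hmin x hx b hb
  obtain ⟨M, hMH, hMn, hM3, hMc⟩ := h G V H hV hHV hf hS1 hS3 B hBH hB hVB hmin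
  have hle : M ≤ (Cfsg.pCore 3 ↥H).map H.subtype := by
    have hn : (M.subgroupOf H).Normal := by
      refine ⟨fun m hm g => ?_⟩
      rw [Subgroup.mem_subgroupOf] at hm ⊢
      exact hMn g.1 g.2 m.1 hm
    have h3 : IsPGroup 3 ↥(M.subgroupOf H) := by
      have hc : Nat.card ↥(M.subgroupOf H) = 3 ^ 1 := by
        rw [Nat.card_congr (Subgroup.subgroupOfEquivOfLe hMH).toEquiv, hM3]; rfl
      haveI : Fact (Nat.Prime 3) := ⟨Nat.prime_three⟩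
      exact IsPGroup.of_card hc
    have h4 : M.subgroupOf H ≤ Cfsg.pCore 3 ↥H := le_sSup ⟨hn, h3⟩
    intro m hm
    exact ⟨⟨m, hMH hm⟩, h4 (by rw [Subgroup.mem_subgroupOf]; exact hm), rfl⟩
  exact hle (hMc x hx b hb)

end Cfsg.Agent.Lib.Helper72.JM
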