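import Mathlib
import Cfsg.Prelude.Def_JComponents
import Cfsg.Agent.Lib.Helper72.JLDefs
import Cfsg.Agent.Lib.Helper72.JMExt

/-! Interface, part 2, for the S2943 project JM (helper72): a Sylow 2-subgroup `T` of an
overgroup `L` normalizes a `J(T)`-component `K ≤ L` of a ZN-group when `Z(T)` meets `W_K`.
The exact statements of the pieces. -/

set_option autoImplicit false

namespace Cfsg.Agent.Lib.Helper72.JM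

open Cfsg.Agent.Lib.Helper72.SC
open Cfsg.Agent.Lib.Helper72.JL
open Cfsg.Agent.Lib.Helper78.Jc

open scoped commutatorElement

universe u

/-- JM-EXTC -/
def ExtcStmt.{w} : Prop :=
  ∀ (G : Type w) [Group G] [Finite G] (V H : Subgroup G), Cfsg.IsElementaryAbelian 2 V →
    H ≤ Subgroup.normalizer (V : Set G) → H ⊓ Subgroup.centralizer (V : Set G) = ⊥ →
    Subgroup.centralizer (Cfsg.pPrimeCore 2 ↥H : Set ↥H) ≤ Cfsg.pPrimeCore 2 ↥H →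
    H = ⨆ A : {A : Subgroup G // A ≤ H ∧ Cfsg.IsBestOffenderOn 2 V A}, (A : Subgroup G) →
    ∀ a ∈ (Cfsg.pCore 3 ↥H).map H.subtype, ∀ b ∈ (Cfsg.pCore 3 ↥H).map H.subtype, a * b = b * a

/-- the sharper external structure: moreover `N` is commutative (JM-EXTD proves it from FFA, FFB,
EXTA, EXTC) -/
def Ext2Stmt.{w} : Prop :=
  ∀ (V : Type w) [Group V] [Finite V] (Gb : Subgroup (MulAut V)),
    (∀ a b : V, a * b = b * a) → (∀ v : V, v ^ 2 = 1) →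
    Cfsg.IsPSolvable 2 ↥Gb → Cfsg.pCore 2 ↥Gb = ⊥ →
    ∃ N : Subgroup (MulAut V), N ≤ Gb ∧ (∀ g ∈ Gb, ∀ n ∈ N, g * n * g⁻¹ ∈ N) ∧ IsPGroup 3 ↥N ∧
      (∀ h : MulAut V, (SemidirectProduct.inr h : Gam V) ∈ Hs 2 Gb → h * h ∈ N) ∧
      ∀ a ∈ N, ∀ b ∈ N, a * b = b * a

/-- JM-C2 -/
def C2Stmt.{w} : Prop :=
  ∀ (X : Type w) [Group X] [Finite X] (T : Subgroup X), Setting X T →
    ∀ N : Subgroup (MulAut ↥(VT T)), IsPGroup 3 ↥N →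
      ∀ p : X, rhoT T p ∈ N → (∃ n : ℕ, p ^ 2 ^ n = 1) → p ∈ Cfsg.pCore 2 X

/-- JM-WZ -/
def WzStmt.{w} : Prop :=
  ∀ (X : Type w) [Group X] [Finite X] (T W : Subgroup X) (k z : X),
    Nat.card ↥W = 4 → (∀ w ∈ W, w * w = 1) → (∀ w ∈ W, k * w * k⁻¹ ∈ W) →
    (∀ w ∈ W, k * w * k⁻¹ = w → w = 1) → z ∈ W → z ≠ 1 → z ∈ T → (∀ t ∈ T, t * z = z * t) →
    W ≤ VT T

/-- JM-WV -/
def WvStmt.{w} : Prop :=
  ∀ (X : Type w) [Group X] (V Q K P W : Subgroup X) (k : X), V.Normal → V ≤ Q →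
    (∀ a ∈ V, ∀ b ∈ V, a * b = b * a) → (∀ a ∈ V, a * a = 1) →
    (∀ q ∈ Q, ∀ v ∈ V, q * v = v * q) → Q ≤ Subgroup.normalizer (K : Set X) → P ≤ Q →
    (∀ x ∈ K, (∃ n : ℕ, x ^ 2 ^ n = 1) → x ∈ P) → k ∈ K → k ^ 3 = 1 →
    (∀ w ∈ W, k * w * k⁻¹ ∈ W) →
    (∀ u ∈ P, (∀ p ∈ P, u * p = p * u) → u * u = 1 → ⁅u, k⁆ ∈ W) →
    ∀ v ∈ V, ⁅k, v⁆ ∈ W

/-- JM-YY -/
def YyStmt.{w} : Prop :=
  ∀ (V : Type w) [Group V] [Finite V], (∀ a b : V, a * b = b * a) → (∀ v : V, v * v = 1) →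
    ∀ N : Subgroup (MulAut V), IsPGroup 3 ↥N → (∀ a ∈ N, ∀ b ∈ N, a * b = b * a) →
    ∀ y y' : MulAut V, y ∈ N → y' ∈ N →
    ∀ W W' : Subgroup V, Nat.card ↥W = 4 → Nat.card ↥W' = 4 →
      (∀ v : V, y v * v⁻¹ ∈ W) → (∀ v : V, y' v * v⁻¹ ∈ W') →
      (∀ w ∈ W, y w = w → w = 1) → (∀ w ∈ W', y' w = w → w = 1) →
      ∀ z : V, z ∈ W → z ∈ W' → z ≠ 1 → ∃ i : ℕ, y' = y ^ i

/-- JM-YX -/
def YxStmt.{w} : Prop :=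
  ∀ (X : Type w) [Group X] [Finite X] (T : Subgroup X), Setting X T →
    ∀ N : Subgroup (MulAut ↥(VT T)), IsPGroup 3 ↥N → (∀ a ∈ N, ∀ b ∈ N, a * b = b * a) →
    ∀ (W : Subgroup X) (k z g : X), rhoT T k ∈ N → rhoT T (g * k * g⁻¹) ∈ N →
      W ≤ VT T → Nat.card ↥W = 4 → (∀ v ∈ VT T, ⁅k, v⁆ ∈ W) →
      (∀ w ∈ W, k * w * k⁻¹ = w → w = 1) → z ∈ W → z ≠ 1 → g * z = z * g →
      ∃ i : ℕ, rhoT T (g * k * g⁻¹) = rhoT T (k ^ i)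

/-- JM-GR -/
def GrStmt.{w} : Prop :=
  ∀ (X : Type w) [Group X] [Finite X] (Q C K J : Subgroup X), Q.Normal → IsPGroup 2 ↥Q →
    C.Normal → (∀ c ∈ C, ∀ j ∈ J, ⁅c, j⁆ ∈ Q) → ⁅K, J⁆ = K →
    Subgroup.closure {g : X | g ∈ K ∧ Odd (orderOf g)} = K →
    Q ≤ Subgroup.normalizer (K : Set X) →
    ∀ g : X, g ∈ Subgroup.normalizer (J : Set X) →
      (∀ x ∈ K, ∃ k ∈ K, ∃ c ∈ C, g * x * g⁻¹ = k * c) → ∀ x ∈ K, g * x * g⁻¹ ∈ K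

/-- the structure of a `J(T)`-component `K` with `Z(T) ∩ W_K ≠ 1`, in elementwise form:
`P = O₂(K)`, `W = W_K`, `k ∈ K` of order 3, `z ∈ Z(T) ∩ W` -/
def KData {X : Type*} [Group X] (T K : Subgroup X) : Prop :=
  ∃ (P W : Subgroup X) (k z : X),
    P ≤ K ∧ (∀ p ∈ P, ∃ n : ℕ, p ^ 2 ^ n = 1) ∧ (∀ x ∈ K, (∃ n : ℕ, x ^ 2 ^ n = 1) → x ∈ P) ∧
    k ∈ K ∧ k ^ 3 = 1 ∧ (∀ x ∈ K, ∃ p ∈ P, ∃ i : ℕ, x = p * k ^ i) ∧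
    W ≤ P ∧ Nat.card ↥W = 4 ∧ (∀ w ∈ W, w * w = 1) ∧ (∀ w ∈ W, k * w * k⁻¹ ∈ W) ∧
    (∀ w ∈ W, k * w * k⁻¹ = w → w = 1) ∧
    (∀ u ∈ P, (∀ p ∈ P, u * p = p * u) → u * u = 1 → ⁅u, k⁆ ∈ W) ∧
    z ∈ W ∧ z ≠ 1 ∧ z ∈ T ∧ ∀ t ∈ T, t * z = z * t

/-- JM-KD -/
def KdStmt.{w} : Prop :=
  ∀ (G : Type w) [Group G] [Finite G] (T K : Subgroup G), Cfsg.IsJComponent T K →
    T ⊓ Subgroup.centralizer (T : Set G) ⊓ Cfsg.wOf K ≠ ⊥ → KData T K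

/-- JM-KT -/
def KtStmt.{w} : Prop :=
  ∀ (G : Type w) [Group G] (T K L : Subgroup G), K ≤ L → T ≤ L → KData T K →
    KData (T.subgroupOf L) (K.subgroupOf L)

/-- JM-TRN -/
def TrnStmt.{w} : Prop :=
  ∀ (G : Type w) [Group G] (T L : Subgroup G),
    T.subgroupOf L ≤ Subgroup.normalizer
      (((Cfsg.thompsonSubgroupOf 2 T).subgroupOf L : Subgroup ↥L) : Set ↥L)

/-- the abstract theorem: in the setting, `T` normalizes `K` -/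
def Main2Stmt.{w} : Prop :=
  ∀ (X : Type w) [Group X] [Finite X] (T : Subgroup X), Setting X T →
    ∀ (𝒮 : Set (Subgroup X)) (K : Subgroup X), (∀ A ∈ 𝒮, IsMaxEA T A) →
      T ≤ Subgroup.normalizer ((sSup 𝒮 : Subgroup X) : Set X) →
      ⁅K, sSup 𝒮⁆ = K → Subgroup.closure {g : X | g ∈ K ∧ Odd (orderOf g)} = K →
      Cfsg.pCore 2 X ≤ Subgroup.normalizer (K : Set X) → KData T K →
      ∀ g ∈ T, ∀ x ∈ K, g * x * g⁻¹ ∈ K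

end Cfsg.Agent.Lib.Helper72.JM
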