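import Mathlib
import Cfsg.Agent.Lib.Helper18.CTDefs

/-! Project CT (helper18, S4699), piece TAU4B (helper72): the orbit of a generator `x` of a cyclic
`p`-group `P` under the normalizer has at most `p - 1` elements, when the elements acting on `P`
by a power `≡ 1 mod p` act trivially. -/

set_option autoImplicit false

namespace Cfsg.Agent.Lib.Helper18.CT

variable {G : Type*} [Group G] {F : Type*} [Field F] {V : Type*} [AddCommGroup V] [Module F V]

theorem tau4b_mem_orbN [Finite G] (P : Subgroup G) (x u : G) :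
    u ∈ orbN P x ↔ ∃ g ∈ Subgroup.normalizer (P : Set G), u = g * x * g⁻¹ := by
  unfold orbN
  rw [Set.Finite.mem_toFinset]
  rfl

theorem tau4b_exists_pow [Finite G] (P : Subgroup G) (x : G) (hx : Subgroup.zpowers x = P)
    (g : G) (hg : g ∈ Subgroup.normalizer (P : Set G)) : ∃ a : ℕ, x ^ a = g * x * g⁻¹ := by
  have hxP : x ∈ P := hx ▸ Subgroup.mem_zpowers x
  have h1 : g * x * g⁻¹ ∈ P := (Subgroup.mem_normalizer_iff.mp hg x).mp hxP
  rw [← hx] at h1
  have h2 : g * x * g⁻¹ ∈ Submonoid.powers x :=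
    (isOfFinOrder_of_finite x).mem_powers_iff_mem_zpowers.mpr h1
  exact (Submonoid.mem_powers_iff _ _).mp h2

-- piece TAU4B
theorem orbN_card_le [Finite G] (p : ℕ) [Fact p.Prime] (P : Subgroup G) (x : G)
    (hx : Subgroup.zpowers x = P) (n : ℕ) (hn : 1 ≤ n) (hord : orderOf x = p ^ n)
    (hA : ∀ k ∈ Subgroup.normalizer (P : Set G), ∀ c : ℕ, k * x * k⁻¹ = x ^ c → c % p = 1 % p →
      k * x * k⁻¹ = x) :
    (orbN P x).card ≤ p - 1 := by
  classical
  have hp : p.Prime := Fact.out
  have : NeZero p := ⟨hp.ne_zero⟩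
  let φ : G → ZMod p := fun u =>
    if h : ∃ a : ℕ, x ^ a = u then ((Classical.choose h : ℕ) : ZMod p) else 0
  have hφ : ∀ u, ∀ h : ∃ a : ℕ, x ^ a = u, φ u = ((Classical.choose h : ℕ) : ZMod p) := by
    intro u h
    simp only [φ, dif_pos h]
  have hmaps : ∀ u ∈ orbN P x, φ u ∈ (Finset.univ.erase (0 : ZMod p)) := by
    intro u hu
    rw [Finset.mem_erase]
    refine ⟨?_, Finset.mem_univ _⟩
    obtain ⟨g, hg, rfl⟩ := (tau4b_mem_orbN P x u).mp hu
    have hex := tau4b_exists_pow P x hx g hg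
    rw [hφ _ hex]
    have ha := Classical.choose_spec hex
    set a := Classical.choose hex with ha_def
    intro h0
    have hpa : p ∣ a := (ZMod.natCast_eq_zero_iff a p).mp h0
    have ho : orderOf (g * x * g⁻¹) = p ^ n := by
      have := MulEquiv.orderOf_eq (MulAut.conj g) x
      rw [MulAut.conj_apply] at this
      rw [this, hord]
    have h1 : (g * x * g⁻¹) ^ (p ^ (n - 1)) = 1 := by
      rw [← ha, ← pow_mul]
      obtain ⟨a', ha'⟩ := hpa
      rw [ha']
      have : p * a' * p ^ (n - 1) = p ^ n * a' := by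
        have hn' : p ^ n = p ^ (n - 1) * p := by
          rw [← pow_succ]; congr 1; omega
        rw [hn']; ring
      rw [this, pow_mul, ← hord, pow_orderOf_eq_one, one_pow]
    have h2 : p ^ n ∣ p ^ (n - 1) := by
      rw [← ho]; exact orderOf_dvd_of_pow_eq_one h1
    have h3 := (Nat.pow_dvd_pow_iff_le_right hp.one_lt).mp h2
    omega
  have hinj : Set.InjOn φ (orbN P x : Set G) := by
    intro u hu u' hu' hφuu'
    obtain ⟨g, hg, rfl⟩ := (tau4b_mem_orbN P x u).mp hu
    obtain ⟨h, hh, rfl⟩ := (tau4b_mem_orbN P x u').mp hu'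
    have hexg := tau4b_exists_pow P x hx g hg
    have hexh := tau4b_exists_pow P x hx h hh
    rw [hφ _ hexg, hφ _ hexh] at hφuu'
    have ha := Classical.choose_spec hexg
    have hb := Classical.choose_spec hexh
    set a := Classical.choose hexg
    set b := Classical.choose hexh
    have hab : a ≡ b [MOD p] := (ZMod.natCast_eq_natCast_iff a b p).mp hφuu'
    have hh' : h⁻¹ ∈ Subgroup.normalizer (P : Set G) := Subgroup.inv_mem _ hh
    obtain ⟨b', hb'⟩ := tau4b_exists_pow P x hx h⁻¹ hh'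
    rw [inv_inv] at hb'
    -- x = x^(b' * b)
    have h1 : x ^ (b' * b) = x ^ 1 := by
      rw [pow_mul, hb', pow_one]
      have : (h⁻¹ * x * h) ^ b = h⁻¹ * x ^ b * h := by
        have := map_pow (MulAut.conj h⁻¹) x b
        simp only [MulAut.conj_apply, inv_inv] at this
        exact this.symm
      rw [this, hb]; group
    have h2 : b' * b ≡ 1 [MOD p] := by
      have h3 : b' * b ≡ 1 [MOD orderOf x] := pow_eq_pow_iff_modEq.mp h1
      rw [hord] at h3
      exact h3.of_dvd (dvd_pow_self p (by omega))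
    have hk : h⁻¹ * g ∈ Subgroup.normalizer (P : Set G) := Subgroup.mul_mem _ hh' hg
    have h4 : (h⁻¹ * g) * x * (h⁻¹ * g)⁻¹ = x ^ (b' * a) := by
      have e1 : (h⁻¹ * g) * x * (h⁻¹ * g)⁻¹ = h⁻¹ * (g * x * g⁻¹) * h := by group
      rw [e1, ← ha, pow_mul, hb']
      have := map_pow (MulAut.conj h⁻¹) x a
      simp only [MulAut.conj_apply, inv_inv] at this
      exact this
    have h5 : (b' * a) % p = 1 % p := by
      have : b' * a ≡ b' * b [MOD p] := Nat.ModEq.mul_left b' hab
      exact this.trans h2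
    have h6 := hA (h⁻¹ * g) hk (b' * a) h4 h5
    have e2 : g * x * g⁻¹ = h * ((h⁻¹ * g) * x * (h⁻¹ * g)⁻¹) * h⁻¹ := by group
    rw [e2, h6]
  have hcard := Finset.card_le_card_of_injOn φ hmaps hinj
  rw [Finset.card_erase_of_mem (Finset.mem_univ _), Finset.card_univ, ZMod.card] at hcard
  exact hcard

end Cfsg.Agent.Lib.Helper18.CT
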