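import Mathlib
import Cfsg.Prelude.Def_JComponents
import Cfsg.Agent.Lib.Helper72.JLDefs
import Cfsg.Agent.Lib.Helper72.JMDefs

/-! Interface for the project JP (helper72): existence of `J(T)`-components in an overgroup
`L ∈ ℒ(T)` of a ZN-group, and generation of `L` by them together with `N_L(J(T))`
(used for S2948, S2949).  Definitions and the exact statements of the pieces. -/

set_option autoImplicit false

namespace Cfsg.Agent.Lib.Helper72.JP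

open Cfsg.Agent.Lib.Helper72.SC
open Cfsg.Agent.Lib.Helper72.JL
open Cfsg.Agent.Lib.Helper72.JM
open Cfsg.Agent.Lib.Helper78.Jc

open scoped commutatorElement

universe u

/-- the subgroup generated by the elementary abelian subgroups of `T` of largest order -/
def JT {X : Type*} [Group X] (T : Subgroup X) : Subgroup X :=
  sSup {A : Subgroup X | IsMaxEA T A}

/-- the subgroup generated by the `Q`-conjugates of `k` -/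
def KOf {X : Type*} [Group X] (Q : Subgroup X) (k : X) : Subgroup X :=
  Subgroup.closure {x : X | ∃ q ∈ Q, x = q * k * q⁻¹}

/-- an abstract `J(T)`-component (all clauses of `Cfsg.IsJComponent` except the Sylow clause) -/
def AbsComp {X : Type*} [Group X] (T K : Subgroup X) : Prop :=
  Subgroup.closure {g : X | g ∈ K ∧ Odd (orderOf g)} = K ∧ ⁅K, JT T⁆ = K ∧
    (Cfsg.pCoreOf 2 K).relIndex K = 3 ∧ Nat.card ↥(Cfsg.wOf K) = 4 ∧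
    ∀ w ∈ Cfsg.wOf K, w * w = 1

/-- a seed of a component: an element `k` of order 3 acting nontrivially on `V = VT T`, inverted
by an element `a` of a largest elementary abelian subgroup of `T`, the group `⟨ρ k⟩` being
normalized by `ρ (JT T)` -/
def KSeed {X : Type*} [Group X] (T : Subgroup X) (a k : X) : Prop :=
  (∃ A : Subgroup X, IsMaxEA T A ∧ a ∈ A) ∧ k ^ 3 = 1 ∧ a * k * a⁻¹ = k⁻¹ ∧ rhoT T k ≠ 1 ∧
    ∀ j ∈ JT T, rhoT T j * rhoT T k * (rhoT T j)⁻¹ ∈ Subgroup.zpowers (rhoT T k)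

/-! ### statements of the pieces -/

/-- JP-EXTM3 -/
def Extm3Stmt.{w} : Prop :=
  ∀ (G : Type w) [Group G] [Finite G] (V H : Subgroup G), Cfsg.IsElementaryAbelian 2 V →
    H ≤ Subgroup.normalizer (V : Set G) → H ⊓ Subgroup.centralizer (V : Set G) = ⊥ →
    Subgroup.centralizer (Cfsg.pPrimeCore 2 ↥H : Set ↥H) ≤ Cfsg.pPrimeCore 2 ↥H →
    H = ⨆ A : {A : Subgroup G // A ≤ H ∧ Cfsg.IsBestOffenderOn 2 V A}, (A : Subgroup G) →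
    ∀ B : Subgroup G, B ≤ H → Cfsg.IsBestOffenderOn 2 V B → ⁅V, B⁆ ≠ ⊥ →
      (∀ C : Subgroup G, C ≤ B → Cfsg.IsBestOffenderOn 2 V C → ⁅V, C⁆ ≠ ⊥ → C = B) →
      ∃ M : Subgroup G, M ≤ H ∧ (∀ h ∈ H, ∀ m ∈ M, h * m * h⁻¹ ∈ M) ∧ Nat.card ↥M = 3 ∧
        (∀ h ∈ H, ∀ b ∈ B, h * b * h⁻¹ * b⁻¹ ∈ M) ∧
        ∃ b ∈ B, ∃ m ∈ M, m ≠ 1 ∧ b * m * b⁻¹ = m⁻¹

/-- JP-K3 -/
def K3Stmt.{w} : Prop :=
  ∀ (X : Type w) [Group X] [Finite X] (T : Subgroup X), Setting X T →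
    ∀ a ∈ T, a * a = 1 → ∀ d : X, rhoT T d ≠ 1 → rhoT T d ^ 3 = 1 →
      rhoT T a * rhoT T d * (rhoT T a)⁻¹ = (rhoT T d)⁻¹ →
      ∃ k : X, k ^ 3 = 1 ∧ a * k * a⁻¹ = k⁻¹ ∧ rhoT T k ≠ 1 ∧
        rhoT T k ∈ Subgroup.zpowers (rhoT T d)

/-- JP-KB -/
def KbStmt.{w} : Prop :=
  ∀ (X : Type w) [Group X] [Finite X] (Q : Subgroup X) (k : X), Q.Normal → IsPGroup 2 ↥Q →
    k ^ 3 = 1 → k ≠ 1 →
      Q ≤ Subgroup.normalizer ((KOf Q k : Subgroup X) : Set X) ∧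
      Subgroup.closure {g : X | g ∈ KOf Q k ∧ Odd (orderOf g)} = KOf Q k ∧
      (∀ x ∈ KOf Q k, ∃ p ∈ KOf Q k ⊓ Q, ∃ i : ℕ, x = p * k ^ i) ∧
      (∀ g : X, (∃ q ∈ Q, ∃ i : ℕ, g = q * k ^ i) → Odd (orderOf g) → g ∈ KOf Q k)

/-- JP-KP -/
def KpStmt.{w} : Prop :=
  ∀ (X : Type w) [Group X] [Finite X] (Q : Subgroup X) (k : X), Q.Normal → IsPGroup 2 ↥Q →
    k ^ 3 = 1 → k ≠ 1 →
      Cfsg.pCoreOf 2 (KOf Q k) = KOf Q k ⊓ Q ∧ (Cfsg.pCoreOf 2 (KOf Q k)).relIndex (KOf Q k) = 3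

/-- JP-KJ -/
def KjStmt.{w} : Prop :=
  ∀ (X : Type w) [Group X] [Finite X] (T : Subgroup X), Setting X T → ∀ a k : X, KSeed T a k →
    JT T ≤ Subgroup.normalizer ((KOf (Cfsg.pCore 2 X) k : Subgroup X) : Set X) ∧
      ⁅KOf (Cfsg.pCore 2 X) k, JT T⁆ = KOf (Cfsg.pCore 2 X) k

/-- JP-K4A -/
def K4aStmt.{w} : Prop :=
  ∀ (X : Type w) [Group X] [Finite X] (T : Subgroup X), Setting X T → ∀ a k : X, KSeed T a k →
    Cfsg.wOf (KOf (Cfsg.pCore 2 X) k) ≤ KOf (Cfsg.pCore 2 X) k ⊓ Cfsg.pCore 2 X ∧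
    (∀ w ∈ Cfsg.wOf (KOf (Cfsg.pCore 2 X) k), ∀ p ∈ KOf (Cfsg.pCore 2 X) k ⊓ Cfsg.pCore 2 X,
      w * p = p * w) ∧
    (∀ w ∈ Cfsg.wOf (KOf (Cfsg.pCore 2 X) k), w * w = 1) ∧
    (∀ w ∈ Cfsg.wOf (KOf (Cfsg.pCore 2 X) k), k * w * k⁻¹ = w → w = 1) ∧
    (∀ g ∈ Subgroup.normalizer ((KOf (Cfsg.pCore 2 X) k : Subgroup X) : Set X),
      ∀ w ∈ Cfsg.wOf (KOf (Cfsg.pCore 2 X) k), g * w * g⁻¹ ∈ Cfsg.wOf (KOf (Cfsg.pCore 2 X) k)) ∧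
    Cfsg.wOf (KOf (Cfsg.pCore 2 X) k) ≠ ⊥

/-- JP-K4D -/
def K4dStmt.{w} : Prop :=
  ∀ (X : Type w) [Group X] [Finite X] (T : Subgroup X), Setting X T → ∀ a k : X, KSeed T a k →
    ∀ A : Subgroup X, IsMaxEA T A → a ∈ A →
      ∃ A₁ : Subgroup X, A₁ ≤ A ∧ (∀ x ∈ A, x ∈ A₁ ∨ x * a ∈ A₁) ∧
        ∀ x ∈ A₁, x * k * x⁻¹ * k⁻¹ ∈ KOf (Cfsg.pCore 2 X) k ⊓ Cfsg.pCore 2 X

/-- JP-K4B -/
def K4bStmt.{w} : Prop :=
  ∀ (X : Type w) [Group X] [Finite X] (T A A₁ P W : Subgroup X) (a k : X), IsMaxEA T A →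
    a ∈ A → A₁ ≤ A → (∀ x ∈ A, x ∈ A₁ ∨ x * a ∈ A₁) → P ≤ T →
    A ≤ Subgroup.normalizer (P : Set X) → k ∈ Subgroup.normalizer (P : Set X) →
    k ^ 3 = 1 → a * k * a⁻¹ = k⁻¹ → (∀ x ∈ A₁, x * k * x⁻¹ * k⁻¹ ∈ P) →
    W ≤ P → (∀ w ∈ W, ∀ p ∈ P, w * p = p * w) → (∀ w ∈ W, w * w = 1) →
    (∀ w ∈ W, k * w * k⁻¹ = w → w = 1) →
    Nat.card ↥(W ⊓ Subgroup.centralizer (A₁ : Set X)) ≤ 4

/-- JP-K4C -/
def K4cStmt.{w} : Prop :=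
  ∀ (X : Type w) [Group X] [Finite X] (T A A₁ P W : Subgroup X) (a k : X), IsMaxEA T A →
    a ∈ A → A₁ ≤ A → (∀ x ∈ A, x ∈ A₁ ∨ x * a ∈ A₁) → P ≤ T →
    A ≤ Subgroup.normalizer (P : Set X) → k ∈ Subgroup.normalizer (P : Set X) →
    k ^ 3 = 1 → a * k * a⁻¹ = k⁻¹ → (∀ x ∈ A₁, x * k * x⁻¹ * k⁻¹ ∈ P) →
    W ≤ P → (∀ w ∈ W, ∀ p ∈ P, w * p = p * w) → (∀ w ∈ W, w * w = 1) →
    (∀ w ∈ W, k * w * k⁻¹ = w → w = 1) → (∀ w ∈ W, k * w * k⁻¹ ∈ W) →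
    (∀ x ∈ A, ∀ w ∈ W, x * w * x⁻¹ ∈ W) →
    Nat.card ↥(W ⊓ Subgroup.centralizer (A₁ : Set X)) ≤ 4 → W ≠ ⊥ → Nat.card ↥W = 4

/-- JP-SEED -/
def SeedStmt.{w} : Prop :=
  ∀ (X : Type w) [Group X] [Finite X] (T : Subgroup X), Setting X T →
    ∃ XH : Subgroup X, XH.Normal ∧ JT T ≤ XH ∧
      ∀ Y : Subgroup X, (rhoT T).ker ≤ Y → JT T ≤ Y → (∀ a k : X, KSeed T a k → k ∈ Y) →
        ∀ x ∈ XH, ∀ j ∈ JT T, x * j * x⁻¹ ∈ Y

/-- JP-FRAT -/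
def FratStmt.{w} : Prop :=
  ∀ (X : Type w) [Group X] [Finite X] (T : Subgroup X), IsPGroup 2 ↥T → Odd T.index →
    Subgroup.normalClosure ((JT T : Subgroup X) : Set X) ⊔
      Subgroup.normalizer ((JT T : Subgroup X) : Set X) = ⊤

/-- JP-GEN -/
def GenStmt.{w} : Prop :=
  ∀ (X : Type w) [Group X] (J XH Y : Subgroup X), XH.Normal → J ≤ XH →
    Subgroup.normalClosure (J : Set X) ⊔ Subgroup.normalizer (J : Set X) = ⊤ →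
    Subgroup.normalizer (J : Set X) ≤ Y → (∀ x ∈ XH, ∀ j ∈ J, x * j * x⁻¹ ∈ Y) → Y = ⊤

/-- JP-NTJ -/
def NtjStmt.{w} : Prop :=
  ∀ (X : Type w) [Group X] [Finite X] (T : Subgroup X),
    Subgroup.normalizer (T : Set X) ≤ Subgroup.normalizer ((JT T : Subgroup X) : Set X)

/-- JP-TRJ2 -/
def Trj2Stmt.{w} : Prop :=
  ∀ (G : Type w) [Group G] [Finite G] (T L : Subgroup G), T ≤ L →
    JT (T.subgroupOf L) = (Cfsg.thompsonSubgroupOf 2 T).subgroupOf L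

/-- JP-TRM -/
def TrmStmt.{w} : Prop :=
  ∀ (G : Type w) [Group G] [Finite G] (T L : Subgroup G), T ≤ L → ∀ K : Subgroup ↥L,
    AbsComp (T.subgroupOf L) K →
      Subgroup.closure {g : G | g ∈ K.map L.subtype ∧ Odd (orderOf g)} = K.map L.subtype ∧
      ⁅K.map L.subtype, Cfsg.thompsonSubgroupOf 2 T⁆ = K.map L.subtype ∧
      (Cfsg.pCoreOf 2 (K.map L.subtype)).relIndex (K.map L.subtype) = 3 ∧
      Nat.card ↥(Cfsg.wOf (K.map L.subtype)) = 4 ∧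
      ∀ w ∈ Cfsg.wOf (K.map L.subtype), w * w = 1

/-- JP-SYL -/
def SylStmt.{w} : Prop :=
  ∀ (G : Type w) [Group G] [Finite G] (T L K : Subgroup G), Cfsg.IsSylowTwoIn T L → K ≤ L →
    ∀ S : Subgroup G, Cfsg.IsSylowTwoIn S (K ⊔ Cfsg.thompsonSubgroupOf 2 T) →
      Cfsg.thompsonSubgroupOf 2 T ≤ S →
      Cfsg.thompsonSubgroupOf 2 S = Cfsg.thompsonSubgroupOf 2 T

/-- every seed gives an abstract component (assembled in `JPCore`) -/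
def CompxStmt.{w} : Prop :=
  ∀ (X : Type w) [Group X] [Finite X] (T : Subgroup X), Setting X T → ∀ a k : X, KSeed T a k →
    AbsComp T (KOf (Cfsg.pCore 2 X) k)

/-- the abstract theorem: a subgroup containing all abstract components and the normalizer of
`JT T` is the whole group -/
def ExAllStmt.{w} : Prop :=
  ∀ (X : Type w) [Group X] [Finite X] (T : Subgroup X), Setting X T → ∀ Y : Subgroup X,
    (∀ K : Subgroup X, AbsComp T K → K ≤ Y) →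
    Subgroup.normalizer ((JT T : Subgroup X) : Set X) ≤ Y → Y = ⊤

/-- the theorem in the ZN-group: `L ∈ ℒ(T)` is generated by its `J(T)`-components and
`N_L(J(T))` -/
def ExGStmt.{w} : Prop :=
  ∀ (G : Type w) [Group G] [Finite G], ZNHyp G → ∀ T : Subgroup G, IsPGroup 2 ↥T → T ≠ ⊥ →
    ∀ L ∈ Cfsg.jOvergroups T, ∀ Y : Subgroup G,
      (∀ K : Subgroup G, Cfsg.IsJComponent T K → K ≤ L → K ≤ Y) →
      L ⊓ Subgroup.normalizer ((Cfsg.thompsonSubgroupOf 2 T : Subgroup G) : Set G) ≤ Y → L ≤ Y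

end Cfsg.Agent.Lib.Helper72.JP
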