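import Mathlib
import Cfsg.Prelude.Def_JComponents
import Cfsg.Agent.Lib.Helper72.JPDefs
import Cfsg.Agent.Lib.Helper78.JNDefs
import Cfsg.Agent.Lib.Helper58.JEDefs

/-! Interface for the S2950 project JR (helper72): in a ZN-group, a `J(T)`-component `K` outside
`M` (for `T` maximal among the straddling 2-subgroups of `M`) lies in exactly one maximal 2-local
subgroup together with `J(T)`.  Definitions and the exact statements of the pieces. -/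

set_option autoImplicit false

namespace Cfsg.Agent.Lib.Helper72.JR

open Cfsg.Agent.Lib.Helper72.SC
open Cfsg.Agent.Lib.Helper72.JL
open Cfsg.Agent.Lib.Helper72.JM
open Cfsg.Agent.Lib.Helper72.JP
open Cfsg.Agent.Lib.Helper78.Jc

open scoped commutatorElement

universe u

/-- the family `Γ`: the `J(T)`-components outside `M` that normalize `W_K` -/
def Fam {G : Type*} [Group G] (M T K : Subgroup G) : Set (Subgroup G) :=
  {K' | Cfsg.IsJComponent T K' ∧ ¬ K' ≤ M ∧ K' ≤ Subgroup.normalizer (Cfsg.wOf K : Set G)}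

/-- the subgroup generated by the `W_{K'}`, `K'` in the family -/
def YOf {G : Type*} [Group G] (M T K : Subgroup G) : Subgroup G :=
  ⨆ K' ∈ Fam M T K, Cfsg.wOf K'

/-- the standing hypotheses: `G` is a ZN-group, `N_G(J(T)) ≤ M`, and every 2-local subgroup
`L ≰ M` with a Sylow 2-subgroup `T₀ ⊇ J(T)` has `J(T₀) = J(T)` and `L ∈ ℒ(T₀)` -/
structure Ctx (G : Type*) [Group G] (M T : Subgroup G) : Prop where
  hzn : ZNHyp G
  hNJ : Subgroup.normalizer (Cfsg.thompsonSubgroupOf 2 T : Set G) ≤ M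
  hA : ∀ L T₀ : Subgroup G, Cfsg.IsTwoLocal L → ¬ L ≤ M → Cfsg.IsSylowTwoIn T₀ L →
    Cfsg.thompsonSubgroupOf 2 T ≤ T₀ →
    Cfsg.thompsonSubgroupOf 2 T = Cfsg.thompsonSubgroupOf 2 T₀ ∧ L ∈ Cfsg.jOvergroups T₀

/-! ### statements of the pieces -/

/-- JR-MAX -/
def MaxStmt.{w} : Prop :=
  ∀ (G : Type w) [Group G] [Finite G] (N : Subgroup G), Cfsg.IsTwoLocal N →
    ∃ L : Subgroup G, Cfsg.IsMaximalTwoLocal L ∧ N ≤ L

/-- JR-NW -/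
def NwStmt.{w} : Prop :=
  ∀ (G : Type w) [Group G] [Finite G] (T K : Subgroup G), Cfsg.IsJComponent T K →
    Cfsg.thompsonSubgroupOf 2 T ≤ Subgroup.normalizer (Cfsg.wOf K : Set G) ∧
      K ≤ Subgroup.normalizer (Cfsg.wOf K : Set G) ∧ IsPGroup 2 ↥(Cfsg.wOf K) ∧
      Cfsg.wOf K ≠ ⊥ ∧ Cfsg.wOf K ≤ K

/-- JR-CONJ -/
def ConjStmt.{w} : Prop :=
  ∀ (G : Type w) [Group G] [Finite G] (T K : Subgroup G) (m : G), Cfsg.IsJComponent T K →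
    m ∈ Subgroup.normalizer (Cfsg.thompsonSubgroupOf 2 T : Set G) →
    Cfsg.IsJComponent T (K.map (MulAut.conj m).toMonoidHom) ∧
      Cfsg.wOf (K.map (MulAut.conj m).toMonoidHom) =
        (Cfsg.wOf K).map (MulAut.conj m).toMonoidHom

/-- JR-SUBW -/
def SubwStmt.{w} : Prop :=
  ∀ (G : Type w) [Group G] [Finite G] (K N : Subgroup G), K ≤ N →
    (K.subgroupOf N).IsSubnormal → Cfsg.wOf K ≤ Cfsg.pCoreOf 2 N

/-- JR-LOC -/
def LocStmt.{w} : Prop :=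
  ∀ (G : Type w) [Group G] [Finite G] (M T : Subgroup G), Ctx G M T → IsPGroup 2 ↥T →
    ∀ H : Subgroup G, Cfsg.IsTwoLocal H → ¬ H ≤ M → Cfsg.thompsonSubgroupOf 2 T ≤ H →
      ∃ T₀ : Subgroup G, IsPGroup 2 ↥T₀ ∧ T₀ ≠ ⊥ ∧ H ∈ Cfsg.jOvergroups T₀ ∧
        Cfsg.thompsonSubgroupOf 2 T₀ = Cfsg.thompsonSubgroupOf 2 T ∧
        ∀ K : Subgroup G, Cfsg.IsJComponent T₀ K ↔ Cfsg.IsJComponent T K

/-- JR-L1X: the abstract form of the key lemma -/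
def L1XStmt.{w} : Prop :=
  ∀ (X : Type w) [Group X] [Finite X] (T : Subgroup X), Setting X T →
    ∀ (𝒮 : Set (Subgroup X)) (K₁ K₂ O W : Subgroup X), (∀ A ∈ 𝒮, IsMaxEA T A) →
      ⁅K₁, sSup 𝒮⁆ = K₁ → Subgroup.closure {g : X | g ∈ K₁ ∧ Odd (orderOf g)} = K₁ →
      ⁅K₂, sSup 𝒮⁆ = K₂ → Subgroup.closure {g : X | g ∈ K₂ ∧ Odd (orderOf g)} = K₂ →
      Cfsg.pCore 2 X ≤ Subgroup.normalizer (K₂ : Set X) →
      O ≤ K₂ → K₂ ≤ Subgroup.normalizer (O : Set X) → IsPGroup 2 ↥O → O.relIndex K₂ = 3 →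
      (∀ P : Subgroup X, P ≤ K₂ → IsPGroup 2 ↥P → P ≤ O) →
      Nat.card ↥W = 4 →
      (∀ u ∈ O, u * u = 1 → (∀ o ∈ O, u * o = o * u) → ∀ k ∈ K₂, u⁻¹ * (k * u * k⁻¹) ∈ W) →
      (∀ k ∈ K₂, ∀ w ∈ W, k * w * k⁻¹ ∈ W) →
      (∀ k ∈ K₂, k ∉ O → ∀ w ∈ W, k * w * k⁻¹ = w → w = 1) →
      ∀ x ∈ K₁, ∀ w ∈ W, x * w * x⁻¹ ∈ W

/-- JR-L1D: the data of a `J(T)`-component inside a subgroup `L` containing it -/
def L1DStmt.{w} : Prop :=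
  ∀ (G : Type w) [Group G] [Finite G] (T K L : Subgroup G), Cfsg.IsJComponent T K → K ≤ L →
    (Cfsg.pCoreOf 2 K).subgroupOf L ≤ K.subgroupOf L ∧
      K.subgroupOf L ≤
        Subgroup.normalizer (((Cfsg.pCoreOf 2 K).subgroupOf L : Subgroup ↥L) : Set ↥L) ∧
      IsPGroup 2 ↥((Cfsg.pCoreOf 2 K).subgroupOf L) ∧
      ((Cfsg.pCoreOf 2 K).subgroupOf L).relIndex (K.subgroupOf L) = 3 ∧
      (∀ P : Subgroup ↥L, P ≤ K.subgroupOf L → IsPGroup 2 ↥P →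
        P ≤ (Cfsg.pCoreOf 2 K).subgroupOf L) ∧
      Nat.card ↥((Cfsg.wOf K).subgroupOf L) = 4 ∧
      (∀ u ∈ (Cfsg.pCoreOf 2 K).subgroupOf L, u * u = 1 →
        (∀ o ∈ (Cfsg.pCoreOf 2 K).subgroupOf L, u * o = o * u) →
        ∀ k ∈ K.subgroupOf L, u⁻¹ * (k * u * k⁻¹) ∈ (Cfsg.wOf K).subgroupOf L) ∧
      (∀ k ∈ K.subgroupOf L, ∀ w ∈ (Cfsg.wOf K).subgroupOf L,
        k * w * k⁻¹ ∈ (Cfsg.wOf K).subgroupOf L) ∧
      (∀ k ∈ K.subgroupOf L, k ∉ (Cfsg.pCoreOf 2 K).subgroupOf L →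
        ∀ w ∈ (Cfsg.wOf K).subgroupOf L, k * w * k⁻¹ = w → w = 1)

/-- the key lemma (assembled in `JRCore`): two `J(T)`-components of `L ∈ ℒ(T)`; the first
normalizes the `W` of the second -/
def L1Stmt.{w} : Prop :=
  ∀ (G : Type w) [Group G] [Finite G], ZNHyp G → ∀ T : Subgroup G, IsPGroup 2 ↥T → T ≠ ⊥ →
    ∀ L ∈ Cfsg.jOvergroups T, ∀ K₁ K₂ : Subgroup G, Cfsg.IsJComponent T K₁ →
      Cfsg.IsJComponent T K₂ → K₁ ≤ L → K₂ ≤ L →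
      K₁ ≤ Subgroup.normalizer (Cfsg.wOf K₂ : Set G)

/-- the statement of S2942 -/
def S42Stmt.{w} : Prop :=
  ∀ (G : Type w) [Group G] [Finite G], ZNHyp G → ∀ T : Subgroup G, IsPGroup 2 ↥T → T ≠ ⊥ →
    ∀ L ∈ Cfsg.jOvergroups T, ∀ K : Subgroup G, Cfsg.IsJComponent T K → K ≤ L →
      (K.subgroupOf L).IsSubnormal

/-- JR-YP -/
def YpStmt.{w} : Prop :=
  ∀ (G : Type w) [Group G] [Finite G] (M T K : Subgroup G), Ctx G M T → IsPGroup 2 ↥T →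
    Cfsg.IsJComponent T K → ¬ K ≤ M → IsPGroup 2 ↥(YOf M T K) ∧ YOf M T K ≠ ⊥

/-- JR-HA -/
def HaStmt.{w} : Prop :=
  ∀ (G : Type w) [Group G] [Finite G] (M T K : Subgroup G), Ctx G M T → IsPGroup 2 ↥T →
    Cfsg.IsJComponent T K → ¬ K ≤ M →
    ∀ H : Subgroup G, Cfsg.IsTwoLocal H → K ≤ H → Cfsg.thompsonSubgroupOf 2 T ≤ H →
      ∀ K₁ : Subgroup G, Cfsg.IsJComponent T K₁ → K₁ ≤ H →
        K₁ ≤ Subgroup.normalizer (YOf M T K : Set G)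

/-- JR-HB -/
def HbStmt.{w} : Prop :=
  ∀ (G : Type w) [Group G] [Finite G] (M T K : Subgroup G), Ctx G M T → IsPGroup 2 ↥T →
    Cfsg.IsJComponent T K → ¬ K ≤ M →
    ∀ H : Subgroup G, Cfsg.IsTwoLocal H → K ≤ H → Cfsg.thompsonSubgroupOf 2 T ≤ H →
      H ⊓ Subgroup.normalizer (Cfsg.thompsonSubgroupOf 2 T : Set G) ≤
        Subgroup.normalizer (YOf M T K : Set G)

/-- every 2-local subgroup containing `K` and `J(T)` normalizes `YOf M T K` (assembled in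
`JRCore`) -/
def UniStmt.{w} : Prop :=
  ∀ (G : Type w) [Group G] [Finite G] (M T K : Subgroup G), Ctx G M T → IsPGroup 2 ↥T →
    Cfsg.IsJComponent T K → ¬ K ≤ M →
    ∀ H : Subgroup G, Cfsg.IsTwoLocal H → K ⊔ Cfsg.thompsonSubgroupOf 2 T ≤ H →
      H ≤ Subgroup.normalizer (YOf M T K : Set G)

/-- the statement S2950 -/
def S50Stmt.{w} : Prop :=
  ∀ (G : Type w) [Group G] [Finite G], Cfsg.IsCharacteristicTwoType G →
    (∀ N : Subgroup G, Cfsg.IsTwoLocal N → Group.IsSolvable ↥N) →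
    (∀ S : Sylow 2 G, Subgroup.centralizer (Cfsg.omegaCenterOf (S : Subgroup G) : Set G) ≤
      Subgroup.normalizer ((S : Subgroup G) : Set G)) →
    Cfsg.pCore 2 G = ⊥ → ∀ (S : Sylow 2 G) (M : Subgroup G), Cfsg.IsTwoLocal M →
    Subgroup.normalizer (Cfsg.thompsonSubgroupOf 2 (S : Subgroup G) : Set G) ≤ M →
    ∀ T : Subgroup G, T ∈ Cfsg.maxStraddlingTwoSubgroups M →
    ∀ K : Subgroup G, K ∈ Cfsg.jComponentsOutside M T →
    ∃ L : Subgroup G, Cfsg.IsMaximalTwoLocal L ∧ K ⊔ Cfsg.thompsonSubgroupOf 2 T ≤ L ∧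
      (∀ L' : Subgroup G, Cfsg.IsMaximalTwoLocal L' → K ⊔ Cfsg.thompsonSubgroupOf 2 T ≤ L' →
        L' = L) ∧
      (K.subgroupOf L).IsSubnormal ∧ Cfsg.IsSylowTwoIn T L

/-- JR-FIN: the final deduction -/
def FinStmt.{w} : Prop :=
  Cfsg.Agent.Lib.Helper58.JE.A1Stmt.{w} → Cfsg.Agent.Lib.Helper58.JE.A2Stmt.{w} →
    Cfsg.Agent.Lib.Helper58.JE.A3Stmt.{w} → Cfsg.Agent.Lib.Helper58.JE.A4Stmt.{w} →
    MaxStmt.{w} → S42Stmt.{w} → YpStmt.{w} → UniStmt.{w} → S50Stmt.{w}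

end Cfsg.Agent.Lib.Helper72.JR
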