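import Mathlib
import Cfsg.Prelude.Def_GeometricClasses
import Cfsg.Agent.Lib.Helper71.Asch0

/-! Project U9 (helper44), piece Q2K (helper72): a perfect group is not a product of two commuting
conjugate solvable subgroups. -/

set_option autoImplicit false

namespace Cfsg.Agent.Lib.Helper44.U9

open Matrix Cfsg.Geo Cfsg.Agent.Lib.Helper71.Asch
open scoped Kronecker

variable {n : ℕ} {F : Type*} [Field F] [Fintype F] {q : ℕ}

omit [Fintype F] in
theorem Q2K_inv_mul_val (P : GL (Fin n) F) : (P⁻¹ : GL (Fin n) F).1 * P.1 = 1 := by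
  rw [← Units.val_mul, inv_mul_cancel, Units.val_one]

omit [Fintype F] in
theorem Q2K_mul_inv_val (P : GL (Fin n) F) : P.1 * (P⁻¹ : GL (Fin n) F).1 = 1 := by
  rw [← Units.val_mul, mul_inv_cancel, Units.val_one]

omit [Fintype F] in
theorem Q2K_tmat_mul {d k : ℕ} (e : Fin n ≃ Fin d × Fin k) (P : GL (Fin n) F)
    (a a' : Matrix (Fin d) (Fin d) F) (b b' : Matrix (Fin k) (Fin k) F) :
    tmat e P a b * tmat e P a' b' = tmat e P (a * a') (b * b') := by
  unfold tmat
  have h2 : Matrix.reindex e.symm e.symm ((a * a') ⊗ₖ (b * b')) =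
      Matrix.reindex e.symm e.symm (a ⊗ₖ b) * Matrix.reindex e.symm e.symm (a' ⊗ₖ b') := by
    rw [Matrix.mul_kronecker_mul]
    simp [Matrix.reindex_apply, Matrix.submatrix_mul_equiv]
  rw [h2]
  calc P.1 * Matrix.reindex e.symm e.symm (a ⊗ₖ b) * (P⁻¹ : GL (Fin n) F).1 *
        (P.1 * Matrix.reindex e.symm e.symm (a' ⊗ₖ b') * (P⁻¹ : GL (Fin n) F).1)
      = P.1 * Matrix.reindex e.symm e.symm (a ⊗ₖ b) * ((P⁻¹ : GL (Fin n) F).1 * P.1) *
        Matrix.reindex e.symm e.symm (a' ⊗ₖ b') * (P⁻¹ : GL (Fin n) F).1 := by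
        simp only [mul_assoc]
    _ = _ := by rw [Q2K_inv_mul_val, mul_one]; simp only [mul_assoc]

omit [Fintype F] in
theorem Q2K_tmat_one {d k : ℕ} (e : Fin n ≃ Fin d × Fin k) (P : GL (Fin n) F) :
    tmat e P (1 : Matrix (Fin d) (Fin d) F) (1 : Matrix (Fin k) (Fin k) F) = 1 := by
  unfold tmat
  have h2 : Matrix.reindex e.symm e.symm
      ((1 : Matrix (Fin d) (Fin d) F) ⊗ₖ (1 : Matrix (Fin k) (Fin k) F)) = 1 := by
    rw [Matrix.one_kronecker_one]
    simp [Matrix.reindex_apply]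
  rw [h2, mul_one, Q2K_mul_inv_val]

/-- `a ↦ tmat e P a 1` as a monoid hom. -/
def Q2K_phi0 {d k : ℕ} (e : Fin n ≃ Fin d × Fin k) (P : GL (Fin n) F) :
    Matrix (Fin d) (Fin d) F →* Matrix (Fin n) (Fin n) F where
  toFun a := tmat e P a 1
  map_one' := Q2K_tmat_one e P
  map_mul' a b := by
    rw [Q2K_tmat_mul, mul_one]

theorem Q2K_solvable_perfect {G : Type*} [Group G] (L : Subgroup G) (hc : ⁅L, L⁆ = L)
    (hs : Group.IsSolvable ↥L) : L = ⊥ := by
  by_contra hne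
  haveI hnt : Nontrivial ↥L := (Subgroup.nontrivial_iff_ne_bot L).mpr hne
  haveI := hs
  have h1 : _root_.commutator ↥L < ⊤ := Group.IsSolvable.commutator_lt_top_of_nontrivial ↥L
  have h2 : (_root_.commutator ↥L).map L.subtype = ⁅L, L⁆ := Subgroup.map_subtype_commutator L
  have h3 : _root_.commutator ↥L = ⊤ := by
    rw [eq_top_iff]
    intro x _
    have hx : (x : G) ∈ (_root_.commutator ↥L).map L.subtype := by
      rw [h2, hc]; exact x.2
    obtain ⟨y, hy, hyx⟩ := hx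
    have : y = x := Subtype.ext hyx
    rw [← this]; exact hy
  exact (ne_of_lt h1) h3

/-- Q2K: a perfect group is not a product of two commuting conjugate solvable subgroups. -/
theorem Q2K (L : Subgroup (GL (Fin n) F)) (hc : ⁅L, L⁆ = L)
    (Ps : Fin 2 → Subgroup (GL (Fin n) F))
    (hcomm : ∀ i j, i ≠ j → ∀ x ∈ Ps i, ∀ y ∈ Ps j, x * y = y * x)
    (hsup : L = ⨆ i, Ps i)
    (hconj : ∃ h : GL (Fin n) F, (Ps 0).map (MulAut.conj h).toMonoidHom = Ps 1)
    (hns : ¬ Ps 0 ≤ scalars (Fin n) F)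
    (e : Fin n ≃ Fin 3 × Fin 3) (P : GL (Fin n) F) (R : Subgroup (GL (Fin 3) F))
    (hsol : Group.IsSolvable ↥R)
    (h1 : ∀ x ∈ Ps 0, ∃ y ∈ R, x.1 = tmat e P y.1 1) : False := by
  classical
  -- the hom φ
  let φ : GL (Fin 3) F →* GL (Fin n) F := Units.map (Q2K_phi0 (k := 3) e P)
  have hφ : ∀ y : GL (Fin 3) F, (φ y).1 = tmat e P y.1 1 := fun y => rfl
  have h0le : Ps 0 ≤ R.map φ := by
    intro x hx
    obtain ⟨y, hy, hxy⟩ := h1 x hx
    exact ⟨y, hy, Units.ext (by rw [hφ, hxy])⟩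
  haveI : Group.IsSolvable ↥R := hsol
  haveI hRm : Group.IsSolvable ↥(R.map φ) :=
    Group.isSolvable_of_surjective (MonoidHom.subgroupMap_surjective φ R)
  haveI hP0 : Group.IsSolvable ↥(Ps 0) :=
    Group.isSolvable_of_isSolvable_injective (Subgroup.inclusion_injective h0le)
  obtain ⟨h, hh⟩ := hconj
  haveI hP1 : Group.IsSolvable ↥(Ps 1) := by
    rw [← hh]
    exact Group.isSolvable_of_surjective
      (MonoidHom.subgroupMap_surjective (MulAut.conj h).toMonoidHom (Ps 0))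
  -- the product map
  have hcm : ∀ (x : ↥(Ps 0)) (y : ↥(Ps 1)), Commute ((Ps 0).subtype x) ((Ps 1).subtype y) := by
    intro x y
    exact hcomm 0 1 (by decide) x.1 x.2 y.1 y.2
  let ψ : ↥(Ps 0) × ↥(Ps 1) →* GL (Fin n) F :=
    MonoidHom.noncommCoprod (Ps 0).subtype (Ps 1).subtype hcm
  have hLle : L ≤ ψ.range := by
    rw [hsup]
    apply iSup_le
    intro i
    fin_cases i
    · intro x hx
      refine ⟨(⟨x, hx⟩, 1), ?_⟩
      simp [ψ]
    · intro x hx
      refine ⟨(1, ⟨x, hx⟩), ?_⟩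
      simp [ψ]
  haveI hrs : Group.IsSolvable ↥ψ.range :=
    Group.isSolvable_of_surjective (MonoidHom.rangeRestrict_surjective ψ)
  have hLs : Group.IsSolvable ↥L :=
    Group.isSolvable_of_isSolvable_injective (Subgroup.inclusion_injective hLle)
  have hLbot : L = ⊥ := Q2K_solvable_perfect L hc hLs
  apply hns
  intro x hx
  have hxL : x ∈ L := by
    rw [hsup]
    exact (le_iSup Ps 0) hx
  rw [hLbot, Subgroup.mem_bot] at hxL
  rw [hxL]
  exact Subgroup.one_mem _

end Cfsg.Agent.Lib.Helper44.U9
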