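import Mathlib
import Cfsg.Agent.Lib.Helper52.SP8EBDefs
import Cfsg.Agent.Lib.Helper83.ASB8SC

/-! SP8-EB (helper52, S5823), piece ABS2a (helper72): the commutant of a set whose span contains
all transported one-factor matrices consists of scalars. -/

set_option autoImplicit false

namespace Cfsg.Agent.Lib.Helper52.SP8EB

open Matrix Cfsg.Geo Cfsg.Agent.Lib.Helper71.Asch

variable {n : ℕ} {F : Type*} [Field F] [Fintype F]

/-- ABS2a. -/
theorem ABS2a (e : Fin n ≃ (Fin 3 → Fin 2)) (P : GL (Fin n) F) (S : Set (Matrix (Fin n) (Fin n) F))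
    (hS : HSpanIota e P S) :
    ∀ M : Matrix (Fin n) (Fin n) F, (∀ s ∈ S, M * s = s * M) →
      ∃ c : F, M = c • (1 : Matrix (Fin n) (Fin n) F) := by
  classical
  intro M hM
  -- M commutes with the span of S
  have hspan : ∀ X ∈ Submodule.span F S, M * X = X * M := by
    intro X hX
    induction hX using Submodule.span_induction with
    | mem x hx => exact hM x hx
    | zero => simp
    | add x y _ _ hx hy => rw [mul_add, add_mul, hx, hy]
    | smul a x _ hx => rw [Matrix.mul_smul, Matrix.smul_mul, hx]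
  have hcomm : ∀ (i : Fin 3) (A : Matrix (Fin 2) (Fin 2) F),
      twinv e P M * iota i A = iota i A * twinv e P M := by
    intro i A
    apply tw_injective e P
    rw [← tw_mul, ← tw_mul, tw_twinv]
    exact hspan _ (hS i A)
  obtain ⟨c, hc⟩ := Cfsg.Agent.Lib.Helper83.ASB8SC.comm_scalar (twinv e P M)
    (fun i A => hcomm i A)
  refine ⟨c, ?_⟩
  have h1 : M = tw e P (twinv e P M) := (tw_twinv e P M).symm
  rw [h1, hc, tw_smul, tw_one]

end Cfsg.Agent.Lib.Helper52.SP8EB
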