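import Mathlib
import Cfsg.Agent.Lib.Helper72.HHBurn
import Cfsg.Agent.Lib.Helper72.HHFit

/-! Prime action on a solvable group of odd order: `[K, R₀] ≤ F(K)` when `C_{F(K)}(R₀) = 1`
(helper72), relative to `S3764Prop`. -/

set_option autoImplicit false
set_option linter.style.haveILetI false

namespace Cfsg.Agent.Lib.Helper72.HH

open Subgroup
open scoped commutatorElement

universe u

section ExN

variable {G : Type u} [Group G] [Finite G]

/-- a nontrivial solvable subgroup has a proper characteristic subgroup containing all Sylow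
subgroups except for one prime -/
theorem exists_char_prime_index (K : Subgroup G) (hK : K ≠ ⊥) (hsolv : Group.IsSolvable ↥K) :
    ∃ (t : ℕ) (N : Subgroup G), t.Prime ∧ t ∣ Nat.card K ∧ N ≤ K ∧ N ≠ K ∧
      normalizer (K : Set G) ≤ normalizer (N : Set G) ∧
      ∀ (q : ℕ) [Fact q.Prime], q ≠ t →
        ∀ Q : Sylow q ↥K, (Q : Subgroup ↥K).map K.subtype ≤ N := by
  classical
  haveI : Nontrivial ↥K := (Subgroup.nontrivial_iff_ne_bot K).2 hK
  have hlt := Group.IsSolvable.commutator_lt_top_of_nontrivial ↥K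
  have hA1 : Nat.card (Abelianization ↥K) ≠ 1 := by
    intro h
    have h1 : (commutator ↥K).index = 1 := h
    exact hlt.ne (index_eq_one.1 h1)
  obtain ⟨t, ht, htA⟩ := Nat.exists_prime_and_dvd hA1
  haveI : Fact t.Prime := ⟨ht⟩
  have htK : t ∣ Nat.card K := htA.trans (card_quotient_dvd_card (commutator ↥K))
  obtain ⟨m, hm⟩ : ∃ m : ℕ, m = Nat.card K / t ^ (Nat.card K).factorization t := ⟨_, rfl⟩
  have hK0 : Nat.card K ≠ 0 := Nat.card_pos.ne'
  have htm : ¬ t ∣ m := hm ▸ Nat.not_dvd_ordCompl ht hK0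
  have hKm : t ^ (Nat.card K).factorization t * m = Nat.card K :=
    hm ▸ Nat.ordProj_mul_ordCompl_eq_self _ _
  let f : ↥K →* Abelianization ↥K := (powMonoidHom m).comp Abelianization.of
  have hf : ∀ a : ↥K, f a = Abelianization.of a ^ m := fun a => rfl
  haveI hchar : (f.ker).Characteristic := by
    rw [characteristic_iff_le_comap]
    intro e a ha
    rw [mem_comap]
    have ha' : f a = 1 := ha
    rw [hf] at ha'
    show f (e a) = 1
    have h1 : Abelianization.of (e a)
        = Abelianization.map e.toMonoidHom (Abelianization.of a) :=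
      (Abelianization.map_of e.toMonoidHom a).symm
    rw [hf, h1, ← map_pow, ha', map_one]
  refine ⟨t, (f.ker).map K.subtype, ht, htK, map_subtype_le _, ?_, ?_, ?_⟩
  · obtain ⟨ā, hā⟩ := exists_prime_orderOf_dvd_card' t htA
    obtain ⟨a, rfl⟩ := QuotientGroup.mk_surjective ā
    intro h
    have h1 : (a : G) ∈ (f.ker).map K.subtype := by rw [h]; exact a.2
    obtain ⟨b, hb, hba⟩ := h1
    have hb' : b = a := Subtype.ext hba
    rw [hb'] at hb
    have h2 : f a = 1 := hb
    rw [hf] at h2
    have h3 : t ∣ m := by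
      rw [← hā]
      exact orderOf_dvd_of_pow_eq_one h2
    exact htm h3
  · intro g hg
    exact mem_normalizer_map_of_characteristic (f.ker) hg
  · intro q hqF hqt Q
    rintro _ ⟨s, hs, rfl⟩
    refine ⟨s, ?_, rfl⟩
    show f s = 1
    rw [hf, ← map_pow]
    have h1 : s ^ m = 1 := by
      have h2 : orderOf s ∣ Nat.card (Q : Subgroup ↥K) := by
        have h3 := orderOf_dvd_natCard (⟨s, hs⟩ : (Q : Subgroup ↥K))
        rwa [Subgroup.orderOf_mk] at h3
      rw [Q.card_eq_multiplicity] at h2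
      have h3 : q ^ (Nat.card K).factorization q ∣ m := by
        have h4 : q ^ (Nat.card K).factorization q ∣ m * t ^ (Nat.card K).factorization t := by
          rw [mul_comm, hKm]
          exact Nat.ordProj_dvd _ _
        exact Nat.Coprime.dvd_of_dvd_mul_right
          (Nat.Coprime.pow _ _ ((Nat.coprime_primes hqF.out ht).2 hqt)) h4
      exact orderOf_dvd_iff_pow_eq_one.1 (h2.trans h3)
    rw [h1, map_one]

end ExN

section RC

variable {G : Type u} [Group G] [Finite G]

/-- the elements of `K` whose commutators with `R₀` lie in `F` -/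
def commIn (K R₀ F : Subgroup G) (hKF : K ≤ normalizer (F : Set G)) : Subgroup G where
  carrier := {k | k ∈ K ∧ ∀ x ∈ R₀, ⁅k, x⁆ ∈ F}
  mul_mem' := by
    rintro a b ⟨ha, ha'⟩ ⟨hb, hb'⟩
    refine ⟨mul_mem ha hb, fun x hx => ?_⟩
    have e : ⁅a * b, x⁆ = a * ⁅b, x⁆ * a⁻¹ * ⁅a, x⁆ := by
      simp only [commutatorElement_def]; group
    rw [e]
    exact mul_mem (conj_mem_of_mem_normalizer (hKF ha) (hb' x hx)) (ha' x hx)
  one_mem' := ⟨one_mem _, fun x _ => by rw [commutatorElement_one_left]; exact one_mem _⟩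
  inv_mem' := by
    rintro a ⟨ha, ha'⟩
    refine ⟨inv_mem ha, fun x hx => ?_⟩
    have e : ⁅a⁻¹, x⁆ = a⁻¹ * ⁅a, x⁆⁻¹ * a := by
      simp only [commutatorElement_def]; group
    rw [e]
    exact conj_mem_of_mem_normalizer' (hKF ha) (inv_mem (ha' x hx))

omit [Finite G] in
theorem mem_commIn {K R₀ F : Subgroup G} {hKF : K ≤ normalizer (F : Set G)} {k : G} :
    k ∈ commIn K R₀ F hKF ↔ k ∈ K ∧ ∀ x ∈ R₀, ⁅k, x⁆ ∈ F := Iff.rfl

/-- **Prime action.** -/
theorem rc (H : S3764Prop.{u}) (R₀ : Subgroup G) {r : ℕ} (hr : r.Prime)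
    (hR : Nat.card R₀ = r) :
    ∀ (n : ℕ) (K : Subgroup G), Nat.card K ≤ n → R₀ ≤ normalizer (K : Set G) →
      ¬ r ∣ Nat.card K → Odd (Nat.card K) → Group.IsSolvable ↥K →
      Cfsg.fittingOf K ⊓ centralizer (R₀ : Set G) = ⊥ → ⁅K, R₀⁆ ≤ Cfsg.fittingOf K := by
  intro n
  induction n with
  | zero =>
    intro K hn
    have := Nat.card_pos (α := K)
    omega
  | succ n ih =>
    intro K hn hRK hrK hodd hsolv hfit
    classical
    by_cases hK : K = ⊥
    · rw [hK, commutator_bot_left]
      exact bot_le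
    obtain ⟨t, N, ht, htK, hNK, hNne, hNn, hNsyl⟩ := exists_char_prime_index K hK hsolv
    haveI : Fact t.Prime := ⟨ht⟩
    obtain ⟨F, hFdef⟩ : ∃ F : Subgroup G, F = Cfsg.fittingOf K := ⟨_, rfl⟩
    rw [← hFdef] at hfit ⊢
    have hFK : F ≤ K := hFdef ▸ fittingOf_le K
    have hKF : K ≤ normalizer (F : Set G) :=
      hFdef ▸ (le_normalizer.trans (normalizer_le_normalizer_fittingOf K))
    have hRF : R₀ ≤ normalizer (F : Set G) :=
      hFdef ▸ (hRK.trans (normalizer_le_normalizer_fittingOf K))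
    have hFnil : Group.IsNilpotent ↥F := hFdef ▸ isNilpotent_fittingOf K
    have htr : t ≠ r := fun h => hrK (h ▸ htK)
    have ht2 : t ≠ 2 := by
      intro h
      rw [h] at htK
      exact (Nat.not_even_iff_odd.2 hodd) (even_iff_two_dvd.2 htK)
    have hcop : (Nat.card R₀).Coprime (Nat.card K) := by
      rw [hR]
      exact (Nat.Prime.coprime_iff_not_dvd hr).2 hrK
    have hsolvR : Group.IsSolvable ↥R₀ := isSolvable_of_prime_card hr R₀ hR
    have hKN : K ≤ normalizer (N : Set G) := le_normalizer.trans hNn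
    have hRN : R₀ ≤ normalizer (N : Set G) := hRK.trans hNn
    -- induction hypothesis for `N`
    have hNF : ⁅N, R₀⁆ ≤ F := by
      have hlt : Nat.card N < Nat.card K := by
        refine lt_of_le_of_ne (card_le_of_le hNK) ?_
        intro h
        exact hNne (eq_of_le_of_card_ge hNK h.ge)
      have hNdvd : Nat.card N ∣ Nat.card K := card_dvd_of_le hNK
      have hFN : Cfsg.fittingOf N ≤ F := hFdef ▸ fittingOf_le_fittingOf hNK hKN
      have h1 := ih N (by omega) hRN (fun h => hrK (h.trans hNdvd)) (hodd.of_dvd_nat hNdvd)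
        (Cfsg.Agent.Lib.Helper1.isSolvable_of_le' hNK hsolv)
        (by rw [eq_bot_iff, ← hfit]; exact inf_le_inf_right _ hFN)
      exact h1.trans hFN
    -- the invariant Sylow `t`-subgroup
    obtain ⟨Pt, hPt⟩ := Cfsg.Agent.Lib.Helper1.exists_invariant_sylow hRK hcop (Or.inl hsolvR) t
    obtain ⟨T, hTdef⟩ : ∃ T : Subgroup G, T = (Pt : Subgroup ↥K).map K.subtype := ⟨_, rfl⟩
    rw [← hTdef] at hPt
    have hTK : T ≤ K := hTdef ▸ map_subtype_le _
    have hTt : IsPGroup t T := hTdef ▸ Pt.isPGroup'.map K.subtype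
    obtain ⟨D, hDdef⟩ : ∃ D : Subgroup G, D = ⁅T, R₀⁆ := ⟨_, rfl⟩
    have hDT : D ≤ T := hDdef ▸ commutator_le_left_of_normalizer hPt
    have hDF : D ≤ F := by
      -- (a) `D` centralizes the Sylow `ℓ`-subgroups of `F`, `ℓ ≠ t`
      have h4a : ∀ (ℓ : ℕ) [Fact ℓ.Prime], ℓ ≠ t → ∀ P : Sylow ℓ ↥F,
          D ≤ centralizer (((P : Subgroup ↥F).map F.subtype : Subgroup G) : Set G) := by
        intro ℓ hℓF hℓt P
        have hℓ := hℓF.out
        by_cases hℓr : ℓ = r
        · have h1 : ¬ ℓ ∣ Nat.card F := fun h => hrK (hℓr ▸ h.trans (card_dvd_of_le hFK))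
          have h2 : Nat.card (P : Subgroup ↥F) = 1 := by
            rw [P.card_eq_multiplicity, Nat.factorization_eq_zero_of_not_dvd h1, pow_zero]
          rw [eq_bot_of_card_eq _ h2, Subgroup.map_bot, le_centralizer_iff]
          exact bot_le
        · have h1 := nf H ((P : Subgroup ↥F).map F.subtype) T R₀ hℓ ht hr hℓt hℓr htr ht2 hR hTt
            (P.isPGroup'.map F.subtype) hPt
            (hTK.trans (hKF.trans (sylow_map_normalizer hFnil P)))
            (hRF.trans (sylow_map_normalizer hFnil P))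
            (by
              rw [eq_bot_iff, ← hfit]
              exact inf_le_inf_right _ (map_subtype_le _))
          rw [hDdef]
          exact h1
      -- (b) `[D, N] ≤ F`
      have hDNF : ∀ d ∈ D, ∀ n ∈ N, ⁅d, n⁆ ∈ F := by
        have hRW : R₀ ≤ commIn (normalizer (F : Set G)) N F le_rfl := by
          intro x hx
          refine ⟨hRF hx, fun n hn => ?_⟩
          have h1 : ⁅n, x⁆ ∈ F := hNF (commutator_mem_commutator hn hx)
          have h2 := inv_mem h1
          rw [commutatorElement_inv] at h2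
          exact h2
        have hDW : D ≤ commIn (normalizer (F : Set G)) N F le_rfl := by
          rw [hDdef, commutator_le]
          intro s hs x hx
          have hsK : s ∈ K := hTK hs
          have h1 : s * x * s⁻¹ ∈ commIn (normalizer (F : Set G)) N F le_rfl := by
            refine ⟨mul_mem (mul_mem (hKF hsK) (hRF hx)) (inv_mem (hKF hsK)), fun n hn => ?_⟩
            have e : ⁅s * x * s⁻¹, n⁆ = s * ⁅x, s⁻¹ * n * s⁆ * s⁻¹ := by
              simp only [commutatorElement_def]; group
            rw [e]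
            exact conj_mem_of_mem_normalizer (hKF hsK)
              ((hRW hx).2 _ (conj_mem_of_mem_normalizer' (hKN hsK) hn))
          have e : ⁅s, x⁆ = (s * x * s⁻¹) * x⁻¹ := by simp only [commutatorElement_def]
          rw [e]
          exact mul_mem h1 (inv_mem (hRW hx))
        exact fun d hd n hn => (hDW hd).2 n hn
      -- `Y = D F` is normalized by `K`
      obtain ⟨Y, hYdef⟩ : ∃ Y : Subgroup G, Y = D ⊔ F := ⟨_, rfl⟩
      have hDY : D ≤ Y := hYdef ▸ le_sup_left
      have hFY : F ≤ Y := hYdef ▸ le_sup_right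
      have hYK : Y ≤ K := hYdef ▸ sup_le (hDT.trans hTK) hFK
      have hconj : ∀ S : Subgroup G, S ≤ normalizer (F : Set G) →
          (∀ g ∈ S, ∀ d ∈ D, g * d * g⁻¹ ∈ Y) → S ≤ normalizer (Y : Set G) := by
        intro S hSF hSD
        apply le_normalizer_of_conj_mem
        intro g hg
        have h1 : D ⊔ F ≤ Y.comap (MulAut.conj g).toMonoidHom :=
          sup_le (fun d hd => hSD g hg d hd)
            (fun f hf => hFY (conj_mem_of_mem_normalizer (hSF hg) hf))
        intro y hy
        rw [hYdef] at hy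
        exact h1 hy
      have hNY : N ≤ normalizer (Y : Set G) := by
        apply hconj N (hNK.trans hKF)
        intro n hn d hd
        have e : n * d * n⁻¹ = ⁅d, n⁆⁻¹ * d := by simp only [commutatorElement_def]; group
        rw [e]
        exact mul_mem (hFY (inv_mem (hDNF d hd n hn))) (hDY hd)
      have hTY : T ≤ normalizer (Y : Set G) := by
        apply hconj T (hTK.trans hKF)
        intro s hs d hd
        have h1 : T ≤ normalizer (D : Set G) := hDdef ▸ le_normalizer_commutator_self T R₀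
        exact hDY (conj_mem_of_mem_normalizer (h1 hs) hd)
      have hKY : K ≤ normalizer (Y : Set G) := by
        have h1 : normalizer (Y : Set G) ⊓ K = K := by
          apply eq_of_sylow_le inf_le_right
          intro q hqF
          by_cases hqt : q = t
          · subst hqt
            exact ⟨Pt, le_inf (hTdef ▸ hTY) (map_subtype_le _)⟩
          · obtain ⟨Q⟩ : Nonempty (Sylow q ↥K) := inferInstance
            exact ⟨Q, le_inf ((hNsyl q hqt Q).trans hNY) (map_subtype_le _)⟩
        rw [← h1]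
        exact inf_le_left
      -- `Y` is nilpotent
      obtain ⟨St⟩ : Nonempty (Sylow t ↥F) := inferInstance
      obtain ⟨Ft, hFtdef⟩ : ∃ Ft : Subgroup G, Ft = (St : Subgroup ↥F).map F.subtype :=
        ⟨_, rfl⟩
      have hFtF : Ft ≤ F := hFtdef ▸ map_subtype_le _
      have hFtt : IsPGroup t Ft := hFtdef ▸ St.isPGroup'.map F.subtype
      have hFtn : normalizer (F : Set G) ≤ normalizer (Ft : Set G) :=
        hFtdef ▸ sylow_map_normalizer hFnil St
      obtain ⟨M, hMdef⟩ : ∃ M : Subgroup G, M = D ⊔ Ft := ⟨_, rfl⟩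
      have hMt : IsPGroup t M :=
        hMdef ▸ IsPGroup.to_sup_of_normal_right' (hTt.to_le hDT) hFtt
          (hDT.trans (hTK.trans (hKF.trans hFtn)))
      have hMnil : Group.IsNilpotent ↥M := hMt.isNilpotent
      have hMK : M ≤ K := hMdef ▸ sup_le (hDT.trans hTK) (hFtF.trans hFK)
      have hFtM : Ft ≤ M := hMdef ▸ le_sup_right
      have hFM : F ≤ normalizer (M : Set G) := by
        have h1 : normalizer (M : Set G) ⊓ F = F := by
          apply eq_of_sylow_le inf_le_right
          intro ℓ hℓF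
          by_cases hℓt : ℓ = t
          · subst hℓt
            refine ⟨St, le_inf ?_ (map_subtype_le _)⟩
            rw [← hFtdef]
            exact hFtM.trans le_normalizer
          · obtain ⟨P⟩ : Nonempty (Sylow ℓ ↥F) := inferInstance
            refine ⟨P, le_inf ?_ (map_subtype_le _)⟩
            have hPn : normalizer (F : Set G)
                ≤ normalizer (((P : Subgroup ↥F).map F.subtype : Subgroup G) : Set G) :=
              sylow_map_normalizer hFnil P
            have hPF : (P : Subgroup ↥F).map F.subtype ≤ F := map_subtype_le _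
            have hcomm : ⁅Ft, (P : Subgroup ↥F).map F.subtype⁆ = ⊥ := by
              have h2 : ⁅Ft, (P : Subgroup ↥F).map F.subtype⁆ ≤ Ft :=
                commutator_le_left_of_normalizer (hPF.trans (le_normalizer.trans hFtn))
              have h3 : ⁅Ft, (P : Subgroup ↥F).map F.subtype⁆
                  ≤ (P : Subgroup ↥F).map F.subtype := by
                rw [commutator_comm]
                exact commutator_le_left_of_normalizer (hFtF.trans (le_normalizer.trans hPn))
              have h4 : Disjoint Ft ((P : Subgroup ↥F).map F.subtype) :=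
                IsPGroup.disjoint_of_ne t ℓ (Ne.symm hℓt) _ _ hFtt (P.isPGroup'.map F.subtype)
              exact le_bot_iff.1 ((le_inf h2 h3).trans (disjoint_iff.1 h4).le)
            have h5 : M ≤ centralizer (((P : Subgroup ↥F).map F.subtype : Subgroup G) : Set G) :=
              hMdef ▸ sup_le (h4a ℓ hℓt P) (commutator_eq_bot_iff_le_centralizer.1 hcomm)
            exact (le_centralizer_iff.1 h5).trans (centralizer_le_normalizer _)
        rw [← h1]
        exact inf_le_left
      have hY' : Y = M ⊔ F := by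
        rw [hYdef, hMdef, sup_assoc, sup_eq_right.2 hFtF]
      have hYnil : Group.IsNilpotent ↥Y :=
        hY' ▸ isNilpotent_sup_of_normalize hMnil hFnil (hMK.trans hKF) hFM
      have h6 := le_fittingOf_of_nilpotent hYK hKY hYnil
      rw [← hFdef] at h6
      exact hDY.trans h6
    -- conclusion
    have hS : commIn K R₀ F hKF = K := by
      apply eq_of_sylow_le (fun k hk => (mem_commIn.1 hk).1)
      intro q hqF
      by_cases hqt : q = t
      · subst hqt
        refine ⟨Pt, ?_⟩
        rw [← hTdef]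
        intro s hs
        exact ⟨hTK hs, fun x hx => hDF (hDdef ▸ commutator_mem_commutator hs hx)⟩
      · obtain ⟨Q⟩ : Nonempty (Sylow q ↥K) := inferInstance
        refine ⟨Q, (hNsyl q hqt Q).trans ?_⟩
        intro n hn
        exact ⟨hNK hn, fun x hx => hNF (commutator_mem_commutator hn hx)⟩
    rw [commutator_le]
    intro k hk x hx
    have hk' : k ∈ commIn K R₀ F hKF := by rw [hS]; exact hk
    exact hk'.2 x hx

end RC

section Final

variable {G : Type u} [Group G] [Finite G]

/-- statement S1445 relative to S3764 -/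
theorem s1445_of (H : S3764Prop.{u}) [Group.IsSolvable G] (hodd : Odd (Nat.card G))
    (K R : Subgroup G) [K.Normal] (hcop : (Nat.card K).Coprime (Nat.card R))
    (hprime : ∀ x ∈ R, x ≠ 1 →
      K ⊓ Subgroup.centralizer ({x} : Set G) = (K ⊓ Subgroup.centralizer (R : Set G)))
    (hF : Cfsg.fittingOf K ⊓ Subgroup.centralizer (R : Set G) = ⊥) :
    ⁅K, R⁆ ≤ Cfsg.fittingOf K := by
  classical
  by_cases hRbot : R = ⊥
  · rw [hRbot, commutator_bot_right]
    exact bot_le
  have hR1 : Nat.card R ≠ 1 := fun h => hRbot (eq_bot_of_card_eq R h)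
  obtain ⟨r, hr, hrR⟩ := Nat.exists_prime_and_dvd hR1
  haveI : Fact r.Prime := ⟨hr⟩
  obtain ⟨x₀', hx₀'⟩ := exists_prime_orderOf_dvd_card' r hrR
  obtain ⟨x₀, hx₀R, hx₀ord⟩ : ∃ x₀ ∈ R, orderOf x₀ = r :=
    ⟨x₀', x₀'.2, by rw [← hx₀', Subgroup.orderOf_coe]⟩
  have hx₀1 : x₀ ≠ 1 := by
    intro h
    rw [h, orderOf_one] at hx₀ord
    exact hr.one_lt.ne hx₀ord
  obtain ⟨R₀, hR₀def⟩ : ∃ R₀ : Subgroup G, R₀ = zpowers x₀ := ⟨_, rfl⟩
  have hR₀card : Nat.card R₀ = r := by rw [hR₀def, Nat.card_zpowers, hx₀ord]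
  have hx₀R₀ : x₀ ∈ R₀ := hR₀def ▸ mem_zpowers x₀
  have hKn : ∀ g : G, g ∈ normalizer (K : Set G) := fun g => by
    rw [normalizer_eq_top]
    exact mem_top g
  have hrK : ¬ r ∣ Nat.card K := by
    intro h
    have h1 := Nat.dvd_gcd h hrR
    rw [Nat.Coprime.gcd_eq_one hcop] at h1
    exact hr.one_lt.ne' (Nat.dvd_one.1 h1)
  have hKodd : Odd (Nat.card K) := hodd.of_dvd_nat (Subgroup.card_subgroup_dvd_card K)
  have hrc := rc H R₀ hr hR₀card (Nat.card K) K le_rfl (fun x _ => hKn x) hrK hKodd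
    inferInstance
  obtain ⟨F, hFdef⟩ : ∃ F : Subgroup G, F = Cfsg.fittingOf K := ⟨_, rfl⟩
  rw [← hFdef] at hF hrc ⊢
  have hFK : F ≤ K := hFdef ▸ fittingOf_le K
  have hFn : ∀ g : G, g ∈ normalizer (F : Set G) :=
    fun g => hFdef ▸ normalizer_le_normalizer_fittingOf K (hKn g)
  have hcent : K ⊓ centralizer (R₀ : Set G) ≤ K ⊓ centralizer (R : Set G) := by
    rw [← hprime x₀ hx₀R hx₀1]
    exact inf_le_inf_left _ (centralizer_le (Set.singleton_subset_iff.2 hx₀R₀))
  have hfit₀ : F ⊓ centralizer (R₀ : Set G) = ⊥ := by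
    rw [eq_bot_iff, ← hF]
    intro f hf
    have h1 := hcent (mem_inf.2 ⟨hFK (mem_inf.1 hf).1, (mem_inf.1 hf).2⟩)
    exact mem_inf.2 ⟨(mem_inf.1 hf).1, (mem_inf.1 h1).2⟩
  have hrc' := hrc hfit₀
  have hcopR₀F : (Nat.card R₀).Coprime (Nat.card F) := by
    rw [hR₀card]
    exact (Nat.Prime.coprime_iff_not_dvd hr).2 (fun h => hrK (h.trans (card_dvd_of_le hFK)))
  rw [commutator_le]
  intro k hk y hy
  obtain ⟨d, hd, hc⟩ := Cfsg.Agent.Lib.Helper1.coprime_coset_fixed (A := R₀) (D := F)
    (fun x _ => hFn x) hcopR₀F (Or.inl (isSolvable_of_prime_card hr R₀ hR₀card)) k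
    (fun a ha => by
      have h1 : ⁅k⁻¹, a⁆ ∈ F := hrc' (commutator_mem_commutator (inv_mem hk) ha)
      have e : k⁻¹ * (a * k * a⁻¹) = ⁅k⁻¹, a⁆ := by simp only [commutatorElement_def]; group
      rw [e]
      exact h1)
  have hcK : k * d ∈ K ⊓ centralizer (R : Set G) :=
    hcent (mem_inf.2 ⟨mul_mem hk (hFK hd), hc⟩)
  obtain ⟨hc1, hc2⟩ := mem_inf.1 hcK
  have hcy : ⁅k * d, y⁆ = 1 := by
    rw [commutatorElement_eq_one_iff_mul_comm]
    exact (mem_centralizer_iff.1 hc2 y hy).symm
  have e : ⁅k, y⁆ = (k * d) * ⁅d⁻¹, y⁆ * (k * d)⁻¹ * ⁅k * d, y⁆ := by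
    simp only [commutatorElement_def]; group
  rw [e, hcy, mul_one]
  apply conj_mem_of_mem_normalizer (hFn _)
  have e2 : ⁅d⁻¹, y⁆ = d⁻¹ * (y * d * y⁻¹) := by simp only [commutatorElement_def]; group
  rw [e2]
  exact mul_mem (inv_mem hd) (conj_mem_of_mem_normalizer (hFn y) hd)

end Final

end Cfsg.Agent.Lib.Helper72.HH
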