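import Mathlib
import Cfsg.Agent.Lib.Helper72.JLDefs

/-! Assembly for the S2942 project JL (helper72). -/

set_option autoImplicit false

namespace Cfsg.Agent.Lib.Helper72.JL

open Cfsg.Agent.Lib.Helper72.SC
open Cfsg.Agent.Lib.Helper78.Jc

open scoped commutatorElement

universe u

/-- the abstract theorem from its pieces -/
theorem main_of_pieces (hVab : VabStmt.{u}) (hO2 : O2Stmt.{u}) (hPs : PsStmt.{u})
    (hExt : ExtStmt.{u}) (hKn : KnStmt.{u}) (hCt : CtStmt.{u}) (hAl : AlStmt.{u}) :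
    MainStmt.{u} := by
  intro X _ _ T hS 𝒮 K h𝒮 hKJ hKodd hQK
  obtain ⟨hVQ, hVc, hV2, hQT, hQV⟩ := hVab X T hS
  have hab : ∀ a b : ↥(VT T), a * b = b * a := fun a b => Subtype.ext (hVc a a.2 b b.2)
  have hexp : ∀ v : ↥(VT T), v ^ 2 = 1 := fun v => by
    apply Subtype.ext
    rw [pow_two]
    exact hV2 v v.2
  obtain ⟨N, hNle, hNnorm, hN3, hNsq⟩ :=
    hExt ↥(VT T) (rhoT T).range hab hexp (hPs X T hS) (hO2 X T hS)
  have hKN := hKn X T hS N hNsq 𝒮 K h𝒮 hKJ hKodd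
  obtain ⟨hQker, hCT⟩ := hCt X T hS
  have hMn : (N.comap (rhoT T)).Normal := ⟨fun m hm x => by
    show rhoT T (x * m * x⁻¹) ∈ N
    rw [map_mul, map_mul, map_inv]
    exact hNnorm _ ⟨x, rfl⟩ _ hm⟩
  have hCn : (rhoT T).ker.Normal := MonoidHom.normal_ker _
  have hQn : (Cfsg.pCore 2 X).Normal := Subgroup.sSup_normal _ (fun H hH => hH.1)
  have hCM : (rhoT T).ker ≤ N.comap (rhoT T) := by
    intro c hc
    show rhoT T c ∈ N
    rw [MonoidHom.mem_ker.mp hc]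
    exact one_mem N
  have hM3 : ∀ m ∈ N.comap (rhoT T), ∃ n : ℕ, m ^ 3 ^ n ∈ (rhoT T).ker := by
    intro m hm
    obtain ⟨n, hn⟩ := hN3 ⟨rhoT T m, hm⟩
    refine ⟨n, ?_⟩
    rw [MonoidHom.mem_ker, map_pow]
    exact congrArg Subtype.val hn
  have hJT : sSup 𝒮 ≤ T := sSup_le (fun A hA => (h𝒮 A hA).1)
  have hCJ : ∀ c ∈ (rhoT T).ker, ∀ j ∈ sSup 𝒮, ⁅c, j⁆ ∈ Cfsg.pCore 2 X :=
    fun c hc j hj => hCT c hc j (hJT hj)
  have hKM : K ≤ N.comap (rhoT T) := by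
    intro k hk
    exact hKN ⟨k, hk, rfl⟩
  exact hAl X (Cfsg.pCore 2 X) (rhoT T).ker (N.comap (rhoT T)) K (sSup 𝒮) hQn hCn hMn hQker hCM hM3
    hCJ hKJ hKM hQK

/-- the statement S2942 from the abstract theorem and the transport pieces -/
theorem final_of_pieces (hMain : MainStmt.{u}) (hTra : TraStmt.{u}) (hTrb : TrbStmt.{u})
    (hTrc : TrcStmt.{u}) (hTrj : TrjStmt.{u}) (hTrk : TrkStmt.{u}) (hTrq : TrqStmt.{u})
    {G : Type u} [Group G] [Finite G] (hL : Cfsg.IsCharacteristicTwoType G)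
    (hN : ∀ N : Subgroup G, Cfsg.IsTwoLocal N → Group.IsSolvable ↥N)
    (hZ : ∀ S : Sylow 2 G, Subgroup.centralizer (Cfsg.omegaCenterOf (S : Subgroup G) : Set G) ≤
      Subgroup.normalizer ((S : Subgroup G) : Set G))
    (T : Subgroup G) (hT : IsPGroup 2 ↥T) (hT1 : T ≠ ⊥) (L : Subgroup G)
    (hLT : L ∈ Cfsg.jOvergroups T) (K : Subgroup G) (hK : Cfsg.IsJComponent T K) (hKL : K ≤ L) :
    (K.subgroupOf L).IsSubnormal := by
  have hzn : ZNHyp G := ⟨hL, hN, hZ⟩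
  have hTL : T ≤ L := hLT.1.1
  obtain ⟨h2, hodd, hchar⟩ := hTra G T L hLT
  have hS : Setting ↥L (T.subgroupOf L) :=
    ⟨h2, hodd, hTrb G hzn T L hLT, hchar, hTrc G hzn T L hLT⟩
  obtain ⟨𝒮, h𝒮, hsup⟩ := hTrj G T L hTL
  obtain ⟨hKJ, hKodd⟩ := hTrk G T K L hK hKL hTL
  exact hMain ↥L (T.subgroupOf L) hS 𝒮 (K.subgroupOf L) h𝒮 (by rw [hsup]; exact hKJ) hKodd
    (hTrq G hzn T hT hT1 L hLT K hK hKL)

end Cfsg.Agent.Lib.Helper72.JL
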