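import Mathlib
import Cfsg.Agent.Lib.Helper72.JMDefs

/-! Assembly for the S2943 project JM (helper72). -/

set_option autoImplicit false

namespace Cfsg.Agent.Lib.Helper72.JM

open Cfsg.Agent.Lib.Helper72.SC
open Cfsg.Agent.Lib.Helper72.JL
open Cfsg.Agent.Lib.Helper78.Jc

open scoped commutatorElement

universe u

/-- the external structure from the sharper one -/
theorem ext_of_ext2 (h : Ext2Stmt.{u}) : ExtStmt.{u} := by
  intro V _ _ Gb hab hexp hps hO2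
  obtain ⟨N, h1, h2, h3, h4, -⟩ := h V Gb hab hexp hps hO2
  exact ⟨N, h1, h2, h3, h4⟩

/-- the abstract theorem from its pieces -/
theorem main2_of_pieces (hVab : VabStmt.{u}) (hO2 : O2Stmt.{u}) (hPs : PsStmt.{u})
    (hExt2 : Ext2Stmt.{u}) (hKn : KnStmt.{u}) (hCt : CtStmt.{u}) (hC2 : C2Stmt.{u})
    (hWz : WzStmt.{u}) (hWv : WvStmt.{u}) (hYx : YxStmt.{u}) (hGr : GrStmt.{u}) :
    Main2Stmt.{u} := by
  intro X _ _ T hS 𝒮 K h𝒮 hTJ hKJ hKodd hQK hdata g hg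
  obtain ⟨P, W, k, z, hPK, hP2, hK2, hkK, hk3, hKk, hWP, hW4, hW2, hkW, hfpf, hu, hzW, hz1, hzT,
    hzc⟩ := hdata
  obtain ⟨hVQ, hVc, hV2, hQT, hQV⟩ := hVab X T hS
  have hab : ∀ a b : ↥(VT T), a * b = b * a := fun a b => Subtype.ext (hVc a a.2 b b.2)
  have hexp : ∀ v : ↥(VT T), v ^ 2 = 1 := fun v => by
    apply Subtype.ext
    rw [pow_two]
    exact hV2 v v.2
  obtain ⟨N, hNle, hNnorm, hN3, hNsq, hNab⟩ :=
    hExt2 ↥(VT T) (rhoT T).range hab hexp (hPs X T hS) (hO2 X T hS)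
  have hKN := hKn X T hS N hNsq 𝒮 K h𝒮 hKJ hKodd
  obtain ⟨hQker, hCT⟩ := hCt X T hS
  have hCn : (rhoT T).ker.Normal := MonoidHom.normal_ker _
  have hQn : (Cfsg.pCore 2 X).Normal := Subgroup.sSup_normal _ (fun H hH => hH.1)
  have hQ2 : IsPGroup 2 ↥(Cfsg.pCore 2 X) :=
    Sylow.sSup_of_normal _ (fun _ hK => hK.2) (fun _ hK => hK.1)
  have hPQ : P ≤ Cfsg.pCore 2 X := fun p hp =>
    hC2 X T hS N hN3 p (hKN ⟨p, hPK hp, rfl⟩) (hP2 p hp)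
  have hWV : W ≤ VT T := hWz X T W k z hW4 hW2 hkW hfpf hzW hz1 hzT hzc
  have hkV : ∀ v ∈ VT T, ⁅k, v⁆ ∈ W :=
    hWv X (VT T) (Cfsg.pCore 2 X) K P W k inferInstance hVQ hVc hV2 hQV hQK hPQ hK2 hkK hk3 hkW hu
  have hρk : rhoT T k ∈ N := hKN ⟨k, hkK, rfl⟩
  have hρgk : rhoT T (g * k * g⁻¹) ∈ N := by
    rw [map_mul, map_mul, map_inv]
    exact hNnorm _ ⟨g, rfl⟩ _ hρk
  obtain ⟨i, hi⟩ :=
    hYx X T hS N hN3 hNab W k z g hρk hρgk hWV hW4 hkV hfpf hzW hz1 (hzc g hg)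
  have hJT : sSup 𝒮 ≤ T := sSup_le (fun A hA => (h𝒮 A hA).1)
  refine hGr X (Cfsg.pCore 2 X) (rhoT T).ker K (sSup 𝒮) hQn hQ2 hCn
    (fun c hc j hj => hCT c hc j (hJT hj)) hKJ hKodd hQK g (hTJ hg) ?_
  intro x hx
  obtain ⟨p, hp, j, rfl⟩ := hKk x hx
  refine ⟨k ^ (i * j), K.pow_mem hkK _, (k ^ (i * j))⁻¹ * (g * (p * k ^ j) * g⁻¹), ?_, by group⟩
  rw [MonoidHom.mem_ker]
  have h1 : rhoT T (g * p * g⁻¹) = 1 :=
    MonoidHom.mem_ker.1 (hQker (hQn.conj_mem p (hPQ hp) g))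
  have h2 : g * (p * k ^ j) * g⁻¹ = (g * p * g⁻¹) * (g * k * g⁻¹) ^ j := by
    rw [conj_pow]
    group
  have h3 : rhoT T ((g * k * g⁻¹) ^ j) = rhoT T (k ^ (i * j)) := by
    rw [map_pow, hi, ← map_pow, ← pow_mul]
  rw [map_mul, map_inv, h2, map_mul, h1, one_mul, h3, inv_mul_cancel]

/-- the statement S2943 from the abstract theorem and the transport pieces -/
theorem final2_of_pieces (hMain : Main2Stmt.{u}) (hTra : TraStmt.{u}) (hTrb : TrbStmt.{u})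
    (hTrc : TrcStmt.{u}) (hTrj : TrjStmt.{u}) (hTrk : TrkStmt.{u}) (hTrq : TrqStmt.{u})
    (hTrn : TrnStmt.{u}) (hKd : KdStmt.{u}) (hKt : KtStmt.{u})
    {G : Type u} [Group G] [Finite G] (hL : Cfsg.IsCharacteristicTwoType G)
    (hN : ∀ N : Subgroup G, Cfsg.IsTwoLocal N → Group.IsSolvable ↥N)
    (hZ : ∀ S : Sylow 2 G, Subgroup.centralizer (Cfsg.omegaCenterOf (S : Subgroup G) : Set G) ≤
      Subgroup.normalizer ((S : Subgroup G) : Set G))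
    (T : Subgroup G) (hT : IsPGroup 2 ↥T) (hT1 : T ≠ ⊥) (L : Subgroup G)
    (hLT : L ∈ Cfsg.jOvergroups T) (K : Subgroup G) (hK : Cfsg.IsJComponent T K) (hKL : K ≤ L)
    (hZW : T ⊓ Subgroup.centralizer (T : Set G) ⊓ Cfsg.wOf K ≠ ⊥) :
    T ≤ Subgroup.normalizer (K : Set G) := by
  have hzn : ZNHyp G := ⟨hL, hN, hZ⟩
  have hTL : T ≤ L := hLT.1.1
  obtain ⟨h2, hodd, hchar⟩ := hTra G T L hLT
  have hS : Setting ↥L (T.subgroupOf L) :=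
    ⟨h2, hodd, hTrb G hzn T L hLT, hchar, hTrc G hzn T L hLT⟩
  obtain ⟨𝒮, h𝒮, hsup⟩ := hTrj G T L hTL
  obtain ⟨hKJ, hKodd⟩ := hTrk G T K L hK hKL hTL
  have hdata : KData (T.subgroupOf L) (K.subgroupOf L) := hKt G T K L hKL hTL (hKd G T K hK hZW)
  have key := hMain ↥L (T.subgroupOf L) hS 𝒮 (K.subgroupOf L) h𝒮
    (by rw [hsup]; exact hTrn G T L) (by rw [hsup]; exact hKJ) hKodd
    (hTrq G hzn T hT hT1 L hLT K hK hKL) hdata
  have key2 : ∀ g ∈ T, ∀ x ∈ K, g * x * g⁻¹ ∈ K := by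
    intro g hg x hx
    have := key ⟨g, hTL hg⟩ (by rw [Subgroup.mem_subgroupOf]; exact hg) ⟨x, hKL hx⟩
      (by rw [Subgroup.mem_subgroupOf]; exact hx)
    rw [Subgroup.mem_subgroupOf] at this
    exact this
  intro g hg
  rw [Subgroup.mem_normalizer_iff]
  intro h
  constructor
  · exact fun hh => key2 g hg h hh
  · intro hh
    have := key2 g⁻¹ (T.inv_mem hg) _ hh
    have e : g⁻¹ * (g * h * g⁻¹) * g⁻¹⁻¹ = h := by group
    rwa [e] at this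

end Cfsg.Agent.Lib.Helper72.JM
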