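import Mathlib
import Cfsg.Agent.Lib.Helper72.JPDefs
import Cfsg.Agent.Lib.Helper94.JcTH

/-! Assembly for the project JP (helper72). -/

set_option autoImplicit false

namespace Cfsg.Agent.Lib.Helper72.JP

open Cfsg.Agent.Lib.Helper72.SC
open Cfsg.Agent.Lib.Helper72.JL
open Cfsg.Agent.Lib.Helper72.JM
open Cfsg.Agent.Lib.Helper78.Jc

open scoped commutatorElement

universe u

/-- an element normalizing `K` normalizes `K ⊓ Q` for a normal subgroup `Q` -/
theorem mem_normalizer_inf {X : Type*} [Group X] (K Q : Subgroup X) (hQ : Q.Normal) (x : X)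
    (hx : x ∈ Subgroup.normalizer (K : Set X)) :
    x ∈ Subgroup.normalizer ((K ⊓ Q : Subgroup X) : Set X) := by
  rw [Subgroup.mem_normalizer_iff] at hx ⊢
  intro h
  rw [Subgroup.mem_inf, Subgroup.mem_inf, ← hx h]
  constructor
  · rintro ⟨h1, h2⟩
    exact ⟨h1, hQ.conj_mem h h2 x⟩
  · rintro ⟨h1, h2⟩
    refine ⟨h1, ?_⟩
    have := hQ.conj_mem _ h2 x⁻¹
    have e : x⁻¹ * (x * h * x⁻¹) * x⁻¹⁻¹ = h := by group
    rwa [e] at this

/-- every seed gives an abstract component -/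
theorem compx_of_pieces (hVab : VabStmt.{u}) (hKb : KbStmt.{u}) (hKp : KpStmt.{u})
    (hKj : KjStmt.{u}) (hK4a : K4aStmt.{u}) (hK4b : K4bStmt.{u}) (hK4c : K4cStmt.{u})
    (hK4d : K4dStmt.{u}) : CompxStmt.{u} := by
  intro X _ _ T hS a k hseed
  have hseed' := hseed
  obtain ⟨⟨A, hA, haA⟩, hk3, hak, hρk, hJk⟩ := hseed
  have hQn : (Cfsg.pCore 2 X).Normal := Subgroup.sSup_normal _ (fun H hH => hH.1)
  have hQ2 : IsPGroup 2 ↥(Cfsg.pCore 2 X) :=
    Sylow.sSup_of_normal _ (fun _ hK => hK.2) (fun _ hK => hK.1)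
  have hk1 : k ≠ 1 := by
    rintro rfl
    exact hρk (map_one _)
  have hkK : k ∈ KOf (Cfsg.pCore 2 X) k :=
    Subgroup.subset_closure ⟨1, one_mem _, by simp⟩
  obtain ⟨hQK, hodd, hdec, hoddmem⟩ := hKb X (Cfsg.pCore 2 X) k hQn hQ2 hk3 hk1
  obtain ⟨hpc, hrel⟩ := hKp X (Cfsg.pCore 2 X) k hQn hQ2 hk3 hk1
  obtain ⟨hJN, hKJ⟩ := hKj X T hS a k hseed'
  obtain ⟨hWP, hWc, hW2, hfpf, hWn, hW1⟩ := hK4a X T hS a k hseed'
  obtain ⟨A₁, hA₁A, hA₁2, hA₁k⟩ := hK4d X T hS a k hseed' A hA haA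
  have hQT : Cfsg.pCore 2 X ≤ T := (hVab X T hS).2.2.2.1
  have hPT : KOf (Cfsg.pCore 2 X) k ⊓ Cfsg.pCore 2 X ≤ T := inf_le_right.trans hQT
  have hAJ : A ≤ JT T := le_sSup hA
  have hAN : A ≤ Subgroup.normalizer
      ((KOf (Cfsg.pCore 2 X) k ⊓ Cfsg.pCore 2 X : Subgroup X) : Set X) :=
    fun x hx => mem_normalizer_inf _ _ hQn x (hJN (hAJ hx))
  have hkN : k ∈ Subgroup.normalizer
      ((KOf (Cfsg.pCore 2 X) k ⊓ Cfsg.pCore 2 X : Subgroup X) : Set X) :=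
    mem_normalizer_inf _ _ hQn k (Subgroup.le_normalizer hkK)
  have h4b := hK4b X T A A₁ (KOf (Cfsg.pCore 2 X) k ⊓ Cfsg.pCore 2 X)
    (Cfsg.wOf (KOf (Cfsg.pCore 2 X) k)) a k hA haA hA₁A hA₁2 hPT hAN hkN hk3 hak hA₁k hWP hWc
    hW2 hfpf
  have h4 := hK4c X T A A₁ (KOf (Cfsg.pCore 2 X) k ⊓ Cfsg.pCore 2 X)
    (Cfsg.wOf (KOf (Cfsg.pCore 2 X) k)) a k hA haA hA₁A hA₁2 hPT hAN hkN hk3 hak hA₁k hWP hWc
    hW2 hfpf (fun w hw => hWn k (Subgroup.le_normalizer hkK) w hw)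
    (fun x hx w hw => hWn x (hJN (hAJ hx)) w hw) h4b hW1
  exact ⟨hodd, hKJ, hrel, h4, hW2⟩

/-- the abstract theorem from its pieces -/
theorem exall_of_pieces (hCompx : CompxStmt.{u}) (hSeed : SeedStmt.{u}) (hFrat : FratStmt.{u})
    (hGen : GenStmt.{u}) (hNtj : NtjStmt.{u}) : ExAllStmt.{u} := by
  intro X _ _ T hS Y hY hNY
  obtain ⟨XH, hXHn, hJXH, hconj⟩ := hSeed X T hS
  have hJY : JT T ≤ Y := Subgroup.le_normalizer.trans hNY
  have hkerY : (rhoT T).ker ≤ Y := by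
    intro c hc
    apply hNY
    apply hNtj X T
    apply hS.hZN
    intro z hz
    have hzV : z ∈ VT T := Subgroup.subset_normalClosure hz
    have h1 : rhoT T c ⟨z, hzV⟩ = ⟨z, hzV⟩ := by
      rw [MonoidHom.mem_ker.1 hc]
      rfl
    have h2 : c * z * c⁻¹ = z := congrArg Subtype.val h1
    calc c * z = c * z * c⁻¹ * c := by group
      _ = z * c := by rw [h2]
  have hseedY : ∀ a k : X, KSeed T a k → k ∈ Y := fun a k h =>
    hY _ (hCompx X T hS a k h) (Subgroup.subset_closure ⟨1, one_mem _, by simp⟩)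
  exact hGen X (JT T) XH Y hXHn hJXH (hFrat X T hS.hT2 hS.hTodd) hNY
    (hconj Y hkerY hJY hseedY)

/-- the theorem in the ZN-group from the abstract theorem and the transport pieces -/
theorem exg_of_pieces (hExAll : ExAllStmt.{u}) (hTra : TraStmt.{u}) (hTrb : TrbStmt.{u})
    (hTrc : TrcStmt.{u}) (hTrj2 : Trj2Stmt.{u}) (hTrm : TrmStmt.{u}) (hSyl : SylStmt.{u}) :
    ExGStmt.{u} := by
  intro G _ _ hzn T hT hT1 L hLT Y hY hNY
  have hTL : T ≤ L := hLT.1.1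
  obtain ⟨h2, hodd, hchar⟩ := hTra G T L hLT
  have hS : Setting ↥L (T.subgroupOf L) :=
    ⟨h2, hodd, hTrb G hzn T L hLT, hchar, hTrc G hzn T L hLT⟩
  have key : Y.subgroupOf L = ⊤ := by
    apply hExAll ↥L (T.subgroupOf L) hS (Y.subgroupOf L)
    · intro K hK
      obtain ⟨c1, c2, c3, c4, c5⟩ := hTrm G T L hTL K hK
      have hcomp : Cfsg.IsJComponent T (K.map L.subtype) :=
        ⟨c1, c2, c3, fun S hS1 hS2 =>
          hSyl G T L (K.map L.subtype) hLT.1 (Subgroup.map_subtype_le K) S hS1 hS2, c4, c5⟩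
      have hle := hY _ hcomp (Subgroup.map_subtype_le K)
      intro x hx
      rw [Subgroup.mem_subgroupOf]
      exact hle ⟨x, hx, rfl⟩
    · rw [hTrj2 G T L hTL]
      intro x hx
      rw [Subgroup.mem_subgroupOf]
      apply hNY
      rw [Subgroup.mem_normalizer_iff] at hx
      refine Subgroup.mem_inf.2 ⟨x.2, Subgroup.mem_normalizer_iff.2 ?_⟩
      intro h
      constructor
      · intro hh
        have hhL : h ∈ L := hTL (Cfsg.Agent.Lib.Helper94.Jc.th_le_self T hh)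
        have h3 := (hx ⟨h, hhL⟩).1 (by rw [Subgroup.mem_subgroupOf]; exact hh)
        rw [Subgroup.mem_subgroupOf] at h3
        exact h3
      · intro hh
        have hhL : h ∈ L := by
          have h1 : (x : G) * h * (x : G)⁻¹ ∈ L :=
            hTL (Cfsg.Agent.Lib.Helper94.Jc.th_le_self T hh)
          have e : h = (x : G)⁻¹ * ((x : G) * h * (x : G)⁻¹) * (x : G) := by group
          rw [e]
          exact L.mul_mem (L.mul_mem (L.inv_mem x.2) h1) x.2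
        have h3 := (hx ⟨h, hhL⟩).2 (by rw [Subgroup.mem_subgroupOf]; exact hh)
        rw [Subgroup.mem_subgroupOf] at h3
        exact h3
  intro x hx
  have h4 : (⟨x, hx⟩ : ↥L) ∈ Y.subgroupOf L := by
    rw [key]
    exact Subgroup.mem_top _
  rw [Subgroup.mem_subgroupOf] at h4
  exact h4

end Cfsg.Agent.Lib.Helper72.JP
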