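import Mathlib
import Cfsg.Agent.Lib.Helper72.JPCore
import Cfsg.Agent.Lib.Helper15.JLO2
import Cfsg.Agent.Lib.Helper19.JPK4d
import Cfsg.Agent.Lib.Helper22.JLTra
import Cfsg.Agent.Lib.Helper22.JLTrb
import Cfsg.Agent.Lib.Helper23.JPKj
import Cfsg.Agent.Lib.Helper23.SCFfb
import Cfsg.Agent.Lib.Helper29.JPGen
import Cfsg.Agent.Lib.Helper29.JPNtj
import Cfsg.Agent.Lib.Helper3.JPSyl
import Cfsg.Agent.Lib.Helper31.JLBo
import Cfsg.Agent.Lib.Helper31.JMC2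
import Cfsg.Agent.Lib.Helper31.JPK4c
import Cfsg.Agent.Lib.Helper34.JPKb
import Cfsg.Agent.Lib.Helper40.JPTrj2
import Cfsg.Agent.Lib.Helper40.JPTrm
import Cfsg.Agent.Lib.Helper41.JLPs
import Cfsg.Agent.Lib.Helper47.JLCt
import Cfsg.Agent.Lib.Helper59.JPSeed
import Cfsg.Agent.Lib.Helper6.JLVab
import Cfsg.Agent.Lib.Helper60.JPFrat
import Cfsg.Agent.Lib.Helper62.JMWv
import Cfsg.Agent.Lib.Helper63.JPK3
import Cfsg.Agent.Lib.Helper68.JPExtm3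
import Cfsg.Agent.Lib.Helper79.SCFfa
import Cfsg.Agent.Lib.Helper82.JPK4a
import Cfsg.Agent.Lib.Helper83.JLTrc
import Cfsg.Agent.Lib.Helper87.JPKp
import Cfsg.Agent.Lib.Helper89.JPK4b

/-! Project JP (helper72): the assembled generation theorem `exg` (a subgroup `L ∈ ℒ(T)` of a
ZN-group is generated by its `J(T)`-components and `N_L(J(T))`) and the abstract forms. -/

set_option autoImplicit false

namespace Cfsg.Agent.Lib.Helper72.JP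

open Cfsg.Agent.Lib.Helper72.SC Cfsg.Agent.Lib.Helper72.JL Cfsg.Agent.Lib.Helper72.JM

/-- The abstract generation theorem (assembly of the pieces of the JP project). -/
theorem exall.{u} : ExAllStmt.{u} :=
  have hFfa : FfaStmt.{u} := (Cfsg.Agent.Lib.Helper79.SC.ffa.{u})
  have hFfb : FfbStmt.{u} := (Cfsg.Agent.Lib.Helper23.SC.ffb.{u} hFfa)
  have hVab : VabStmt.{u} := (Cfsg.Agent.Lib.Helper6.JL.vab.{u})
  have hO2 : O2Stmt.{u} := (Cfsg.Agent.Lib.Helper15.JL.o2.{u})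
  have hPs : PsStmt.{u} := (Cfsg.Agent.Lib.Helper41.JL.ps.{u})
  have hBo : BoStmt.{u} := (Cfsg.Agent.Lib.Helper31.JL.bo.{u} hVab)
  have hCt : CtStmt.{u} := (Cfsg.Agent.Lib.Helper47.JL.ct.{u} hVab)
  have hC2 : C2Stmt.{u} := (Cfsg.Agent.Lib.Helper31.JM.c2.{u})
  have hWv : WvStmt.{u} := (Cfsg.Agent.Lib.Helper62.JM.wv.{u})
  have hExtm3 : Extm3Stmt.{u} := (Cfsg.Agent.Lib.Helper68.JP.extm3.{u})
  have hK3 : K3Stmt.{u} := (Cfsg.Agent.Lib.Helper63.JP.k3.{u} hCt)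
  have hKb : KbStmt.{u} := (Cfsg.Agent.Lib.Helper34.JP.kb.{u})
  have hKp : KpStmt.{u} := (Cfsg.Agent.Lib.Helper87.JP.kp.{u})
  have hNtj : NtjStmt.{u} := (Cfsg.Agent.Lib.Helper29.JP.ntj.{u})
  have hKj : KjStmt.{u} := (Cfsg.Agent.Lib.Helper23.JP.kj.{u} hCt hC2 hKb hVab hNtj)
  have hK4a : K4aStmt.{u} := (Cfsg.Agent.Lib.Helper82.JP.k4a.{u} hVab hWv hKb hKp)
  have hK4b : K4bStmt.{u} := (Cfsg.Agent.Lib.Helper89.JP.k4b.{u})
  have hK4c : K4cStmt.{u} := (Cfsg.Agent.Lib.Helper31.JP.k4c.{u})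
  have hK4d : K4dStmt.{u} := (Cfsg.Agent.Lib.Helper19.JP.k4d.{u} hKb hKj)
  have hSeed : SeedStmt.{u} := (Cfsg.Agent.Lib.Helper59.JP.seed.{u} hFfa hFfb hVab hO2 hPs hBo hExtm3 hK3)
  have hFrat : FratStmt.{u} := (Cfsg.Agent.Lib.Helper60.JP.frat.{u})
  have hGen : GenStmt.{u} := (Cfsg.Agent.Lib.Helper29.JP.gen.{u})
  have hCompx : CompxStmt.{u} := compx_of_pieces hVab hKb hKp hKj hK4a hK4b hK4c hK4d
  exall_of_pieces hCompx hSeed hFrat hGen hNtj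

/-- The generation theorem in the ZN-group. -/
theorem exg.{u} : ExGStmt.{u} :=
  have hTrj2 : Trj2Stmt.{u} := (Cfsg.Agent.Lib.Helper40.JP.trj2.{u})
  exg_of_pieces exall (Cfsg.Agent.Lib.Helper22.JL.tra.{u}) (Cfsg.Agent.Lib.Helper22.JL.trb.{u}) (Cfsg.Agent.Lib.Helper83.JL.trc.{u})
    hTrj2 (Cfsg.Agent.Lib.Helper40.JP.trm.{u} hTrj2) (Cfsg.Agent.Lib.Helper3.JP.syl.{u})

end Cfsg.Agent.Lib.Helper72.JP
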