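import Mathlib
import Cfsg.Prelude.Def_JComponents
import Cfsg.Agent.Lib.Helper72.JPDefs
import Cfsg.Agent.Lib.Helper58.JEDefs

/-! Interface for the final step of S2949 (helper72): a `J(T)`-component outside `M`. -/

set_option autoImplicit false

namespace Cfsg.Agent.Lib.Helper72.JQ

open Cfsg.Agent.Lib.Helper72.JL
open Cfsg.Agent.Lib.Helper72.JP
open Cfsg.Agent.Lib.Helper58.JE

universe u

/-- the statement S2949 -/
def S49Stmt.{w} : Prop :=
  ∀ (G : Type w) [Group G] [Finite G], Cfsg.IsCharacteristicTwoType G →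
    (∀ N : Subgroup G, Cfsg.IsTwoLocal N → Group.IsSolvable ↥N) →
    (∀ S : Sylow 2 G, Subgroup.centralizer (Cfsg.omegaCenterOf (S : Subgroup G) : Set G) ≤
      Subgroup.normalizer ((S : Subgroup G) : Set G)) →
    Cfsg.pCore 2 G = ⊥ → ∀ (S : Sylow 2 G) (M : Subgroup G), Cfsg.IsTwoLocal M →
    Subgroup.normalizer (Cfsg.thompsonSubgroupOf 2 (S : Subgroup G) : Set G) ≤ M →
    ∀ T : Subgroup G, T ∈ Cfsg.maxStraddlingTwoSubgroups M →
      (Cfsg.jComponentsOutside M T).Nonempty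

/-- JQ-FIN: S2949 from the elementary facts JE-A1 … JE-A4 (helper58) and the generation theorem
of project JP -/
def FinStmt.{w} : Prop :=
  A1Stmt.{w} → A2Stmt.{w} → A3Stmt.{w} → A4Stmt.{w} → ExGStmt.{w} → S49Stmt.{w}

end Cfsg.Agent.Lib.Helper72.JQ
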