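import Mathlib
import Cfsg.Agent.Lib.Helper72.JRDefs

/-! Assembly for the S2950 project JR (helper72). -/

set_option autoImplicit false

namespace Cfsg.Agent.Lib.Helper72.JR

open Cfsg.Agent.Lib.Helper72.SC
open Cfsg.Agent.Lib.Helper72.JL
open Cfsg.Agent.Lib.Helper72.JM
open Cfsg.Agent.Lib.Helper72.JP
open Cfsg.Agent.Lib.Helper78.Jc

open scoped commutatorElement

universe u

/-- the key lemma from its abstract form and the transport pieces -/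
theorem l1_of_pieces (hL1X : L1XStmt.{u}) (hL1D : L1DStmt.{u}) (hNw : NwStmt.{u})
    (hTra : TraStmt.{u}) (hTrb : TrbStmt.{u}) (hTrc : TrcStmt.{u}) (hTrj : TrjStmt.{u})
    (hTrk : TrkStmt.{u}) (hTrq : TrqStmt.{u}) : L1Stmt.{u} := by
  intro G _ _ hzn T hT hT1 L hLT K₁ K₂ hK₁ hK₂ hK₁L hK₂L
  have hTL : T ≤ L := hLT.1.1
  obtain ⟨h2, hodd, hchar⟩ := hTra G T L hLT
  have hS : Setting ↥L (T.subgroupOf L) :=
    ⟨h2, hodd, hTrb G hzn T L hLT, hchar, hTrc G hzn T L hLT⟩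
  obtain ⟨𝒮, h𝒮, hsup⟩ := hTrj G T L hTL
  obtain ⟨hKJ₁, hKodd₁⟩ := hTrk G T K₁ L hK₁ hK₁L hTL
  obtain ⟨hKJ₂, hKodd₂⟩ := hTrk G T K₂ L hK₂ hK₂L hTL
  obtain ⟨d1, d2, d3, d4, d5, d6, d7, d8, d9⟩ := hL1D G T K₂ L hK₂ hK₂L
  have key := hL1X ↥L (T.subgroupOf L) hS 𝒮 (K₁.subgroupOf L) (K₂.subgroupOf L)
    ((Cfsg.pCoreOf 2 K₂).subgroupOf L) ((Cfsg.wOf K₂).subgroupOf L) h𝒮
    (by rw [hsup]; exact hKJ₁) hKodd₁ (by rw [hsup]; exact hKJ₂) hKodd₂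
    (hTrq G hzn T hT hT1 L hLT K₂ hK₂ hK₂L) d1 d2 d3 d4 d5 d6 d7 d8 d9
  have hWK : Cfsg.wOf K₂ ≤ K₂ := (hNw G T K₂ hK₂).2.2.2.2
  have key2 : ∀ x ∈ K₁, ∀ w ∈ Cfsg.wOf K₂, x * w * x⁻¹ ∈ Cfsg.wOf K₂ := by
    intro x hx w hw
    have := key ⟨x, hK₁L hx⟩ (by rw [Subgroup.mem_subgroupOf]; exact hx) ⟨w, hK₂L (hWK hw)⟩
      (by rw [Subgroup.mem_subgroupOf]; exact hw)
    rw [Subgroup.mem_subgroupOf] at this
    exact this
  intro x hx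
  rw [Subgroup.mem_normalizer_iff]
  intro w
  constructor
  · exact fun hw => key2 x hx w hw
  · intro hw
    have := key2 x⁻¹ (K₁.inv_mem hx) _ hw
    have e : x⁻¹ * (x * w * x⁻¹) * x⁻¹⁻¹ = w := by group
    rwa [e] at this

/-- every 2-local subgroup containing `K` and `J(T)` normalizes `YOf M T K` -/
theorem uni_of_pieces (hLoc : LocStmt.{u}) (hExG : ExGStmt.{u}) (hHa : HaStmt.{u})
    (hHb : HbStmt.{u}) : UniStmt.{u} := by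
  intro G _ _ M T K hC hT2 hK hKM H hH hKJ
  have hKH : K ≤ H := le_trans le_sup_left hKJ
  have hJH : Cfsg.thompsonSubgroupOf 2 T ≤ H := le_trans le_sup_right hKJ
  have hHM : ¬ H ≤ M := fun h => hKM (le_trans hKH h)
  obtain ⟨T₀, hT₀2, hT₀1, hHT₀, hJ, hiff⟩ := hLoc G M T hC hT2 H hH hHM hJH
  refine hExG G hC.hzn T₀ hT₀2 hT₀1 H hHT₀ _ ?_ ?_
  · intro K₁ hK₁ hK₁H
    exact hHa G M T K hC hT2 hK hKM H hH hKH hJH K₁ ((hiff K₁).1 hK₁) hK₁H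
  · rw [hJ]
    exact hHb G M T K hC hT2 hK hKM H hH hKH hJH

end Cfsg.Agent.Lib.Helper72.JR
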