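import Mathlib
import Cfsg.Agent.Lib.Helper72.JRCore
import Cfsg.Agent.Lib.Helper72.JPMain
import Cfsg.Agent.S2942
import Cfsg.Agent.Lib.Helper13.JLTrj
import Cfsg.Agent.Lib.Helper15.JLO2
import Cfsg.Agent.Lib.Helper22.JLTra
import Cfsg.Agent.Lib.Helper22.JLTrb
import Cfsg.Agent.Lib.Helper22.JLTrk
import Cfsg.Agent.Lib.Helper22.JLTrq
import Cfsg.Agent.Lib.Helper23.SCFfb
import Cfsg.Agent.Lib.Helper29.JRNw
import Cfsg.Agent.Lib.Helper31.JLBo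
import Cfsg.Agent.Lib.Helper31.JMC2
import Cfsg.Agent.Lib.Helper36.JLKn
import Cfsg.Agent.Lib.Helper39.JMExtd
import Cfsg.Agent.Lib.Helper41.JLPs
import Cfsg.Agent.Lib.Helper47.JLCt
import Cfsg.Agent.Lib.Helper5.JRYp
import Cfsg.Agent.Lib.Helper54.JMExtm2
import Cfsg.Agent.Lib.Helper57.JNVw
import Cfsg.Agent.Lib.Helper6.JLVab
import Cfsg.Agent.Lib.Helper62.JLExta
import Cfsg.Agent.Lib.Helper64.JRHa
import Cfsg.Agent.Lib.Helper67.JRL1x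
import Cfsg.Agent.Lib.Helper68.JRL1d
import Cfsg.Agent.Lib.Helper79.SCFfa
import Cfsg.Agent.Lib.Helper8.JRSubw
import Cfsg.Agent.Lib.Helper83.JLTrc
import Cfsg.Agent.Lib.Helper87.JRConj
import Cfsg.Agent.Lib.Helper87.JRLoc
import Cfsg.Agent.Lib.Helper89.JMExtc
import Cfsg.Agent.Lib.Helper91.JRhb

/-! Project JR (helper72): the assembled pieces for S2950: the key lemma `l1`, the normalizer
theorem `uni`, and `yp0`. -/

set_option autoImplicit false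

namespace Cfsg.Agent.Lib.Helper72.JR

open Cfsg.Agent.Lib.Helper72.SC Cfsg.Agent.Lib.Helper72.JL Cfsg.Agent.Lib.Helper72.JM
open Cfsg.Agent.Lib.Helper72.JP

/-- Two `J(T)`-components of `L ∈ ℒ(T)`: the first normalizes the `W` of the second. -/
theorem l1.{u} : L1Stmt.{u} :=
  have hFfa : FfaStmt.{u} := (Cfsg.Agent.Lib.Helper79.SC.ffa.{u})
  have hFfb : FfbStmt.{u} := (Cfsg.Agent.Lib.Helper23.SC.ffb.{u} hFfa)
  have hVab : VabStmt.{u} := (Cfsg.Agent.Lib.Helper6.JL.vab.{u})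
  have hO2 : O2Stmt.{u} := (Cfsg.Agent.Lib.Helper15.JL.o2.{u})
  have hPs : PsStmt.{u} := (Cfsg.Agent.Lib.Helper41.JL.ps.{u})
  have hBo : BoStmt.{u} := (Cfsg.Agent.Lib.Helper31.JL.bo.{u} hVab)
  have hExtm2 : Extm2Stmt.{u} := (Cfsg.Agent.Lib.Helper54.JM.extm2.{u})
  have hExtm : ExtmStmt.{u} := extm_of_extm2 hExtm2
  have hExta : ExtaStmt.{u} := (Cfsg.Agent.Lib.Helper62.JL.exta.{u} hExtm)
  have hExtc : ExtcStmt.{u} := (Cfsg.Agent.Lib.Helper89.JM.extc.{u} hExtm2)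
  have hExt2 : Ext2Stmt.{u} := (Cfsg.Agent.Lib.Helper39.JM.extd.{u} hFfa hFfb hExta hExtc)
  have hKn : KnStmt.{u} := (Cfsg.Agent.Lib.Helper36.JL.kn.{u} hFfa hVab hBo)
  have hCt : CtStmt.{u} := (Cfsg.Agent.Lib.Helper47.JL.ct.{u} hVab)
  have hC2 : C2Stmt.{u} := (Cfsg.Agent.Lib.Helper31.JM.c2.{u})
  have hVw : Cfsg.Agent.Lib.Helper78.JN.VwStmt.{u} := (Cfsg.Agent.Lib.Helper57.JN.vw.{u})
  have hL1X : L1XStmt.{u} := (Cfsg.Agent.Lib.Helper67.JR.l1x.{u} hVab hO2 hPs hExt2 hKn hCt hC2 hVw)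
  l1_of_pieces hL1X (Cfsg.Agent.Lib.Helper68.JR.l1d.{u}) (Cfsg.Agent.Lib.Helper29.JR.nw.{u})
    (Cfsg.Agent.Lib.Helper22.JL.tra.{u}) (Cfsg.Agent.Lib.Helper22.JL.trb.{u}) (Cfsg.Agent.Lib.Helper83.JL.trc.{u})
    (Cfsg.Agent.Lib.Helper13.JL.trj.{u}) (Cfsg.Agent.Lib.Helper22.JL.trk.{u}) (Cfsg.Agent.Lib.Helper22.JL.trq.{u})

/-- Every 2-local subgroup containing `K` and `J(T)` normalizes `YOf M T K`. -/
theorem uni.{u} : UniStmt.{u} :=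
  have hLoc : LocStmt.{u} := (Cfsg.Agent.Lib.Helper87.JR.loc.{u})
  have hNw : NwStmt.{u} := (Cfsg.Agent.Lib.Helper29.JR.nw.{u})
  have hConj : ConjStmt.{u} := (Cfsg.Agent.Lib.Helper87.JR.cj.{u})
  uni_of_pieces hLoc Cfsg.Agent.Lib.Helper72.JP.exg.{u} (Cfsg.Agent.Lib.Helper64.JR.ha.{u} hLoc hNw l1.{u})
    (Cfsg.Agent.Lib.Helper91.JR.hb.{u} hLoc hNw hConj l1.{u})

/-- The statement of S2942. -/
theorem s42.{u} : S42Stmt.{u} := fun _ _ _ hzn T h2 h1 L hL K hK hKL =>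
  Cfsg.Agent.S2942.result hzn.1 hzn.2.1 hzn.2.2 T h2 h1 L hL K hK hKL

/-- `YOf M T K` is a nontrivial 2-group. -/
theorem yp0.{u} : YpStmt.{u} :=
  (Cfsg.Agent.Lib.Helper5.JR.yp.{u} (Cfsg.Agent.Lib.Helper87.JR.loc.{u}) (Cfsg.Agent.Lib.Helper29.JR.nw.{u}) (Cfsg.Agent.Lib.Helper8.JR.subw.{u}) s42.{u})

end Cfsg.Agent.Lib.Helper72.JR
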