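import Mathlib
import Cfsg.Agent.Lib.Helper72.PQDefs

/-!
# S4306: assembly of the endgame from its pieces
-/

set_option autoImplicit false

namespace Cfsg.Agent.Lib.Helper72.PQ

universe u

/-- The core configuration is contradictory, from its three pieces. -/
theorem p6c_of_pieces (hS : P6SStmt.{u}) (hX : P6XStmt.{u}) (hN : P6NStmt.{u}) : P6CStmt.{u} := by
  intro Γ _ _ q r s ℓ M Q R₀ t h
  obtain ⟨E, hEQ, htE, hcomm, hprod, hDE, hCE, hnab⟩ := hS Γ q r s ℓ M Q R₀ t h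
  obtain ⟨hq2, n, hℓn, hcard⟩ := hX Γ q r s ℓ M Q R₀ E t h hEQ htE hDE hCE hnab
  exact hN Γ q r s ℓ M Q R₀ E t h hEQ hcomm hprod hDE hCE hq2 n hℓn hcard

/-- The tower configuration is contradictory, from the case pieces. -/
theorem end_of_pieces (hL1 : L1Stmt.{u}) (hIIab : IIabStmt.{u}) (hIInon : IInonStmt.{u})
    (hIab : IabStmt.{u}) (hInon : InonStmt.{u}) : EndStmt.{u} := by
  intro Γ _ _ p ℓ r q s A F V Q R h
  obtain ⟨-, hty, -, -⟩ := hL1 Γ p ℓ r q s A F V Q R h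
  by_cases hab : Ab Q
  · rcases hty with h1 | h2
    · exact hIab Γ p ℓ r q s A F V Q R h h1 hab
    · exact hIIab Γ p ℓ r q s A F V Q R h h2 hab
  · rcases hty with h1 | h2
    · exact hInon Γ p ℓ r q s A F V Q R h h1 hab
    · exact hIInon Γ p ℓ r q s A F V Q R h h2 hab

end Cfsg.Agent.Lib.Helper72.PQ
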