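import Mathlib
import Cfsg.Agent.Lib.Helper72.S3Defs

/-!
# S4305: assembly of the module theorem `CoreStmt` from its pieces
-/

set_option autoImplicit false

namespace Cfsg.Agent.Lib.Helper72.S3F

universe u

section Gen

variable {Γ : Type u} [Group Γ]

theorem norm_inv (K : Subgroup Γ) [Finite K] (g : Γ) (h : ∀ x ∈ K, g * x * g⁻¹ ∈ K) :
    ∀ x ∈ K, g⁻¹ * x * g ∈ K := by
  intro x hx
  let F : K → K := fun y => ⟨g * y * g⁻¹, h y y.2⟩
  have hinj : Function.Injective F := by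
    intro a b hab
    have h1 : g * (a : Γ) * g⁻¹ = g * (b : Γ) * g⁻¹ := congrArg Subtype.val hab
    apply Subtype.ext
    simpa using h1
  obtain ⟨y, hy⟩ := (Finite.injective_iff_surjective.mp hinj) ⟨x, hx⟩
  have h2 : g * (y : Γ) * g⁻¹ = x := congrArg Subtype.val hy
  rw [← h2]
  have h3 : g⁻¹ * (g * (y : Γ) * g⁻¹) * g = y := by group
  rw [h3]
  exact y.2

theorem norm_comm (H : Subgroup Γ) (g : Γ) (h : ∀ x ∈ H, g * x * g⁻¹ ∈ H) :
    ∀ x ∈ ⁅H, H⁆, g * x * g⁻¹ ∈ ⁅H, H⁆ := by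
  intro x hx
  have h1 : H.map (MulAut.conj g).toMonoidHom ≤ H := by
    rintro _ ⟨y, hy, rfl⟩
    simpa using h y hy
  have h2 : (⁅H, H⁆).map (MulAut.conj g).toMonoidHom ≤ ⁅H, H⁆ := by
    rw [Subgroup.map_commutator]
    exact Subgroup.commutator_mono h1 h1
  have h3 := h2 (Subgroup.mem_map_of_mem _ hx)
  simpa using h3

theorem norm_inf_centralizer (K L : Subgroup Γ) (g : Γ) (hK : ∀ x ∈ K, g * x * g⁻¹ ∈ K)
    (hL : ∀ x ∈ L, g⁻¹ * x * g ∈ L) :
    ∀ x ∈ K ⊓ Subgroup.centralizer (L : Set Γ), g * x * g⁻¹ ∈ K ⊓ Subgroup.centralizer (L : Set Γ) := by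
  intro x hx
  rw [Subgroup.mem_inf, Subgroup.mem_centralizer_iff] at hx ⊢
  refine ⟨hK x hx.1, fun d hd => ?_⟩
  have h1 := hx.2 (g⁻¹ * d * g) (hL d hd)
  calc d * (g * x * g⁻¹) = g * ((g⁻¹ * d * g) * x) * g⁻¹ := by group
    _ = g * (x * (g⁻¹ * d * g)) * g⁻¹ := by rw [h1]
    _ = g * x * g⁻¹ * d := by group

theorem comm_aux (f x d : Γ) (h1 : f * d = d * f) (h2 : f * (x * d * x⁻¹) = (x * d * x⁻¹) * f) :
    d * (x⁻¹ * (f * x * f⁻¹)) = (x⁻¹ * (f * x * f⁻¹)) * d := by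
  have c1 : Commute f d := h1
  have c2 : Commute (x⁻¹ * f * x) d := by
    show (x⁻¹ * f * x) * d = d * (x⁻¹ * f * x)
    calc (x⁻¹ * f * x) * d = x⁻¹ * (f * (x * d * x⁻¹)) * x := by group
      _ = x⁻¹ * ((x * d * x⁻¹) * f) * x := by rw [h2]
      _ = d * (x⁻¹ * f * x) := by group
  have c3 : Commute (x⁻¹ * f * x * f⁻¹) d := c2.mul_left c1.inv_left
  have e : x⁻¹ * (f * x * f⁻¹) = x⁻¹ * f * x * f⁻¹ := by group
  rw [e]
  exact c3.eq.symm

theorem trick3 (f x : Γ) (hf : f ^ 3 = 1)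
    (hγ : f * (x⁻¹ * (f * x * f⁻¹)) * f⁻¹ = x⁻¹ * (f * x * f⁻¹)) :
    (x⁻¹ * (f * x * f⁻¹)) ^ 3 = 1 := by
  set γ := x⁻¹ * (f * x * f⁻¹) with hγdef
  have e1 : (MulAut.conj f) x = x * γ := by
    rw [MulAut.conj_apply, hγdef]; group
  have e2 : (MulAut.conj f) γ = γ := by
    rw [MulAut.conj_apply]; exact hγ
  have key : ∀ n : ℕ, ((MulAut.conj f) ^ n) x = x * γ ^ n := by
    intro n
    induction n with
    | zero => simp
    | succ n ih =>
      rw [pow_succ', MulAut.mul_apply, ih, map_mul, map_pow, e1, e2, pow_succ', mul_assoc]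
  have h3 := key 3
  rw [← map_pow, hf, map_one, MulAut.one_apply] at h3
  exact mul_left_cancel (a := x) (by rw [mul_one]; exact h3.symm)

end Gen

section Str

variable {V : Type u} [CommGroup V] [Finite V]

theorem structure_comm (hinv : InvStmt.{u}) (hzf : ZfStmt.{u}) (hnm : NMStmt.{u})
    (hop : OpStmt.{u}) (hcl2 : Cl2Stmt.{u}) (hreg3 : Reg3Stmt.{u}) (hhp : HpStmt.{u})
    (hkind : KindStmt.{u}) (hknz : KnzStmt.{u}) (hkmod : KmodStmt.{u})
    (p : ℕ) (H : Subgroup (MulAut V)) (f t : MulAut V)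
    (hA : Act H f t) (hM : Mod p f t) (hI : Irr H f t) (hS : Group.IsSolvable H)
    (hC1 : ∀ H₀ : Subgroup (MulAut V), H₀ ≤ H → (∃ x ∈ H, x ∉ H₀) →
      (∀ h ∈ H, ∀ x ∈ H₀, h * x * h⁻¹ ∈ H₀) →
      (∀ x ∈ H₀, f * x * f⁻¹ ∈ H₀) → (∀ x ∈ H₀, t * x * t⁻¹ ∈ H₀) → Comm H₀) : Comm H := by
  by_contra hnc
  have hVfpf := hM.fpf
  have hHn : ∀ h ∈ H, ∀ x ∈ H, h * x * h⁻¹ ∈ H :=
    fun h hh x hx => H.mul_mem (H.mul_mem hh hx) (H.inv_mem hh)
  have hfi := norm_inv H f hA.fH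
  have hti := norm_inv H t hA.tH
  -- the derived subgroup
  set D : Subgroup (MulAut V) := ⁅H, H⁆ with hD
  have hDH : D ≤ H := Subgroup.commutator_le.mpr (fun a ha b hb =>
    H.mul_mem (H.mul_mem (H.mul_mem ha hb) (H.inv_mem ha)) (H.inv_mem hb))
  have hcomD : ∀ a ∈ H, ∀ b ∈ H, a * b * a⁻¹ * b⁻¹ ∈ D :=
    fun a ha b hb => Subgroup.commutator_mem_commutator ha hb
  obtain ⟨a₀, ha₀, b₀, hb₀, hab₀⟩ : ∃ a ∈ H, ∃ b ∈ H, a * b ≠ b * a := by
    by_contra hcon
    push Not at hcon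
    exact hnc hcon
  have hDbot : D ≠ ⊥ := by
    intro hbot
    have h1 := hcomD a₀ ha₀ b₀ hb₀
    rw [hbot, Subgroup.mem_bot] at h1
    apply hab₀
    calc a₀ * b₀ = (a₀ * b₀ * a₀⁻¹ * b₀⁻¹) * (b₀ * a₀) := by group
      _ = b₀ * a₀ := by rw [h1, one_mul]
  have hDne : ∃ x ∈ H, x ∉ D := by
    have : Nontrivial H := ⟨⟨⟨a₀, ha₀⟩, ⟨b₀, hb₀⟩, fun hcon => hab₀ (by
      have : a₀ = b₀ := congrArg Subtype.val hcon
      rw [this])⟩⟩
    have hlt := Group.IsSolvable.commutator_lt_top_of_nontrivial H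
    obtain ⟨x, -, hx⟩ := SetLike.exists_of_lt hlt
    refine ⟨x, x.2, fun hxD => hx ?_⟩
    rw [hD, ← Subgroup.map_subtype_commutator] at hxD
    obtain ⟨y, hy, hyx⟩ := hxD
    have : y = x := Subtype.ext hyx
    rw [← this]; exact hy
  have hDn : ∀ h ∈ H, ∀ x ∈ D, h * x * h⁻¹ ∈ D := fun h hh => norm_comm H h (hHn h hh)
  have hDf : ∀ x ∈ D, f * x * f⁻¹ ∈ D := norm_comm H f hA.fH
  have hDt : ∀ x ∈ D, t * x * t⁻¹ ∈ D := norm_comm H t hA.tH
  have hDc : Comm D := hC1 D hDH hDne hDn hDf hDt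
  -- its centraliser
  set C : Subgroup (MulAut V) := H ⊓ Subgroup.centralizer (D : Set (MulAut V)) with hC
  have hCH : C ≤ H := inf_le_left
  have hmemC : ∀ x, x ∈ C ↔ x ∈ H ∧ ∀ d ∈ D, d * x = x * d := by
    intro x
    rw [hC, Subgroup.mem_inf, Subgroup.mem_centralizer_iff]
    rfl
  have hDC : D ≤ C := fun d hd => (hmemC d).mpr ⟨hDH hd, fun e he => hDc e he d hd⟩
  have hCn : ∀ h ∈ H, ∀ x ∈ C, h * x * h⁻¹ ∈ C :=
    fun h hh => norm_inf_centralizer H D h (hHn h hh) (norm_inv D h (hDn h hh))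
  have hCf : ∀ x ∈ C, f * x * f⁻¹ ∈ C := norm_inf_centralizer H D f hA.fH (norm_inv D f hDf)
  have hCt : ∀ x ∈ C, t * x * t⁻¹ ∈ C := norm_inf_centralizer H D t hA.tH (norm_inv D t hDt)
  have hinvH : (∀ x ∈ H, f * x * f⁻¹ = x) → False := by
    intro hfc
    exact hnc (hinv (MulAut V) H t inferInstance hA.s3.t2 hA.tH
      (fun x hx hxt => hA.fpf x hx (hfc x hx) hxt)).2
  by_cases hCeq : ∀ x ∈ H, x ∈ C
  · -- class two
    have hcl : ∀ a ∈ H, ∀ b ∈ H, ∀ c ∈ H,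
        (a * b * a⁻¹ * b⁻¹) * c = c * (a * b * a⁻¹ * b⁻¹) := by
      intro a ha b hb c hc
      exact ((hmemC c).mp (hCeq c hc)).2 _ (hcomD a ha b hb)
    have hcop : (Nat.card H).Coprime (Nat.card V) := hcl2 V p H f t hA hM hI hcl
    have hDcop : (Nat.card D).Coprime (Nat.card V) :=
      Nat.Coprime.coprime_dvd_left (Subgroup.card_dvd_of_le hDH) hcop
    have hDcen : ∀ z ∈ D, ∀ x ∈ H, z * x = x * z :=
      fun z hz x hx => ((hmemC x).mp (hCeq x hx)).2 z hz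
    obtain ⟨-, hnorm⟩ := hzf V H D f t hA hVfpf hI hnc hDH hDcen hDf hDt hDcop hDbot
    exact hinvH (hnm V H f hS hA.s3.f3 hA.fH hA.cop hcop hnorm)
  · push Not at hCeq
    have hCc : Comm C := hC1 C hCH hCeq hCn hCf hCt
    have hCcop : (Nat.card C).Coprime (Nat.card V) := hop V p H C f t hM hI hCc hCn hCf hCt
    by_cases hcen : ∀ x ∈ H, (∀ y ∈ H, x * y = y * x) → x = 1
    · have hmax : Max H C f t :=
        { le := hCH
          comm := hCc
          nH := hCn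
          fR := hCf
          tR := hCt
          cop := hCcop
          self := fun x hx h => (hmemC x).mpr ⟨hx, fun d hd => (h d (hDC hd)).symm⟩
          ab := fun x hx y hy => hDC (hcomD x hx y hy)
          max := by
            intro K hCK hKH hKf hKt
            by_cases hK : ∀ x ∈ H, x ∈ K
            · exact Or.inr (le_antisymm hKH hK)
            · push Not at hK
              left
              have hKn : ∀ h ∈ H, ∀ x ∈ K, h * x * h⁻¹ ∈ K := by
                intro h hh x hx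
                have h1 : h * x * h⁻¹ * x⁻¹ ∈ K := hCK (hDC (hcomD h hh x (hKH hx)))
                have h2 : h * x * h⁻¹ = (h * x * h⁻¹ * x⁻¹) * x := by group
                rw [h2]
                exact K.mul_mem h1 hx
              have hKc : Comm K := hC1 K hKH hK hKn hKf hKt
              refine le_antisymm (fun x hx => ?_) hCK
              exact (hmemC x).mpr ⟨hKH hx, fun d hd => hKc d (hCK (hDC hd)) x hx⟩
          ne := hCeq
          cen := hcen }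
      by_cases hc : ∃ c ∈ H, c ∉ C ∧ f * c * f⁻¹ = c
      · exact hhp V p H C f t hA hM hI hmax hc
      · push Not at hc
        have hc' : ∀ x ∈ H, f * x * f⁻¹ = x → x ∈ C := by
          intro x hx hfx
          by_contra h
          exact hc x hx h hfx
        obtain ⟨hk1, hk2⟩ := hkind V H C f t hA hmax hc'
        exact hnc (hkmod V p H C f t hA hM hI hmax (hknz V H C f t hA hmax hc') hk1 hk2)
    · -- nontrivial centre
      push Not at hcen
      obtain ⟨z₀, hz₀H, hz₀c, hz₀1⟩ := hcen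
      set Zc : Subgroup (MulAut V) := H ⊓ Subgroup.centralizer (H : Set (MulAut V)) with hZc
      have hmemZ : ∀ x, x ∈ Zc ↔ x ∈ H ∧ ∀ d ∈ H, d * x = x * d := by
        intro x
        rw [hZc, Subgroup.mem_inf, Subgroup.mem_centralizer_iff]
        rfl
      have hZH : Zc ≤ H := inf_le_left
      have hZC : Zc ≤ C := fun z hz =>
        (hmemC z).mpr ⟨hZH hz, fun d hd => ((hmemZ z).mp hz).2 d (hDH hd)⟩
      have hZcen : ∀ z ∈ Zc, ∀ x ∈ H, z * x = x * z :=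
        fun z hz x hx => (((hmemZ z).mp hz).2 x hx).symm
      have hZf : ∀ x ∈ Zc, f * x * f⁻¹ ∈ Zc := norm_inf_centralizer H H f hA.fH hfi
      have hZt : ∀ x ∈ Zc, t * x * t⁻¹ ∈ Zc := norm_inf_centralizer H H t hA.tH hti
      have hZcop : (Nat.card Zc).Coprime (Nat.card V) :=
        Nat.Coprime.coprime_dvd_left (Subgroup.card_dvd_of_le hZC) hCcop
      have hZne : Zc ≠ ⊥ := by
        intro hbot
        have : z₀ ∈ Zc := (hmemZ z₀).mpr ⟨hz₀H, fun d hd => (hz₀c d hd).symm⟩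
        rw [hbot, Subgroup.mem_bot] at this
        exact hz₀1 this
      obtain ⟨-, hnorm⟩ := hzf V H Zc f t hA hVfpf hI hnc hZH hZcen hZf hZt hZcop hZne
      have hfC : ∀ u ∈ C, f * u * f⁻¹ = u := hreg3 V f C hA.s3.f3 hnorm hCc hCf hCcop
      apply hinvH
      intro x hx
      have hγH : x⁻¹ * (f * x * f⁻¹) ∈ H := H.mul_mem (H.inv_mem hx) (hA.fH x hx)
      have hγC : x⁻¹ * (f * x * f⁻¹) ∈ C := by
        refine (hmemC _).mpr ⟨hγH, fun d hd => ?_⟩
        have h1 : f * d = d * f := by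
          have := hfC d (hDC hd)
          rw [mul_inv_eq_iff_eq_mul] at this
          exact this
        have h2 : f * (x * d * x⁻¹) = (x * d * x⁻¹) * f := by
          have := hfC (x * d * x⁻¹) (hDC (hDn x hx d hd))
          rw [mul_inv_eq_iff_eq_mul] at this
          exact this
        exact comm_aux f x d h1 h2
      have h3 : (x⁻¹ * (f * x * f⁻¹)) ^ 3 = 1 := trick3 f x hA.s3.f3 (hfC _ hγC)
      have h4 : orderOf (x⁻¹ * (f * x * f⁻¹)) ∣ 3 := orderOf_dvd_of_pow_eq_one h3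
      have h5 : orderOf (x⁻¹ * (f * x * f⁻¹)) ∣ Nat.card H := Subgroup.orderOf_dvd_natCard H hγH
      have h6 : (Nat.card H).Coprime 3 := Nat.Coprime.coprime_dvd_right (by norm_num) hA.cop
      have h7 : orderOf (x⁻¹ * (f * x * f⁻¹)) = 1 :=
        Nat.eq_one_of_dvd_coprimes h6 h5 h4
      have h8 : x⁻¹ * (f * x * f⁻¹) = 1 := orderOf_eq_one_iff.mp h7
      exact (inv_mul_eq_one.mp h8).symm

end Str

/-- The module theorem from its pieces. -/
theorem core_of_pieces (hc1 : C1Stmt.{u}) (hinv : InvStmt.{u}) (hzf : ZfStmt.{u})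
    (hnm : NMStmt.{u}) (hop : OpStmt.{u}) (hcl2 : Cl2Stmt.{u}) (hreg3 : Reg3Stmt.{u})
    (hhp : HpStmt.{u}) (hkind : KindStmt.{u}) (hknz : KnzStmt.{u}) (hkmod : KmodStmt.{u}) :
    CoreStmt.{u} := by
  have key : ∀ n : ℕ, ∀ (V : Type u) [CommGroup V] [Finite V] (p : ℕ) (H : Subgroup (MulAut V))
      (f t : MulAut V), Nat.card H = n → Act H f t → Mod p f t → Irr H f t →
      Group.IsSolvable H → Comm H := by
    intro n
    induction n using Nat.strong_induction_on with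
    | _ n ih =>
      intro V _ _ p H f t hn hA hM hI hS
      apply structure_comm hinv hzf hnm hop hcl2 hreg3 hhp hkind hknz hkmod p H f t hA hM hI hS
      exact hc1 V p H f t hA hM hI hS (fun V' _ _ p' H' f' t' hlt hA' hM' hI' hS' =>
        ih (Nat.card H') (hn ▸ hlt) V' p' H' f' t' rfl hA' hM' hI' hS')
  intro V _ _ p H f t hA hM hI hS
  exact key _ V p H f t rfl hA hM hI hS

end Cfsg.Agent.Lib.Helper72.S3F
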