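import Mathlib
import Cfsg.Agent.S3790
import Cfsg.Agent.Lib.Helper30.Cores
import Cfsg.Agent.Lib.Helper40.HallHigman
import Cfsg.Agent.Lib.Helper75.PSolvOfSolv
import Cfsg.Agent.Lib.Helper72.ZGPL

/-! The dual Hall--Higman lemma (`C(O_{p'}) ≤ O_{p'}` when `O_p = 1`), and the subgroups
`V = O_p(K)`, `L = O_{p,p'}(K)` of a normal subgroup `K` with `O_{p'}(K) = 1` (helper72). -/

set_option autoImplicit false
set_option linter.style.haveILetI false
set_option linter.unusedSectionVars false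

namespace Cfsg.Agent.Lib.Helper72.ZG

open Subgroup Cfsg
open scoped commutatorElement Pointwise

universe u

section dualhh

variable {S : Type*} [Group S] [Finite S] {p : ℕ} [Fact p.Prime]

/-- a normal subgroup `M` with a central `p'`-subgroup `M0` of `p`-power index is a `p'`-group
as soon as `O_p(S) = 1`. -/
theorem coprime_of_central_ppow (hred : pCore p S = ⊥) (M M0 : Subgroup S) (hMn : M.Normal)
    (hle : M0 ≤ M) (hcent : ∀ z ∈ M0, ∀ c ∈ M, z * c = c * z)
    (hM0 : (Nat.card M0).Coprime p) (m : ℕ) (hidx : M0.relIndex M = p ^ m) : M ≤ M0 := by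
  have hp : p.Prime := Fact.out
  have hN : (M0.subgroupOf M).Normal := by
    refine ⟨fun z hz c => ?_⟩
    rw [Subgroup.mem_subgroupOf] at hz ⊢
    have h1 := hcent _ hz c c.2
    have h2 : ((c * z * c⁻¹ : ↥M) : S) = (z : S) := by
      push_cast
      calc (c : S) * (z : S) * (c : S)⁻¹ = ((z : S) * (c : S)) * (c : S)⁻¹ := by rw [h1]
        _ = (z : S) := by group
    rw [h2]; exact hz
  have hcardN : Nat.card (M0.subgroupOf M) = Nat.card M0 :=
    Nat.card_congr (Subgroup.subgroupOfEquivOfLe hle).toEquiv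
  have hcop : Nat.Coprime (Nat.card (M0.subgroupOf M)) (M0.subgroupOf M).index := by
    rw [hcardN]
    show (Nat.card M0).Coprime (M0.relIndex M)
    rw [hidx]
    exact Nat.Coprime.pow_right m hM0
  obtain ⟨Pc, hPc⟩ := Subgroup.exists_left_complement'_of_coprime hcop
  have hPcard : Nat.card Pc = p ^ m := by
    have h1 := hPc.card_mul_card
    have h2 := (M0.subgroupOf M).index_mul_card
    have h3 : (M0.subgroupOf M).index = p ^ m := hidx
    have hpos : 0 < Nat.card (M0.subgroupOf M) := Nat.card_pos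
    rw [h3] at h2
    have : Nat.card Pc * Nat.card (M0.subgroupOf M) = p ^ m * Nat.card (M0.subgroupOf M) := by
      rw [h1, h2]
    exact Nat.eq_of_mul_eq_mul_right hpos this
  set P₁ : Subgroup S := Pc.map M.subtype with hP₁
  have hP₁card : Nat.card P₁ = p ^ m := by
    rw [hP₁, Subgroup.card_map_of_injective M.subtype_injective, hPcard]
  have hP₁M : P₁ ≤ M := Subgroup.map_subtype_le _
  have hpow : ∀ x ∈ P₁, x ^ p ^ m = 1 := by
    intro x hx
    have h1 : (⟨x, hx⟩ : ↥P₁) ^ Nat.card P₁ = 1 := pow_card_eq_one'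
    rw [hP₁card] at h1
    exact congrArg Subtype.val h1
  -- `P₁` is the set of elements of `M` killed by `p ^ m`
  have hchar : ∀ x : S, x ∈ P₁ ↔ x ∈ M ∧ x ^ p ^ m = 1 := by
    intro x
    constructor
    · intro hx
      exact ⟨hP₁M hx, hpow x hx⟩
    · rintro ⟨hxM, hxp⟩
      obtain ⟨⟨⟨u, hu⟩, ⟨z, hz⟩⟩, huz⟩ := hPc.existsUnique (⟨x, hxM⟩ : ↥M) |>.exists
      simp only at huz
      have hzM0 : (z : S) ∈ M0 := Subgroup.mem_subgroupOf.mp hz
      have huP : (u : S) ∈ P₁ := ⟨u, hu, rfl⟩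
      have hx' : x = (u : S) * (z : S) := by
        have := congrArg Subtype.val huz
        simpa using this.symm
      have hcomm : Commute (u : S) (z : S) := (hcent _ hzM0 _ u.2).symm
      have hup : (u : S) ^ p ^ m = 1 := hpow _ huP
      have hzp : (z : S) ^ p ^ m = 1 := by
        have h1 : x ^ p ^ m = (u : S) ^ p ^ m * (z : S) ^ p ^ m := by
          rw [hx', hcomm.mul_pow]
        rw [hxp, hup, one_mul] at h1
        exact h1.symm
      have hz1 : (z : S) = 1 := by
        have h1 : orderOf (z : S) ∣ p ^ m := orderOf_dvd_of_pow_eq_one hzp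
        have h2 : orderOf (z : S) ∣ Nat.card M0 := by
          have := orderOf_dvd_natCard (⟨(z : S), hzM0⟩ : M0)
          rwa [Subgroup.orderOf_mk] at this
        have h3 : (Nat.card M0).Coprime (p ^ m) := Nat.Coprime.pow_right m hM0
        exact orderOf_eq_one_iff.mp (Nat.eq_one_of_dvd_coprimes h3 h2 h1)
      rw [hx', hz1, mul_one]
      exact huP
  have hP₁n : P₁.Normal := by
    refine ⟨fun x hx g => ?_⟩
    rw [hchar] at hx ⊢
    refine ⟨hMn.conj_mem x hx.1 g, ?_⟩
    rw [conj_pow, hx.2]; group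
  have hP₁p : IsPGroup p P₁ := IsPGroup.of_card hP₁card
  have hP₁bot : P₁ = ⊥ := by
    have := Cfsg.Agent.Lib.Helper30.le_pCore_of_normal hP₁n hP₁p
    rw [hred] at this
    exact le_bot_iff.mp this
  have hm1 : M0.relIndex M = 1 := by
    rw [hidx, ← hP₁card, hP₁bot, Subgroup.card_bot]
  exact Subgroup.relIndex_eq_one.mp hm1

/-- **dual Hall–Higman lemma.** In a finite `p`-solvable group `S` with `O_p(S) = 1`,
`C_S(O_{p'}(S)) ≤ O_{p'}(S)`. -/
theorem centralizer_pPrimeCore_le' (hS : IsPSolvable p S) (hred : pCore p S = ⊥) :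
    Subgroup.centralizer (pPrimeCore p S : Set S) ≤ pPrimeCore p S := by
  have hp : p.Prime := Fact.out
  haveI hKch : (pPrimeCore p S).Characteristic :=
    Cfsg.Agent.Lib.Helper30.pPrimeCore_characteristic p
  have hKn : (pPrimeCore p S).Normal := inferInstance
  have hKc : (Nat.card (pPrimeCore p S)).Coprime p := Cfsg.Agent.Lib.Helper30.pPrimeCore_coprime p
  obtain ⟨n, H, h0, hlast, hmono, hnorm, hfac⟩ := hS
  have key : ∀ i : Fin (n + 1),
      Subgroup.centralizer (pPrimeCore p S : Set S) ⊓ H i ≤ pPrimeCore p S := by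
    intro i
    induction i using Fin.induction with
    | zero => rw [h0]; simp
    | succ i ih =>
      have hle : H i.castSucc ≤ H i.succ := hmono (Fin.castSucc_lt_succ).le
      have hn1 : (H i.succ).Normal := hnorm _
      have hn0 : (H i.castSucc).Normal := hnorm _
      have hMn : (Subgroup.centralizer (pPrimeCore p S : Set S) ⊓ H i.succ).Normal := inferInstance
      have hM0c : (Nat.card ↥(Subgroup.centralizer (pPrimeCore p S : Set S) ⊓ H i.castSucc)).Coprime p :=
        Nat.Coprime.coprime_dvd_left (Subgroup.card_dvd_of_le ih) hKc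
      have hcent : ∀ z ∈ Subgroup.centralizer (pPrimeCore p S : Set S) ⊓ H i.castSucc,
          ∀ c ∈ Subgroup.centralizer (pPrimeCore p S : Set S) ⊓ H i.succ, z * c = c * z := by
        intro z hz c hc
        exact Subgroup.mem_centralizer_iff.mp hc.1 z (ih hz)
      have hle' : Subgroup.centralizer (pPrimeCore p S : Set S) ⊓ H i.castSucc ≤
          Subgroup.centralizer (pPrimeCore p S : Set S) ⊓ H i.succ := inf_le_inf_left _ hle
      have hdvd : (Subgroup.centralizer (pPrimeCore p S : Set S) ⊓ H i.castSucc).relIndex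
          (Subgroup.centralizer (pPrimeCore p S : Set S) ⊓ H i.succ) ∣
          (H i.castSucc).relIndex (H i.succ) := by
        have e1 : Subgroup.centralizer (pPrimeCore p S : Set S) ⊓ H i.castSucc =
            H i.castSucc ⊓ (Subgroup.centralizer (pPrimeCore p S : Set S) ⊓ H i.succ) := by
          rw [inf_comm (H i.castSucc), inf_assoc, inf_eq_right.2 hle]
        rw [e1, Subgroup.inf_relIndex_right, ← Subgroup.relIndex_sup_right]
        have h1 : H i.castSucc ≤ Subgroup.centralizer (pPrimeCore p S : Set S) ⊓ H i.succ ⊔ H i.castSucc :=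
          le_sup_right
        have h2 : Subgroup.centralizer (pPrimeCore p S : Set S) ⊓ H i.succ ⊔ H i.castSucc ≤ H i.succ :=
          sup_le inf_le_right hle
        exact Dvd.intro _ (Subgroup.relIndex_mul_relIndex _ _ _ h1 h2)
      rcases hfac i with ⟨m, hm⟩ | hc
      · rw [hm] at hdvd
        obtain ⟨b, -, hb⟩ := (Nat.dvd_prime_pow hp).mp hdvd
        exact (coprime_of_central_ppow hred _ _ hMn hle' hcent hM0c b hb).trans ih
      · have hcard := Cfsg.Agent.Lib.Helper30.card_eq_card_mul_relIndex hle'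
        apply Cfsg.Agent.Lib.Helper30.le_pPrimeCore_of_normal hMn
        rw [hcard]
        exact Nat.Coprime.mul_left hM0c (Nat.Coprime.coprime_dvd_left hdvd hc)
  have := key (Fin.last n)
  rw [hlast, inf_top_eq] at this
  exact this

end dualhh

section rad

open Cfsg.Agent.S3790

theorem rad_characteristic {S : Type*} [Group S] [Finite S] (E : Set ℕ) (h1 : 1 ∈ E)
    (hmul : ∀ a ∈ E, ∀ b ∈ E, a * b ∈ E) (U : Subgroup S) [hU : U.Characteristic] :
    (Rad E U).Characteristic := by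
  obtain ⟨hn, hs, -, hmax⟩ := rad_spec E h1 hmul U
  rw [Subgroup.characteristic_iff_map_le]
  intro φ
  apply hmax
  · exact hn.map φ.toMonoidHom φ.surjective
  · rintro y ⟨x, hx, rfl⟩
    obtain ⟨n, hnE, hxn⟩ := hs x hx
    refine ⟨n, hnE, ?_⟩
    have h2 : U.comap φ.toMonoidHom = U := hU.fixed φ
    have h3 : x ^ n ∈ U.comap φ.toMonoidHom := by rw [h2]; exact hxn
    rw [Subgroup.mem_comap] at h3
    rw [← map_pow]
    exact h3

/-- in a finite solvable group: an element centralizing `O_{p,p'} / O_p` lies in `O_{p,p'}` -/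
theorem mem_rad_of_comm {S : Type u} [Group S] [Finite S] [Group.IsSolvable S] {p : ℕ}
    [hp : Fact p.Prime] (n : S)
    (h : ∀ l ∈ Rad (EP p) (pCore p S), n * l * n⁻¹ * l⁻¹ ∈ pCore p S) :
    n ∈ Rad (EP p) (pCore p S) := by
  haveI hPch : (pCore p S).Characteristic := Cfsg.Agent.Lib.Helper30.pCore_characteristic p
  haveI hPn : (pCore p S).Normal := inferInstance
  have hPp : IsPGroup p (pCore p S) := Cfsg.Agent.Lib.Helper30.pCore_isPGroup p
  -- `O_p` of the quotient is trivial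
  have hQ : pCore p (S ⧸ pCore p S) = ⊥ := by
    rw [eq_bot_iff]
    intro y hy
    obtain ⟨x, rfl⟩ := QuotientGroup.mk'_surjective (pCore p S) y
    rw [pCore_eq_rad (S ⧸ pCore p S) p] at hy
    have hx : x ∈ (Rad (EQ p) (⊥ : Subgroup (S ⧸ pCore p S))).comap
        (QuotientGroup.mk' (pCore p S)) := hy
    rw [comap_rad (EQ p) (EQ_one p) (EQ_mul p) (pCore p S)] at hx
    obtain ⟨hRn, hRs, -, -⟩ := rad_spec (EQ p) (EQ_one p) (EQ_mul p) (pCore p S)
    have hRp : IsPGroup p (Rad (EQ p) (pCore p S)) := by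
      intro z
      obtain ⟨m, ⟨k, rfl⟩, hz⟩ := hRs z z.2
      obtain ⟨j, hj⟩ := hPp ⟨_, hz⟩
      refine ⟨k + j, Subtype.ext ?_⟩
      have hj' : ((z : S) ^ p ^ k) ^ p ^ j = 1 := congrArg Subtype.val hj
      show (z : S) ^ p ^ (k + j) = 1
      rw [pow_add, pow_mul]
      exact hj'
    have hx' : x ∈ pCore p S := Cfsg.Agent.Lib.Helper30.le_pCore_of_normal hRn hRp hx
    rw [mem_bot]
    exact (QuotientGroup.eq_one_iff x).2 hx'
  have hsolv : IsPSolvable p (S ⧸ pCore p S) :=
    Cfsg.Agent.Lib.Helper75.PSS.isPSolvable_of_isSolvable p hp.out (S ⧸ pCore p S)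
  have hdual := centralizer_pPrimeCore_le' hsolv hQ
  have hmem : QuotientGroup.mk' (pCore p S) n ∈
      Subgroup.centralizer (pPrimeCore p (S ⧸ pCore p S) : Set (S ⧸ pCore p S)) := by
    rw [Subgroup.mem_centralizer_iff]
    intro y hy
    obtain ⟨l, rfl⟩ := QuotientGroup.mk'_surjective (pCore p S) y
    have hy' : QuotientGroup.mk' (pCore p S) l ∈ pPrimeCore p (S ⧸ pCore p S) := hy
    rw [pPrimeCore_eq_rad (S ⧸ pCore p S) p hp.out] at hy'
    have hl : l ∈ (Rad (EP p) (⊥ : Subgroup (S ⧸ pCore p S))).comap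
        (QuotientGroup.mk' (pCore p S)) := hy'
    rw [comap_rad (EP p) (EP_one p) (EP_mul p) (pCore p S)] at hl
    have h1 := h l hl
    have h2 : QuotientGroup.mk' (pCore p S) (n * l * n⁻¹ * l⁻¹) = 1 :=
      (QuotientGroup.eq_one_iff _).2 h1
    rw [map_mul, map_mul, map_mul, map_inv, map_inv] at h2
    have h3 : QuotientGroup.mk' (pCore p S) n * QuotientGroup.mk' (pCore p S) l
        = QuotientGroup.mk' (pCore p S) l * QuotientGroup.mk' (pCore p S) n := by
      rw [mul_inv_eq_one, mul_inv_eq_iff_eq_mul] at h2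
      exact h2
    exact h3.symm
  have hn := hdual hmem
  rw [pPrimeCore_eq_rad (S ⧸ pCore p S) p hp.out] at hn
  have hn' : n ∈ (Rad (EP p) (⊥ : Subgroup (S ⧸ pCore p S))).comap
      (QuotientGroup.mk' (pCore p S)) := hn
  rw [comap_rad (EP p) (EP_one p) (EP_mul p) (pCore p S)] at hn'
  exact hn'

/-- the subgroups `V = O_p(K)` and `L = O_{p,p'}(K)` of a normal subgroup `K` with
`O_{p'}(K) = 1` -/
theorem exists_VL {G : Type u} [Group G] [Finite G] [Group.IsSolvable G] {p : ℕ}
    [hp : Fact p.Prime] {K : Subgroup G} [hK : K.Normal] (hred : pPrimeCore p ↥K = ⊥) :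
    ∃ V L : Subgroup G, V.Normal ∧ L.Normal ∧ V ≤ L ∧ L ≤ K ∧ IsPGroup p V ∧
      K ⊓ centralizer (V : Set G) ≤ V ∧
      (∀ B : Subgroup G, B ≤ K → K ≤ normalizer (B : Set G) → IsPGroup p B → B ≤ V) ∧
      (∀ x ∈ L, ∃ m : ℕ, m.Coprime p ∧ x ^ m ∈ V) ∧
      (∀ A : Subgroup G, A ≤ K → K ≤ normalizer (A : Set G) →
        (∀ x ∈ A, ∃ m : ℕ, m.Coprime p ∧ x ^ m ∈ V) → A ≤ L) ∧
      (∀ n ∈ K, (∀ l ∈ L, n * l * n⁻¹ * l⁻¹ ∈ V) → n ∈ L) := by
  haveI hPch : (pCore p ↥K).Characteristic := Cfsg.Agent.Lib.Helper30.pCore_characteristic p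
  haveI hPn : (pCore p ↥K).Normal := inferInstance
  have hPp : IsPGroup p (pCore p ↥K) := Cfsg.Agent.Lib.Helper30.pCore_isPGroup p
  obtain ⟨hRn, hRs, hPR, hRmax⟩ := rad_spec (EP p) (EP_one p) (EP_mul p) (pCore p ↥K)
  haveI hRch : (Rad (EP p) (pCore p ↥K)).Characteristic :=
    rad_characteristic (EP p) (EP_one p) (EP_mul p) _
  have hsolvK : IsPSolvable p ↥K :=
    Cfsg.Agent.Lib.Helper75.PSS.isPSolvable_of_isSolvable p hp.out ↥K
  have hHH := Cfsg.Agent.Lib.Helper40.centralizer_pCore_le hsolvK hred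
  refine ⟨(pCore p ↥K).map K.subtype, (Rad (EP p) (pCore p ↥K)).map K.subtype,
    normal_map_of_characteristic _, normal_map_of_characteristic _, map_mono hPR,
    map_subtype_le _, ?_, ?_, ?_, ?_, ?_, ?_⟩
  · exact hPp.map K.subtype
  · rintro x ⟨hxK, hxc⟩
    have h1 : (⟨x, hxK⟩ : ↥K) ∈ centralizer (pCore p ↥K : Set ↥K) := by
      rw [mem_centralizer_iff]
      intro y hy
      apply Subtype.ext
      exact mem_centralizer_iff.1 hxc (y : G) (mem_map_of_mem K.subtype hy)
    exact ⟨⟨x, hxK⟩, hHH h1, rfl⟩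
  · intro B hBK hKB hBp
    have hBn : (B.subgroupOf K).Normal := (normal_subgroupOf_iff_le_normalizer hBK).mpr hKB
    have hBp' : IsPGroup p (B.subgroupOf K) := hBp.comap_subtype
    have h1 := Cfsg.Agent.Lib.Helper30.le_pCore_of_normal hBn hBp'
    intro b hb
    exact ⟨⟨b, hBK hb⟩, h1 (mem_subgroupOf.2 hb), rfl⟩
  · rintro x ⟨y, hy, rfl⟩
    obtain ⟨m, hm, hym⟩ := hRs y hy
    exact ⟨m, hm, ⟨y ^ m, hym, by simp⟩⟩
  · intro A hAK hKA hA
    have hAn : (A.subgroupOf K).Normal := (normal_subgroupOf_iff_le_normalizer hAK).mpr hKA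
    have hstep : IsStep (EP p) (pCore p ↥K) (A.subgroupOf K) := by
      intro x hx
      obtain ⟨m, hm, hxm⟩ := hA x (mem_subgroupOf.1 hx)
      refine ⟨m, hm, ?_⟩
      obtain ⟨y, hy, hyx⟩ := hxm
      have e : y = x ^ m := Subtype.ext (by simpa using hyx)
      rw [← e]; exact hy
    have h1 := hRmax _ hAn hstep
    intro a ha
    exact ⟨⟨a, hAK ha⟩, h1 (mem_subgroupOf.2 ha), rfl⟩
  · intro n hn h
    have h1 : (⟨n, hn⟩ : ↥K) ∈ Rad (EP p) (pCore p ↥K) := by
      apply mem_rad_of_comm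
      intro l hl
      obtain ⟨y, hy, hyx⟩ := h (l : G) (mem_map_of_mem K.subtype hl)
      have e : y = ⟨n, hn⟩ * l * (⟨n, hn⟩ : ↥K)⁻¹ * l⁻¹ := Subtype.ext (by simpa using hyx)
      rw [← e]; exact hy
    exact ⟨⟨n, hn⟩, h1, rfl⟩

end rad

end Cfsg.Agent.Lib.Helper72.ZG
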