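import Mathlib
import Cfsg.Agent.Lib.Helper72.ZGNf
import Cfsg.Agent.Lib.Helper30.Cores

/-! The nonabelian case of the key lemma for `Z`-group centralizers (helper72). -/

set_option autoImplicit false
set_option linter.style.haveILetI false
set_option linter.unusedSectionVars false
set_option maxHeartbeats 1600000

namespace Cfsg.Agent.Lib.Helper72.ZG

open Subgroup
open scoped commutatorElement Pointwise

universe u

variable {G : Type u} [Group G] [Finite G]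

theorem le_normalizer_of_le_centralizer {X B : Subgroup G} (h : X ≤ centralizer (B : Set G)) :
    X ≤ normalizer (B : Set G) := by
  apply HH.le_normalizer_of_conj_mem
  intro g hg b hb
  have h1 : g * b * g⁻¹ = b := by
    rw [← (mem_centralizer_iff.1 (h hg)) b hb]; group
  rw [h1]; exact hb

/-- the central elements of `Q` of order dividing `q` -/
def omegaCenter (Q : Subgroup G) (q : ℕ) : Subgroup G where
  carrier := {z | z ∈ Q ∧ z ∈ centralizer (Q : Set G) ∧ z ^ q = 1}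
  mul_mem' := by
    rintro a b ⟨ha1, ha2, ha3⟩ ⟨hb1, hb2, hb3⟩
    refine ⟨mul_mem ha1 hb1, mul_mem ha2 hb2, ?_⟩
    have hc : Commute a b := (mem_centralizer_iff.1 hb2) a ha1
    rw [hc.mul_pow, ha3, hb3, one_mul]
  one_mem' := ⟨one_mem _, one_mem _, one_pow _⟩
  inv_mem' := by
    rintro a ⟨ha1, ha2, ha3⟩
    exact ⟨inv_mem ha1, inv_mem ha2, by rw [inv_pow, ha3, inv_one]⟩

omit [Finite G] in
theorem mem_omegaCenter {Q : Subgroup G} {q : ℕ} {z : G} :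
    z ∈ omegaCenter Q q ↔ z ∈ Q ∧ z ∈ centralizer (Q : Set G) ∧ z ^ q = 1 := Iff.rfl

/-- **nonabelian case** of the key lemma -/
theorem pcore_nonabelian (H3764 : HH.S3764Prop.{u}) [Group.IsSolvable G]
    (hodd : Odd (Nat.card G)) {V Q S R₀ : Subgroup G} {p : ℕ} [Fact p.Prime]
    (hVc : ∀ a ∈ V, ∀ b ∈ V, a * b = b * a) (hVp : ∀ v ∈ V, v ^ p = 1)
    (hQp : (Nat.card Q).Coprime p) (hS : IsPGroup p S) (hr : (Nat.card R₀).Prime)
    (hrp : p ≠ Nat.card R₀) (hrQ : (Nat.card Q).Coprime (Nat.card R₀))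
    (hSQ : S ≤ normalizer (Q : Set G))
    (hRQ : R₀ ≤ normalizer (Q : Set G)) (hRS : R₀ ≤ normalizer (S : Set G))
    (hQV : Q ≤ normalizer (V : Set G)) (hSV : S ≤ normalizer (V : Set G))
    (hRV : R₀ ≤ normalizer (V : Set G)) (hSfix : S ⊓ centralizer (R₀ : Set G) = ⊥)
    (hfaith : Q ⊓ centralizer (V : Set G) = ⊥)
    (hcyc : ∀ x ∈ V ⊓ centralizer (R₀ : Set G), ∀ y ∈ V ⊓ centralizer (R₀ : Set G), x ≠ 1 →
      ∃ k : ℕ, y = x ^ k)
    (hZ : IsZGroup ↥(Q ⊓ centralizer (R₀ : Set G)))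
    (hQS : ⁅Q, S⁆ = Q)
    (hm2 : ∀ Q₀ : Subgroup G, Q₀ ≤ Q → Q₀ ≠ Q → S ≤ normalizer (Q₀ : Set G) →
      R₀ ≤ normalizer (Q₀ : Set G) → ⁅Q₀, S⁆ = ⊥)
    (hVQ : V ⊓ centralizer (Q : Set G) = ⊥)
    (hQnc : ¬ ∀ a ∈ Q, ∀ b ∈ Q, a * b = b * a) : False := by
  classical
  have hp : p.Prime := Fact.out
  haveI : Fact (Nat.card R₀).Prime := ⟨hr⟩
  have hsolvR : Group.IsSolvable ↥R₀ := HH.isSolvable_of_prime_card hr R₀ rfl
  have hQ : Q ≠ ⊥ := by
    intro h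
    apply hQnc
    intro a ha b hb
    rw [h, mem_bot] at ha hb
    rw [ha, hb]
  have hcopRS : (Nat.card R₀).Coprime (Nat.card S) := by
    obtain ⟨k, hk⟩ := IsPGroup.iff_card.1 hS
    rw [hk]
    exact Nat.Coprime.pow_right k ((Nat.coprime_primes hr hp).2 hrp.symm)
  have hSRS : S ≤ ⁅S, R₀⁆ := le_commutator_of_fix_eq_bot hRS hcopRS hsolvR hSfix
  have hS1 : S ≠ ⊥ := by
    intro h
    apply hQ
    rw [← hQS, h]
    exact commutator_bot_right Q
  have hpodd : p ≠ 2 := by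
    intro h
    have h1 : p ∣ Nat.card S := by
      obtain ⟨k, hk⟩ := IsPGroup.iff_card.1 hS
      rcases Nat.eq_zero_or_pos k with h0 | h0
      · rw [h0, pow_zero] at hk
        exact absurd (eq_bot_of_card_eq S hk) hS1
      · rw [hk]
        exact dvd_pow_self p h0.ne'
    have h2 : Odd p := hodd.of_dvd_nat (h1.trans (card_subgroup_dvd_card S))
    rw [h] at h2
    exact absurd h2 (by decide)
  have hQodd : Odd (Nat.card Q) := hodd.of_dvd_nat (card_subgroup_dvd_card Q)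
  have hrQ' : ¬ Nat.card R₀ ∣ Nat.card Q := (Nat.Prime.coprime_iff_not_dvd hr).1 hrQ.symm
  have hpQ : ¬ p ∣ Nat.card Q := (Nat.Prime.coprime_iff_not_dvd hp).1 hQp.symm
  -- `Q` is a `q`-group
  obtain ⟨q, hq, hQq⟩ := exists_prime_isPGroup hQ hQp hS hrQ
    ((Nat.coprime_primes hr hp).2 hrp.symm) hSQ hRQ hRS hQS hm2
  haveI : Fact q.Prime := ⟨hq⟩
  have hqQ : q ∣ Nat.card Q := by
    obtain ⟨k, hk⟩ := IsPGroup.iff_card.1 hQq
    rcases Nat.eq_zero_or_pos k with h0 | h0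
    · rw [h0, pow_zero] at hk
      exact absurd (eq_bot_of_card_eq Q hk) hQ
    · rw [hk]
      exact dvd_pow_self q h0.ne'
  have hqp : q.Coprime p := Nat.Coprime.coprime_dvd_left hqQ hQp
  have hqr : q.Coprime (Nat.card R₀) := Nat.Coprime.coprime_dvd_left hqQ hrQ
  have hqodd : Odd q := hodd.of_dvd_nat (hqQ.trans (card_subgroup_dvd_card Q))
  have hq_ne_p : q ≠ p := (Nat.coprime_primes hq hp).1 hqp
  have hq_ne_r : q ≠ Nat.card R₀ := (Nat.coprime_primes hq hr).1 hqr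
  have hcopSq : (Nat.card S).Coprime q := by
    obtain ⟨k, hk⟩ := IsPGroup.iff_card.1 hS
    rw [hk]
    exact Nat.Coprime.pow_left k hqp.symm
  -- the Frattini subgroup
  obtain ⟨Φ, hΦdef⟩ : ∃ Φ : Subgroup G, Φ = (frattini ↥Q).map Q.subtype := ⟨_, rfl⟩
  have hΦQ : Φ ≤ Q := hΦdef ▸ map_subtype_le _
  have hΦn : normalizer (Q : Set G) ≤ normalizer (Φ : Set G) := by
    rw [hΦdef]
    exact fun g hg => HH.mem_normalizer_map_of_characteristic (frattini ↥Q) hg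
  have hmemΦ : ∀ a : ↥Q, a ∈ frattini ↥Q → (a : G) ∈ Φ := by
    intro a h
    rw [hΦdef]
    exact ⟨a, h, rfl⟩
  have hΦne : Φ ≠ Q := by
    intro h
    have h1 : frattini ↥Q = ⊤ := by
      rw [eq_top_iff]
      intro a _
      have ha : (a : G) ∈ Φ := by rw [h]; exact a.2
      rw [hΦdef] at ha
      obtain ⟨b, hb, hba⟩ := ha
      have : b = a := Subtype.ext hba
      rw [← this]
      exact hb
    have h2 : (⊥ : Subgroup ↥Q) = ⊤ := frattini_nongenerating (by rw [h1]; exact bot_sup_eq ⊤)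
    apply hQ
    rw [eq_bot_iff]
    intro a ha
    have h3 : (⟨a, ha⟩ : ↥Q) ∈ (⊥ : Subgroup ↥Q) := by rw [h2]; exact mem_top _
    rw [mem_bot] at h3 ⊢
    exact congrArg Subtype.val h3
  have hΦZ : Φ ≤ centralizer (Q : Set G) :=
    le_centralizer_of_m2 hQS hm2 hΦQ hΦne (hSQ.trans hΦn) (hRQ.trans hΦn)
      (le_normalizer.trans hΦn)
  have hCS : Q ⊓ centralizer (S : Set G) ≤ Φ := by
    rw [hΦdef]
    exact cent_le_frattini hQq hSQ hcopSq hQS.ge
  -- the center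
  obtain ⟨ZQ, hZQdef⟩ : ∃ ZQ : Subgroup G, ZQ = Q ⊓ centralizer (Q : Set G) := ⟨_, rfl⟩
  have hZQQ : ZQ ≤ Q := hZQdef ▸ inf_le_left
  have hZQne : ZQ ≠ Q := by
    intro h
    apply hQnc
    intro a ha b hb
    have ha' : a ∈ ZQ := by rw [h]; exact ha
    rw [hZQdef] at ha'
    exact ((mem_centralizer_iff.1 (mem_inf.1 ha').2) b hb).symm
  have hZQn : ∀ {X : Subgroup G}, X ≤ normalizer (Q : Set G) →
      X ≤ normalizer (ZQ : Set G) := by
    intro X hX g hg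
    rw [hZQdef]
    exact HH.mem_normalizer_inf (hX hg) (HH.mem_normalizer_centralizer (hX hg))
  have hZQS : ZQ ≤ centralizer (S : Set G) := by
    have := hm2 ZQ hZQQ hZQne (hZQn hSQ) (hZQn hRQ)
    rwa [commutator_eq_bot_iff_le_centralizer] at this
  have hZΦ : ZQ ≤ Φ := fun z hz => hCS (mem_inf.2 ⟨hZQQ hz, hZQS hz⟩)
  -- an element of `C_Q(R₀)` outside the center
  have hex : ∃ c ∈ Q ⊓ centralizer (R₀ : Set G), c ∉ Φ := by
    by_contra hcon
    push Not at hcon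
    have h1 := nf' H3764 Q S R₀ hq hp hr hq_ne_p hq_ne_r hrp hpodd rfl hS hQq hRS hSQ hRQ
      (by rw [← hΦdef]; exact hcon)
    have h2 : S ≤ centralizer (Q : Set G) := hSRS.trans h1
    apply hQ
    rw [← hQS, commutator_eq_bot_iff_le_centralizer, le_centralizer_iff]
    exact h2
  obtain ⟨c, hc, hcΦ⟩ := hex
  obtain ⟨hcQ, hcR⟩ := mem_inf.1 hc
  have hcZ : c ∉ centralizer (Q : Set G) := by
    intro h
    apply hcΦ
    apply hZΦ
    rw [hZQdef]
    exact mem_inf.2 ⟨hcQ, h⟩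
  have hc1 : c ≠ 1 := fun h => hcΦ (h ▸ one_mem Φ)
  -- `C_Q(R₀)` is abelian
  have hCRc : ∀ a ∈ Q ⊓ centralizer (R₀ : Set G), ∀ b ∈ Q ⊓ centralizer (R₀ : Set G),
      a * b = b * a := by
    haveI : Group.IsNilpotent ↥(Q ⊓ centralizer (R₀ : Set G)) :=
      (hQq.to_le inf_le_left).isNilpotent
    have hcy : IsCyclic ↥(Q ⊓ centralizer (R₀ : Set G)) := inferInstance
    intro a ha b hb
    exact congrArg Subtype.val
      ((IsCyclic.commGroup (α := ↥(Q ⊓ centralizer (R₀ : Set G)))).mul_comm ⟨a, ha⟩ ⟨b, hb⟩)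
  -- class two
  have hcomm_mem : ∀ x ∈ Q, ∀ y ∈ Q, ⁅x, y⁆ ∈ Φ := by
    intro x hx y hy
    have h1 := hmemΦ _ (comm_mem_frattini hQq (⟨x, hx⟩ : ↥Q) ⟨y, hy⟩)
    rw [commutatorElement_def]
    exact h1
  have hpowΦ : ∀ x ∈ Q, x ^ q ∈ Φ :=
    fun x hx => hmemΦ _ (pow_mem_frattini hQq (⟨x, hx⟩ : ↥Q))
  have hcomm_q : ∀ x ∈ Q, ∀ y ∈ Q, ⁅x, y⁆ ^ q = 1 := by
    intro x hx y hy
    have hc1 : Commute ⁅x, y⁆ x := by
      show ⁅x, y⁆ * x = x * ⁅x, y⁆
      exact ((mem_centralizer_iff.1 (hΦZ (hcomm_mem x hx y hy))) x hx).symm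
    rw [← HH.commutator_pow_of_commute hc1 q]
    have h2 := (mem_centralizer_iff.1 (hΦZ (hpowΦ x hx))) y hy
    rw [commutatorElement_eq_one_iff_mul_comm]
    exact h2.symm
  -- the subgroup `A`
  obtain ⟨A, hAdef⟩ : ∃ A : Subgroup G, A = omegaCenter Q q := ⟨_, rfl⟩
  have hAmem : ∀ z : G, z ∈ A ↔ z ∈ Q ∧ z ∈ centralizer (Q : Set G) ∧ z ^ q = 1 := by
    intro z
    rw [hAdef]
    exact mem_omegaCenter
  have hAQ : A ≤ Q := fun z hz => ((hAmem z).1 hz).1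
  have hAZ : A ≤ centralizer (Q : Set G) := fun z hz => ((hAmem z).1 hz).2.1
  have hAq : ∀ a ∈ A, a ^ q = 1 := fun z hz => ((hAmem z).1 hz).2.2
  have hAc : ∀ a ∈ A, ∀ b ∈ A, a * b = b * a :=
    fun a ha b hb => (mem_centralizer_iff.1 (hAZ hb)) a (hAQ ha)
  have hAn : ∀ {X : Subgroup G}, X ≤ normalizer (Q : Set G) → X ≤ normalizer (A : Set G) := by
    intro X hX
    apply HH.le_normalizer_of_conj_mem
    intro g hg z hz
    obtain ⟨h1, h2, h3⟩ := (hAmem z).1 hz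
    exact (hAmem _).2 ⟨HH.conj_mem_of_mem_normalizer (hX hg) h1,
      HH.conj_mem_of_mem_normalizer (HH.mem_normalizer_centralizer (hX hg)) h2,
      by rw [conj_pow, h3]; group⟩
  have hAS : A ≤ centralizer (S : Set G) := by
    intro z hz
    apply hZQS
    rw [hZQdef]
    exact mem_inf.2 ⟨hAQ hz, hAZ hz⟩
  have hκA : ∀ x ∈ Q, ∀ y ∈ Q, ⁅x, y⁆ ∈ A := fun x hx y hy =>
    (hAmem _).2 ⟨hΦQ (hcomm_mem x hx y hy), hΦZ (hcomm_mem x hx y hy), hcomm_q x hx y hy⟩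
  have hA1 : A ≠ ⊥ := by
    intro h
    apply hQnc
    intro a ha b hb
    have h1 := hκA a ha b hb
    rw [h, mem_bot, commutatorElement_eq_one_iff_mul_comm] at h1
    exact h1
  have hAp : (Nat.card A).Coprime p := Nat.Coprime.coprime_dvd_left (card_dvd_of_le hAQ) hQp
  obtain ⟨n, hn⟩ : ∃ n, Nat.card V = p ^ n :=
    IsPGroup.iff_card.1 (fun v => ⟨1, by rw [pow_one]; exact Subtype.ext (hVp v v.2)⟩)
  have hAVcop : (Nat.card A).Coprime (Nat.card V) := by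
    rw [hn]; exact Nat.Coprime.pow_right n hAp
  have hAV : A ≤ normalizer (V : Set G) := hAQ.trans hQV
  have hRA : R₀ ≤ normalizer (A : Set G) := hAn hRQ
  -- the module `Y = [V, A]`
  obtain ⟨Y, hYdef⟩ : ∃ Y : Subgroup G, Y = ⁅V, A⁆ := ⟨_, rfl⟩
  have hYV : Y ≤ V := hYdef ▸ HH.commutator_le_left_of_normalizer hAV
  have hYc : ∀ a ∈ Y, ∀ b ∈ Y, a * b = b * a := fun a ha b hb => hVc a (hYV ha) b (hYV hb)
  have hYp : ∀ y ∈ Y, y ^ p = 1 := fun y hy => hVp y (hYV hy)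
  have hYn : ∀ {X : Subgroup G}, X ≤ normalizer (Q : Set G) → X ≤ normalizer (V : Set G) →
      X ≤ normalizer (Y : Set G) := by
    intro X hX hXV g hg
    rw [hYdef]
    exact HH.mem_normalizer_commutator (hXV hg) (hAn hX hg)
  have hQY : Q ≤ normalizer (Y : Set G) := hYn le_normalizer hQV
  have hSY : S ≤ normalizer (Y : Set G) := hYn hSQ hSV
  have hRY : R₀ ≤ normalizer (Y : Set G) := hYn hRQ hRV
  have hAY : A ≤ normalizer (Y : Set G) := hAQ.trans hQY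
  have hYA : Y ⊓ centralizer (A : Set G) = ⊥ := by
    have h1 := cent_inf_commutator hVc hAV hAVcop
    rw [eq_bot_iff, ← h1]
    intro y hy
    exact mem_inf.2 ⟨mem_inf.2 ⟨hYV (mem_inf.1 hy).1, (mem_inf.1 hy).2⟩,
      hYdef ▸ (mem_inf.1 hy).1⟩
  have hY1 : Y ≠ ⊥ := by
    intro h
    rw [hYdef, commutator_eq_bot_iff_le_centralizer] at h
    apply hA1
    rw [eq_bot_iff, ← hfaith]
    exact le_inf hAQ (le_centralizer_iff.1 h)
  have hcycY : ∀ x ∈ Y ⊓ centralizer (R₀ : Set G), ∀ y ∈ Y ⊓ centralizer (R₀ : Set G),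
      x ≠ 1 → ∃ k : ℕ, y = x ^ k :=
    fun x hx y hy => hcyc x (mem_inf.2 ⟨hYV (mem_inf.1 hx).1, (mem_inf.1 hx).2⟩) y
      (mem_inf.2 ⟨hYV (mem_inf.1 hy).1, (mem_inf.1 hy).2⟩)
  -- Claim 1
  have claim1 : ∀ B : Subgroup G, IsHyp q B A → Y ⊓ centralizer (B : Set G) ≠ ⊥ →
      R₀ ≤ normalizer (B : Set G) ∧
        Y ⊓ centralizer (B : Set G) ⊓ centralizer (R₀ : Set G) ≠ ⊥ := by
    intro B hB hBfix
    obtain ⟨X, hXdef⟩ : ∃ X : Subgroup G, X = Y ⊓ centralizer (B : Set G) := ⟨_, rfl⟩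
    rw [← hXdef] at hBfix ⊢
    have hXY : X ≤ Y := hXdef ▸ inf_le_left
    have hXV : X ≤ V := hXY.trans hYV
    have hQB : Q ≤ normalizer (B : Set G) :=
      le_normalizer_of_le_centralizer (le_centralizer_iff.1 (hB.1.trans hAZ))
    have hSB : S ≤ normalizer (B : Set G) :=
      le_normalizer_of_le_centralizer (le_centralizer_iff.1 (hB.1.trans hAS))
    have hnX : ∀ {T : Subgroup G}, T ≤ normalizer (Y : Set G) → T ≤ normalizer (B : Set G) →
        T ≤ normalizer (X : Set G) := by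
      intro T h1 h2 g hg
      rw [hXdef]
      exact HH.mem_normalizer_inf (h1 hg) (HH.mem_normalizer_centralizer (h2 hg))
    have hQX := hnX hQY hQB
    have hSX := hnX hSY hSB
    have hkill : S ≤ centralizer (X : Set G) → False := by
      intro h
      have h1 := commutator_le_centralizer hQX h
      rw [hQS, le_centralizer_iff] at h1
      apply hBfix
      rw [eq_bot_iff, ← hVQ]
      exact le_inf hXV h1
    have hRB : R₀ ≤ normalizer (B : Set G) := by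
      by_contra hRB
      have hXcyc := cyc_of_hyp hq hAc hAY hYc hYp hRA hRY hr hAp hYA hB hRB hcycY
      rw [← hXdef] at hXcyc
      apply hkill
      intro s hs
      obtain ⟨n, hn⟩ := hS ⟨s, hs⟩
      exact centralizes_of_cyc (fun x hx => hVp x (hXV hx)) hXcyc (hSX hs)
        (congrArg Subtype.val hn)
    refine ⟨hRB, ?_⟩
    intro hfix0
    have hRX := hnX hRY hRB
    have hXel : Cfsg.IsElementaryAbelian p X :=
      ⟨⟨⟨fun a b => Subtype.ext (hVc a (hXV a.2) b (hXV b.2))⟩⟩, fun a ha => hVp a (hXV ha)⟩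
    have h1 := HH.s3769_core H3764 Q R₀ X hp hr rfl hRQ hrQ' hQodd hXel hpQ hrp hQX hRX hfix0
    obtain ⟨C₁, hC₁def⟩ : ∃ C₁ : Subgroup G, C₁ = Q ⊓ centralizer (X : Set G) := ⟨_, rfl⟩
    have hnC : ∀ {T : Subgroup G}, T ≤ normalizer (Q : Set G) → T ≤ normalizer (X : Set G) →
        T ≤ normalizer (C₁ : Set G) := by
      intro T h2 h3 g hg
      rw [hC₁def]
      exact HH.mem_normalizer_inf (h2 hg) (HH.mem_normalizer_centralizer (h3 hg))
    have hRC : ⁅R₀, Q⁆ ≤ C₁ := by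
      rw [hC₁def]
      refine le_inf ?_ h1
      rw [commutator_comm]
      exact HH.commutator_le_left_of_normalizer hRQ
    have h4 := commutator_le_of_trivial hSQ (hnC hSQ hSX) hRQ (hnC hRQ hRX) hRC hSRS
    rw [hQS, hC₁def] at h4
    have h5 : Q ≤ centralizer (X : Set G) := h4.trans inf_le_right
    apply hBfix
    rw [eq_bot_iff, ← hVQ]
    exact le_inf hXV (le_centralizer_iff.1 h5)
  -- Claim 2
  have hcardA : Nat.card A = q := by
    by_contra hne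
    obtain ⟨B₁, hB₁, hB₁fix⟩ := exists_hyp hq hqp hAc hAq hYc hYp hAY hY1 hYA
    obtain ⟨hRB₁, hfix₁⟩ := claim1 B₁ hB₁ hB₁fix
    obtain ⟨Y₂, hY₂def⟩ : ∃ Y₂ : Subgroup G, Y₂ = ⁅Y, B₁⁆ := ⟨_, rfl⟩
    have hB₁Y : B₁ ≤ normalizer (Y : Set G) := hB₁.1.trans hAY
    have hY₂Y : Y₂ ≤ Y := hY₂def ▸ HH.commutator_le_left_of_normalizer hB₁Y
    have hB₁1 : B₁ ≠ ⊥ := by
      intro h
      apply hne
      have := hB₁.2
      rw [h, card_bot, one_mul] at this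
      exact this.symm
    have hY₂1 : Y₂ ≠ ⊥ := by
      intro h
      rw [hY₂def, commutator_eq_bot_iff_le_centralizer] at h
      apply hB₁1
      rw [eq_bot_iff, ← hfaith]
      intro b hb
      refine mem_inf.2 ⟨hAQ (hB₁.1 hb), ?_⟩
      apply centralizes_of_centralizes_commutator hVc hAV hAVcop (hB₁.1 hb)
      rw [← hYdef]
      exact (le_centralizer_iff.1 h) hb
    have hAB₁ : A ≤ normalizer (B₁ : Set G) := le_normalizer_of_abelian hAc hB₁.1
    have hAY₂ : A ≤ normalizer (Y₂ : Set G) := by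
      intro a ha
      rw [hY₂def]
      exact HH.mem_normalizer_commutator (hAY ha) (hAB₁ ha)
    have hY₂A : Y₂ ⊓ centralizer (A : Set G) = ⊥ := by
      rw [eq_bot_iff, ← hYA]
      exact inf_le_inf_right _ hY₂Y
    obtain ⟨B₂, hB₂, hB₂fix⟩ := exists_hyp hq hqp hAc hAq
      (fun a ha b hb => hYc a (hY₂Y ha) b (hY₂Y hb)) (fun y hy => hYp y (hY₂Y hy)) hAY₂ hY₂1 hY₂A
    have hB₁B₂ : B₁ ≠ B₂ := by
      intro h
      apply hB₂fix
      rw [← h]
      have h1 := cent_inf_commutator hYc hB₁Y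
        (Nat.Coprime.coprime_dvd_left (card_dvd_of_le hB₁.1)
          (Nat.Coprime.coprime_dvd_right (card_dvd_of_le hYV) hAVcop))
      rw [eq_bot_iff, ← h1]
      intro y hy
      exact mem_inf.2 ⟨mem_inf.2 ⟨hY₂Y (mem_inf.1 hy).1, (mem_inf.1 hy).2⟩,
        hY₂def ▸ (mem_inf.1 hy).1⟩
    have hB₂fix' : Y ⊓ centralizer (B₂ : Set G) ≠ ⊥ := by
      intro h
      apply hB₂fix
      rw [eq_bot_iff, ← h]
      exact inf_le_inf_right _ hY₂Y
    obtain ⟨hRB₂, hfix₂⟩ := claim1 B₂ hB₂ hB₂fix'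
    obtain ⟨x₁, hx₁, hx₁1⟩ := exists_ne_one_of_ne_bot hfix₁
    obtain ⟨x₂, hx₂, hx₂1⟩ := exists_ne_one_of_ne_bot hfix₂
    obtain ⟨k, hk⟩ := hcycY x₁
      (mem_inf.2 ⟨(mem_inf.1 (mem_inf.1 hx₁).1).1, (mem_inf.1 hx₁).2⟩) x₂
      (mem_inf.2 ⟨(mem_inf.1 (mem_inf.1 hx₂).1).1, (mem_inf.1 hx₂).2⟩) hx₁1
    apply hx₂1
    have h1 : x₂ ∈ Y ⊓ centralizer (A : Set G) := by
      refine mem_inf.2 ⟨(mem_inf.1 (mem_inf.1 hx₂).1).1, ?_⟩
      rw [← sup_eq_of_isHyp hq hB₁ hB₂ hB₁B₂]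
      refine mem_centralizer_sup ?_ (mem_inf.1 (mem_inf.1 hx₂).1).2
      rw [hk]
      exact pow_mem (mem_inf.1 (mem_inf.1 hx₁).1).2 k
    rw [hYA, mem_bot] at h1
    exact h1
  -- the homomorphism `x ↦ [x, c]`
  have hκmul : ∀ x ∈ Q, ∀ y ∈ Q, ⁅x * y, c⁆ = ⁅x, c⁆ * ⁅y, c⁆ := by
    intro x hx y hy
    have h1 : x * ⁅y, c⁆ = ⁅y, c⁆ * x := (mem_centralizer_iff.1 (hAZ (hκA y hy c hcQ))) x hx
    have h2 := hAc _ (hκA x hx c hcQ) _ (hκA y hy c hcQ)
    calc ⁅x * y, c⁆ = (x * ⁅y, c⁆) * x⁻¹ * ⁅x, c⁆ := by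
          simp only [commutatorElement_def]; group
      _ = ⁅y, c⁆ * x * x⁻¹ * ⁅x, c⁆ := by rw [h1]
      _ = ⁅y, c⁆ * ⁅x, c⁆ := by group
      _ = ⁅x, c⁆ * ⁅y, c⁆ := h2.symm
  have hκpow : ∀ x ∈ Q, ∀ m : ℕ, ⁅x ^ m, c⁆ = ⁅x, c⁆ ^ m := by
    intro x hx m
    induction m with
    | zero => simp
    | succ m ih => rw [pow_succ, hκmul _ (pow_mem hx m) x hx, ih, pow_succ]
  obtain ⟨x₀, hx₀, hx₀c⟩ : ∃ x₀ ∈ Q, ⁅x₀, c⁆ ≠ 1 := by
    by_contra hcon
    push Not at hcon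
    apply hcZ
    rw [mem_centralizer_iff]
    intro x hx
    have := hcon x hx
    rwa [commutatorElement_eq_one_iff_mul_comm] at this
  by_cases hRAc : R₀ ≤ centralizer (A : Set G)
  · -- `R₀` centralizes `A`
    apply hcZ
    have h1 : ⁅Q, R₀⁆ ≤ centralizer ((zpowers c : Subgroup G) : Set G) := by
      rw [commutator_le]
      intro x hx ρ hρ
      apply mem_centralizer_zpowers
      have hρc : ρ * c * ρ⁻¹ = c := (mem_centralizer_iff_conj.1 hcR) ρ hρ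
      have hxi : x⁻¹ ∈ Q := inv_mem hx
      have h2 : ⁅ρ * x⁻¹ * ρ⁻¹, c⁆ = ⁅x⁻¹, c⁆ := by
        have e : ⁅ρ * x⁻¹ * ρ⁻¹, ρ * c * ρ⁻¹⁆ = ρ * ⁅x⁻¹, c⁆ * ρ⁻¹ := by
          simp only [commutatorElement_def]; group
        rw [hρc] at e
        rw [e]
        exact (mem_centralizer_iff_conj.1 (le_centralizer_iff.1 hRAc (hκA x⁻¹ hxi c hcQ))) ρ hρ
      have h3 : ⁅⁅x, ρ⁆, c⁆ = 1 := by
        have e : ⁅x, ρ⁆ = x * (ρ * x⁻¹ * ρ⁻¹) := by rw [commutatorElement_def]; group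
        rw [e, hκmul x hx _ (HH.conj_mem_of_mem_normalizer (hRQ hρ) hxi), h2,
          ← hκmul x hx _ hxi, mul_inv_cancel, commutatorElement_one_left]
      rw [commutatorElement_eq_one_iff_mul_comm] at h3
      rw [← h3]; group
    have h2 : Q ⊓ centralizer (R₀ : Set G) ≤ centralizer ((zpowers c : Subgroup G) : Set G) := by
      intro y hy
      apply mem_centralizer_zpowers
      have := hCRc c hc y hy
      rw [this]; group
    rw [mem_centralizer_iff]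
    intro x hx
    obtain ⟨c', hc', d, hd, rfl⟩ := le_cent_mul_commutator hRQ hrQ.symm (Or.inl hsolvR) x hx
    have h3 := (mem_centralizer_iff.1 (h2 hc')) c (mem_zpowers c)
    have h4 := (mem_centralizer_iff.1 (h1 hd)) c (mem_zpowers c)
    calc c' * d * c = c' * (d * c) := by group
      _ = c' * (c * d) := by rw [h4]
      _ = (c' * c) * d := by group
      _ = c * c' * d := by rw [h3]
      _ = c * (c' * d) := by group
  · -- `C_A(R₀) = 1`
    have hAR : A ⊓ centralizer (R₀ : Set G) = ⊥ := by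
      by_contra hne
      apply hRAc
      have h1 : Nat.card (A ⊓ centralizer (R₀ : Set G) : Subgroup G) ∣ Nat.card A :=
        card_dvd_of_le inf_le_left
      rw [hcardA] at h1
      rcases (Nat.dvd_prime hq).1 h1 with h2 | h2
      · exact absurd (eq_bot_of_card_eq _ h2) hne
      · have h3 : (A ⊓ centralizer (R₀ : Set G) : Subgroup G) = A :=
          eq_of_le_of_card_ge inf_le_left (by rw [h2, hcardA])
        rw [le_centralizer_iff, ← h3]
        exact inf_le_right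
    have hcq : c ^ q = 1 := by
      by_contra hne
      have hex : ∃ k : ℕ, (c ^ q) ^ (q ^ k) = 1 := by
        obtain ⟨k, hk⟩ := hQq ⟨c ^ q, pow_mem hcQ q⟩
        exact ⟨k, congrArg Subtype.val hk⟩
      have hk0 : Nat.find hex ≠ 0 := by
        intro h0
        have := Nat.find_spec hex
        rw [h0, pow_zero, pow_one] at this
        exact hne this
      obtain ⟨k, hk⟩ := Nat.exists_eq_succ_of_ne_zero hk0
      have hz1 : (c ^ q) ^ (q ^ k) ≠ 1 :=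
        Nat.find_min hex (by rw [hk]; exact Nat.lt_succ_self k)
      have hzq : ((c ^ q) ^ (q ^ k)) ^ q = 1 := by
        have := Nat.find_spec hex
        rw [hk, pow_succ, pow_mul] at this
        exact this
      have hzA : (c ^ q) ^ (q ^ k) ∈ A :=
        (hAmem _).2 ⟨pow_mem (pow_mem hcQ q) _, pow_mem (hΦZ (hpowΦ c hcQ)) _, hzq⟩
      have hzR : (c ^ q) ^ (q ^ k) ∈ centralizer (R₀ : Set G) := pow_mem (pow_mem hcR q) _
      have : (c ^ q) ^ (q ^ k) ∈ A ⊓ centralizer (R₀ : Set G) := mem_inf.2 ⟨hzA, hzR⟩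
      rw [hAR, mem_bot] at this
      exact hz1 this
    -- the group `E₁ = A ⟨c⟩`
    obtain ⟨E₁, hE₁def⟩ : ∃ E₁ : Subgroup G, E₁ = A ⊔ zpowers c := ⟨_, rfl⟩
    have hAcz : ∀ a ∈ A, ∀ z ∈ zpowers c, a * z = z * a := by
      intro a ha z hz
      have hzQ : z ∈ Q := (zpowers_le.2 hcQ) hz
      exact ((mem_centralizer_iff.1 (hAZ ha)) z hzQ).symm
    have hE₁mem : ∀ e ∈ E₁, ∃ a ∈ A, ∃ z ∈ zpowers c, e = a * z := by
      intro e he
      rw [hE₁def] at he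
      exact Cfsg.Agent.Lib.Helper30.mem_sup_of_commute hAcz he
    have hE₁Q : E₁ ≤ Q := hE₁def ▸ sup_le hAQ (zpowers_le.2 hcQ)
    have hAE₁ : A ≤ E₁ := by rw [hE₁def]; exact le_sup_left
    have hzE₁ : zpowers c ≤ E₁ := by rw [hE₁def]; exact le_sup_right
    have hzc : ∀ z ∈ zpowers c, ∀ z' ∈ zpowers c, z * z' = z' * z := by
      intro z hz z' hz'
      obtain ⟨i, rfl⟩ := mem_zpowers_iff.1 hz
      obtain ⟨j, rfl⟩ := mem_zpowers_iff.1 hz'
      rw [← zpow_add, ← zpow_add, add_comm]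
    have hE₁c : ∀ a ∈ E₁, ∀ b ∈ E₁, a * b = b * a := by
      intro e he f hf
      obtain ⟨a, ha, z, hz, rfl⟩ := hE₁mem e he
      obtain ⟨a', ha', z', hz', rfl⟩ := hE₁mem f hf
      have h1 := hAc a ha a' ha'
      have h2 := hAcz a ha z' hz'
      have h3 := hAcz a' ha' z hz
      have h4 := hzc z hz z' hz'
      calc a * z * (a' * z') = a * (z * a') * z' := by group
        _ = a * (a' * z) * z' := by rw [h3]
        _ = (a * a') * (z * z') := by group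
        _ = (a' * a) * (z' * z) := by rw [h1, h4]
        _ = a' * (a * z') * z := by group
        _ = a' * (z' * a) * z := by rw [h2]
        _ = a' * z' * (a * z) := by group
    have hE₁q : ∀ e ∈ E₁, e ^ q = 1 := by
      intro e he
      obtain ⟨a, ha, z, hz, rfl⟩ := hE₁mem e he
      have hzq : z ^ q = 1 := by
        obtain ⟨i, rfl⟩ := mem_zpowers_iff.1 hz
        rw [← zpow_natCast, ← zpow_mul, mul_comm, zpow_mul, zpow_natCast, hcq, one_zpow]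
      rw [(show Commute a z from hAcz a ha z hz).mul_pow, hAq a ha, hzq, one_mul]
    have hE₁Y : E₁ ≤ normalizer (Y : Set G) := hE₁Q.trans hQY
    have hRE₁ : R₀ ≤ normalizer (E₁ : Set G) := by
      apply HH.le_normalizer_of_conj_mem
      intro ρ hρ e he
      obtain ⟨a, ha, z, hz, rfl⟩ := hE₁mem e he
      have h1 : ρ * z * ρ⁻¹ = z := (mem_centralizer_iff_conj.1 ((zpowers_le.2 hcR) hz)) ρ hρ
      have e1 : ρ * (a * z) * ρ⁻¹ = (ρ * a * ρ⁻¹) * (ρ * z * ρ⁻¹) := by group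
      rw [e1, h1]
      exact mul_mem (hAE₁ (HH.conj_mem_of_mem_normalizer (hRA hρ) ha)) (hzE₁ hz)
    have hQE₁ : Q ≤ normalizer (E₁ : Set G) := by
      apply HH.le_normalizer_of_conj_mem
      intro x hx e he
      obtain ⟨a, ha, z, hz, rfl⟩ := hE₁mem e he
      have h1 : x * a * x⁻¹ = a := by rw [(mem_centralizer_iff.1 (hAZ ha)) x hx]; group
      obtain ⟨i, rfl⟩ := mem_zpowers_iff.1 hz
      have h2 : x * c * x⁻¹ ∈ E₁ := by
        have e2 : x * c * x⁻¹ = ⁅x, c⁆ * c := by rw [commutatorElement_def]; group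
        rw [e2]
        exact mul_mem (hAE₁ (hκA x hx c hcQ)) (hzE₁ (mem_zpowers c))
      have e1 : x * (a * c ^ i) * x⁻¹ = (x * a * x⁻¹) * (x * c * x⁻¹) ^ i := by
        rw [conj_zpow]; group
      rw [e1, h1]
      exact mul_mem (hAE₁ ha) (zpow_mem h2 i)
    have hYE₁ : Y ⊓ centralizer (E₁ : Set G) = ⊥ := by
      rw [eq_bot_iff, ← hYA]
      exact inf_le_inf_left _ (centralizer_le (SetLike.coe_subset_coe.2 hAE₁))
    have hE₁p : (Nat.card E₁).Coprime p :=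
      Nat.Coprime.coprime_dvd_left (card_dvd_of_le hE₁Q) hQp
    have hBA : ∀ B : Subgroup G, Y ⊓ centralizer (B : Set G) ≠ ⊥ → B ⊓ A = ⊥ := by
      intro B hBfix
      by_contra hne
      have h1 : Nat.card (B ⊓ A : Subgroup G) ∣ Nat.card A := card_dvd_of_le inf_le_right
      rw [hcardA] at h1
      rcases (Nat.dvd_prime hq).1 h1 with h2 | h2
      · exact hne (eq_bot_of_card_eq _ h2)
      · have h3 : (B ⊓ A : Subgroup G) = A :=
          eq_of_le_of_card_ge inf_le_right (by rw [h2, hcardA])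
        have h4 : A ≤ B := by rw [← h3]; exact inf_le_left
        apply hBfix
        rw [eq_bot_iff, ← hYA]
        exact inf_le_inf_left _ (centralizer_le (SetLike.coe_subset_coe.2 h4))
    have hU : ∀ B : Subgroup G, Y ⊓ centralizer (B : Set G) ≠ ⊥ → ∀ a ∈ A, ∀ a' ∈ A,
        c * a ∈ B → c * a' ∈ B → a = a' := by
      intro B hBfix a ha a' ha' h1 h2
      have h3 : a⁻¹ * a' ∈ B ⊓ A := by
        refine mem_inf.2 ⟨?_, mul_mem (inv_mem ha) ha'⟩
        have := mul_mem (inv_mem h1) h2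
        have e : (c * a)⁻¹ * (c * a') = a⁻¹ * a' := by group
        rwa [e] at this
      rw [hBA B hBfix, mem_bot] at h3
      exact inv_mul_eq_one.1 h3
    obtain ⟨B, hB, hBfix⟩ := exists_hyp hq hqp hE₁c hE₁q hYc hYp hE₁Y hY1 hYE₁
    have hexb : ∃ b ∈ B, b ∉ A := by
      by_contra hcon
      push Not at hcon
      have hBA' : B ≤ A := hcon
      have h1 : B = ⊥ := by
        have := hBA B hBfix
        rwa [inf_eq_left.2 hBA'] at this
      have h2 := hB.2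
      rw [h1, card_bot, one_mul] at h2
      have h3 : A = E₁ := eq_of_le_of_card_ge hAE₁ (by rw [hcardA, h2])
      apply hcZ
      apply hAZ
      rw [h3]
      exact hzE₁ (mem_zpowers c)
    obtain ⟨b, hbB, hbA⟩ := hexb
    obtain ⟨a, ha, z, hz, rfl⟩ := hE₁mem b (hB.1 hbB)
    have hz1 : z ≠ 1 := by
      intro h
      apply hbA
      rw [h, mul_one]
      exact ha
    have hcz : c ∈ zpowers z := by
      have hzq : z ^ q = 1 := hE₁q z (hzE₁ hz)
      have h1 : Nat.card (zpowers z) = q := by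
        rw [Nat.card_zpowers]; exact orderOf_eq_prime hzq hz1
      have h2 : Nat.card (zpowers c) = q := by
        rw [Nat.card_zpowers]; exact orderOf_eq_prime hcq hc1
      have h3 : zpowers z = zpowers c := eq_of_le_of_card_ge (zpowers_le.2 hz) (by rw [h1, h2])
      rw [h3]
      exact mem_zpowers c
    obtain ⟨j, hj⟩ := mem_zpowers_iff.1 hcz
    have ha₁ : a ^ j ∈ A := zpow_mem ha j
    have hca₁ : c * a ^ j = a ^ j * c := (mem_centralizer_iff.1 (hAZ ha₁)) c hcQ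
    have hb' : c * a ^ j ∈ B := by
      have := zpow_mem hbB j
      rw [(show Commute a z from hAcz a ha z hz).mul_zpow, hj] at this
      rw [hca₁]
      exact this
    have hu : ⁅x₀, c⁆ ∈ A := hκA x₀ hx₀ c hcQ
    have hgenA : ∀ a' ∈ A, ∃ m : ℕ, a' = ⁅x₀, c⁆ ^ m := by
      intro a' ha'
      have h1 : Nat.card (zpowers ⁅x₀, c⁆) = q := by
        rw [Nat.card_zpowers]; exact orderOf_eq_prime (hAq _ hu) hx₀c
      have h2 : zpowers ⁅x₀, c⁆ = A := eq_of_le_of_card_ge (zpowers_le.2 hu) (by rw [h1, hcardA])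
      have h3 : a' ∈ zpowers ⁅x₀, c⁆ := by rw [h2]; exact ha'
      rw [← mem_powers_iff_mem_zpowers] at h3
      obtain ⟨m, hm⟩ := (Submonoid.mem_powers_iff _ _).1 h3
      exact ⟨m, hm.symm⟩
    have hBa : ∀ a' ∈ A, ∃ B' : Subgroup G, IsHyp q B' E₁ ∧
        Y ⊓ centralizer (B' : Set G) ≠ ⊥ ∧ c * a' ∈ B' := by
      intro a' ha'
      obtain ⟨m, hm⟩ := hgenA (a' * (a ^ j)⁻¹) (mul_mem ha' (inv_mem ha₁))
      have hxm : x₀ ^ m ∈ Q := pow_mem hx₀ m
      refine ⟨MulAut.conj (x₀ ^ m) • B, isHyp_conj (hQE₁ hxm) hB,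
        cent_conj_ne_bot (hQY hxm) hBfix, ?_⟩
      rw [Cfsg.Agent.Lib.Helper1.mem_conj_smul_iff]
      have h1 : ⁅x₀ ^ m, c⁆ = a' * (a ^ j)⁻¹ := by rw [hκpow x₀ hx₀ m, hm]
      have hxa₁ : x₀ ^ m * a ^ j * (x₀ ^ m)⁻¹ = a ^ j := by
        rw [(mem_centralizer_iff.1 (hAZ ha₁)) _ hxm]; group
      have hxc : x₀ ^ m * c * (x₀ ^ m)⁻¹ = a' * (a ^ j)⁻¹ * c := by
        have e : x₀ ^ m * c * (x₀ ^ m)⁻¹ = ⁅x₀ ^ m, c⁆ * c := by
          rw [commutatorElement_def]; group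
        rw [e, h1]
      have hca' : c * a' = a' * c := (mem_centralizer_iff.1 (hAZ ha')) c hcQ
      have h2 : c * a' = x₀ ^ m * (c * a ^ j) * (x₀ ^ m)⁻¹ := by
        have e : x₀ ^ m * (c * a ^ j) * (x₀ ^ m)⁻¹
            = (x₀ ^ m * c * (x₀ ^ m)⁻¹) * (x₀ ^ m * a ^ j * (x₀ ^ m)⁻¹) := by group
        rw [e, hxc, hxa₁, hca', mul_assoc, mul_assoc, hca₁]
        group
      rw [h2]
      have e : (x₀ ^ m)⁻¹ * (x₀ ^ m * (c * a ^ j) * (x₀ ^ m)⁻¹) * x₀ ^ m = c * a ^ j := by group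
      rw [e]
      exact hb'
    have hnotinv : ∀ a' ∈ A, a' ≠ 1 → ∀ B' : Subgroup G, Y ⊓ centralizer (B' : Set G) ≠ ⊥ →
        c * a' ∈ B' → ¬ R₀ ≤ normalizer (B' : Set G) := by
      intro a' ha' ha'1 B' hB'fix hmem hinv
      have h1 : a' ∉ centralizer (R₀ : Set G) := by
        intro h
        have : a' ∈ A ⊓ centralizer (R₀ : Set G) := mem_inf.2 ⟨ha', h⟩
        rw [hAR, mem_bot] at this
        exact ha'1 this
      rw [mem_centralizer_iff_conj] at h1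
      push Not at h1
      obtain ⟨ρ, hρ, hρa⟩ := h1
      have h2 := HH.conj_mem_of_mem_normalizer (hinv hρ) hmem
      have hρc : ρ * c * ρ⁻¹ = c := (mem_centralizer_iff_conj.1 hcR) ρ hρ
      have e : ρ * (c * a') * ρ⁻¹ = c * (ρ * a' * ρ⁻¹) := by
        calc ρ * (c * a') * ρ⁻¹ = (ρ * c * ρ⁻¹) * (ρ * a' * ρ⁻¹) := by group
          _ = c * (ρ * a' * ρ⁻¹) := by rw [hρc]
      rw [e] at h2
      exact hρa (hU B' hB'fix _ (HH.conj_mem_of_mem_normalizer (hRA hρ) ha') _ ha' h2 hmem)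
    obtain ⟨a₀, ha₀, ha₀1⟩ := exists_ne_one_of_ne_bot hA1
    have ha₀i : a₀⁻¹ ≠ 1 := fun h => ha₀1 (inv_eq_one.1 h)
    obtain ⟨B₁, hB₁, hB₁fix, hB₁mem⟩ := hBa a₀ ha₀
    obtain ⟨B₂, hB₂, hB₂fix, hB₂mem⟩ := hBa a₀⁻¹ (inv_mem ha₀)
    obtain ⟨ρ, hρ, hρB⟩ := conj_of_hyp hq hE₁c hE₁Y hYc hYp hRE₁ hRY hr hE₁p hYE₁ hB₁ hB₂
      (hnotinv a₀ ha₀ ha₀1 B₁ hB₁fix hB₁mem)
      (hnotinv a₀⁻¹ (inv_mem ha₀) ha₀i B₂ hB₂fix hB₂mem) hB₁fix hB₂fix hcycY
    have hρc : ρ * c * ρ⁻¹ = c := (mem_centralizer_iff_conj.1 hcR) ρ hρ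
    have h1 : c * (ρ * a₀ * ρ⁻¹) ∈ B₂ := by
      rw [hρB, Cfsg.Agent.Lib.Helper1.mem_conj_smul_iff]
      have e : ρ⁻¹ * (c * (ρ * a₀ * ρ⁻¹)) * ρ = (ρ⁻¹ * (ρ * c * ρ⁻¹) * ρ) * a₀ := by
        rw [hρc]; group
      rw [e]
      have e2 : ρ⁻¹ * (ρ * c * ρ⁻¹) * ρ = c := by group
      rw [e2]
      exact hB₁mem
    have h2 : ρ * a₀ * ρ⁻¹ = a₀⁻¹ :=
      hU B₂ hB₂fix _ (HH.conj_mem_of_mem_normalizer (hRA hρ) ha₀) _ (inv_mem ha₀) h1 hB₂mem
    have h3 : (ρ * ρ) * a₀ * (ρ * ρ)⁻¹ = a₀ := by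
      have e : (ρ * ρ) * a₀ * (ρ * ρ)⁻¹ = ρ * (ρ * a₀ * ρ⁻¹) * ρ⁻¹ := by group
      rw [e, h2]
      have e2 : ρ * a₀⁻¹ * ρ⁻¹ = (ρ * a₀ * ρ⁻¹)⁻¹ := by group
      rw [e2, h2, inv_inv]
    by_cases hρρ : ρ * ρ = 1
    · have hρ1 : ρ = 1 := eq_one_of_pow_of_pow (m := 2) (n := Nat.card R₀)
        (Nat.coprime_two_left.2 (hodd.of_dvd_nat (card_subgroup_dvd_card R₀)))
        (by rw [pow_two]; exact hρρ) (pow_card_of_mem hρ)
      rw [hρ1] at h2
      have h4 : a₀ = a₀⁻¹ := by simpa using h2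
      have h5 : a₀ * a₀ = 1 := mul_eq_one_iff_eq_inv.2 h4
      exact ha₀1 (eq_one_of_pow_of_pow (m := 2) (n := q) (Nat.coprime_two_left.2 hqodd)
        (by rw [pow_two]; exact h5) (hAq a₀ ha₀))
    · have h6 : a₀ ∈ centralizer ((zpowers (ρ * ρ) : Subgroup G) : Set G) :=
        mem_centralizer_zpowers h3
      have h7 : ρ * ρ ∈ centralizer ((zpowers a₀ : Subgroup G) : Set G) :=
        (le_centralizer_iff.1 (zpowers_le.2 h6)) (mem_zpowers _)
      have h8 : R₀ ≤ centralizer ((zpowers a₀ : Subgroup G) : Set G) :=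
        le_of_prime_card hr (mul_mem hρ hρ) hρρ h7
      have h9 : a₀ ∈ A ⊓ centralizer (R₀ : Set G) :=
        mem_inf.2 ⟨ha₀, (le_centralizer_iff.1 h8) (mem_zpowers a₀)⟩
      rw [hAR, mem_bot] at h9
      exact ha₀1 h9

end Cfsg.Agent.Lib.Helper72.ZG
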