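import Mathlib
import Cfsg.Agent.Lib.Helper72.ZGNonab

/-! The key lemma for `Z`-group centralizers: a `p`-group `S` with a fixed-point-free
automorphism group `R₀` of prime order centralizes a `p'`-group `Q` acting faithfully on an
elementary abelian `p`-group `V` with `C_V(R₀)` cyclic and `C_Q(R₀)` a `Z`-group (helper72). -/

set_option autoImplicit false
set_option linter.style.haveILetI false
set_option linter.unusedSectionVars false

namespace Cfsg.Agent.Lib.Helper72.ZG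

open Subgroup
open scoped commutatorElement Pointwise

universe u

variable {G : Type u} [Group G] [Finite G]

theorem key (H3764 : HH.S3764Prop.{u}) [Group.IsSolvable G] (hodd : Odd (Nat.card G))
    {S R₀ : Subgroup G} {p : ℕ} [Fact p.Prime] (hS : IsPGroup p S)
    (hr : (Nat.card R₀).Prime) (hrp : p ≠ Nat.card R₀)
    (hRS : R₀ ≤ normalizer (S : Set G)) (hSfix : S ⊓ centralizer (R₀ : Set G) = ⊥) :
    ∀ (n : ℕ) (Q V : Subgroup G), Nat.card Q ≤ n →
      (∀ a ∈ V, ∀ b ∈ V, a * b = b * a) → (∀ v ∈ V, v ^ p = 1) → (Nat.card Q).Coprime p →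
      (Nat.card Q).Coprime (Nat.card R₀) → S ≤ normalizer (Q : Set G) →
      R₀ ≤ normalizer (Q : Set G) → Q ≤ normalizer (V : Set G) → S ≤ normalizer (V : Set G) →
      R₀ ≤ normalizer (V : Set G) → Q ⊓ centralizer (V : Set G) = ⊥ →
      (∀ x ∈ V ⊓ centralizer (R₀ : Set G), ∀ y ∈ V ⊓ centralizer (R₀ : Set G), x ≠ 1 →
        ∃ k : ℕ, y = x ^ k) →
      IsZGroup ↥(Q ⊓ centralizer (R₀ : Set G)) → ⁅Q, S⁆ = ⊥ := by
  intro n
  induction n with
  | zero =>
    intro Q V hn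
    have := Nat.card_pos (α := Q)
    omega
  | succ n ih =>
    intro Q V hn hVc hVp hQp hrQ hSQ hRQ hQV hSV hRV hfaith hcyc hZ
    classical
    have hcopSQ : (Nat.card S).Coprime (Nat.card Q) := by
      obtain ⟨k, hk⟩ := IsPGroup.iff_card.1 hS
      rw [hk]
      exact Nat.Coprime.pow_left k hQp.symm
    -- the induction hypothesis for subgroups of `Q`
    have hsub : ∀ Q₀ : Subgroup G, Q₀ ≤ Q → Q₀ ≠ Q → S ≤ normalizer (Q₀ : Set G) →
        R₀ ≤ normalizer (Q₀ : Set G) → ⁅Q₀, S⁆ = ⊥ := by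
      intro Q₀ h1 h2 h3 h4
      have hlt : Nat.card Q₀ < Nat.card Q := by
        rcases (Nat.le_of_dvd Nat.card_pos (card_dvd_of_le h1)).lt_or_eq with h | h
        · exact h
        · exact absurd (eq_of_le_of_card_ge h1 h.ge) h2
      haveI := hZ
      have hZ₀ : IsZGroup ↥(Q₀ ⊓ centralizer (R₀ : Set G)) :=
        IsZGroup.of_injective
          (f := Subgroup.inclusion (inf_le_inf_right (centralizer (R₀ : Set G)) h1))
          (Subgroup.inclusion_injective _)
      exact ih Q₀ V (by omega) hVc hVp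
        (Nat.Coprime.coprime_dvd_left (card_dvd_of_le h1) hQp)
        (Nat.Coprime.coprime_dvd_left (card_dvd_of_le h1) hrQ) h3 h4 (h1.trans hQV) hSV hRV
        (by rw [eq_bot_iff, ← hfaith]; exact inf_le_inf_right _ h1) hcyc hZ₀
    by_cases hQS : ⁅Q, S⁆ = Q
    · -- the minimal situation
      obtain ⟨n', hn'⟩ : ∃ n', Nat.card V = p ^ n' :=
        IsPGroup.iff_card.1 (fun v => ⟨1, by rw [pow_one]; exact Subtype.ext (hVp v v.2)⟩)
      have hQVcop : (Nat.card Q).Coprime (Nat.card V) := by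
        rw [hn']; exact Nat.Coprime.pow_right n' hQp
      obtain ⟨V₁, hV₁def⟩ : ∃ V₁ : Subgroup G, V₁ = ⁅V, Q⁆ := ⟨_, rfl⟩
      have hV₁V : V₁ ≤ V := hV₁def ▸ HH.commutator_le_left_of_normalizer hQV
      have hV₁c : ∀ a ∈ V₁, ∀ b ∈ V₁, a * b = b * a :=
        fun a ha b hb => hVc a (hV₁V ha) b (hV₁V hb)
      have hV₁p : ∀ v ∈ V₁, v ^ p = 1 := fun v hv => hVp v (hV₁V hv)
      have hn₁ : ∀ {X : Subgroup G}, X ≤ normalizer (V : Set G) → X ≤ normalizer (Q : Set G) →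
          X ≤ normalizer (V₁ : Set G) := by
        intro X h1 h2 g hg
        rw [hV₁def]
        exact HH.mem_normalizer_commutator (h1 hg) (h2 hg)
      have hfaith₁ : Q ⊓ centralizer (V₁ : Set G) = ⊥ := by
        rw [eq_bot_iff, ← hfaith]
        intro x hx
        refine mem_inf.2 ⟨(mem_inf.1 hx).1, ?_⟩
        apply centralizes_of_centralizes_commutator hVc hQV hQVcop (mem_inf.1 hx).1
        rw [← hV₁def]
        exact (mem_inf.1 hx).2
      have hcyc₁ : ∀ x ∈ V₁ ⊓ centralizer (R₀ : Set G), ∀ y ∈ V₁ ⊓ centralizer (R₀ : Set G),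
          x ≠ 1 → ∃ k : ℕ, y = x ^ k :=
        fun x hx y hy => hcyc x (mem_inf.2 ⟨hV₁V (mem_inf.1 hx).1, (mem_inf.1 hx).2⟩) y
          (mem_inf.2 ⟨hV₁V (mem_inf.1 hy).1, (mem_inf.1 hy).2⟩)
      have hV₁Q : V₁ ⊓ centralizer (Q : Set G) = ⊥ := by
        have h1 := cent_inf_commutator hVc hQV hQVcop
        rw [eq_bot_iff, ← h1]
        intro y hy
        exact mem_inf.2 ⟨mem_inf.2 ⟨hV₁V (mem_inf.1 hy).1, (mem_inf.1 hy).2⟩,
          hV₁def ▸ (mem_inf.1 hy).1⟩
      by_cases hQc : ∀ a ∈ Q, ∀ b ∈ Q, a * b = b * a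
      · have h1 := pcore_abelian hodd hV₁c hV₁p hQp hS hr hrp hSQ hRQ hRS
          (hn₁ hQV le_normalizer) (hn₁ hSV hSQ) (hn₁ hRV hRQ) hSfix hfaith₁ hcyc₁ hQS hsub
          hV₁Q hQc
        rw [h1]
        exact commutator_bot_left S
      · exact absurd (pcore_nonabelian H3764 hodd hV₁c hV₁p hQp hS hr hrp hrQ hSQ hRQ hRS
          (hn₁ hQV le_normalizer) (hn₁ hSV hSQ) (hn₁ hRV hRQ) hSfix hfaith₁ hcyc₁ hZ hQS hsub
          hV₁Q hQc) not_false
    · -- `[Q, S] < Q`
      have hQ₁Q : ⁅Q, S⁆ ≤ Q := HH.commutator_le_left_of_normalizer hSQ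
      have h1 := hsub ⁅Q, S⁆ hQ₁Q hQS (normalizer_commutator_ge_right Q S)
        (fun g hg => HH.mem_normalizer_commutator (hRQ hg) (hRS hg))
      rw [← commutator_commutator_eq hSQ
        (le_cent_mul_commutator hSQ hcopSQ (Or.inl inferInstance))]
      exact h1

end Cfsg.Agent.Lib.Helper72.ZG
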