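import Mathlib
import Cfsg.Agent.Lib.Helper72.ZGP
import Cfsg.Agent.Lib.Helper72.ZGDual

/-! The inductive step for `p`-length one of `[H, R]` when `C_H(R₀)` is a `Z`-group
(helper72): tools. -/

set_option autoImplicit false
set_option linter.style.haveILetI false
set_option linter.unusedSectionVars false

namespace Cfsg.Agent.Lib.Helper72.ZG

open Subgroup
open scoped commutatorElement Pointwise

universe u

section Tools

variable {G : Type u} [Group G]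

/-- **Burnside.** An element of order prime to `p` normalizing the `p`-group `P` and acting
trivially on `P / Φ(P)` centralizes `P`. -/
theorem centralizes_of_frattini [Finite G] [Group.IsSolvable G] {P : Subgroup G} {p : ℕ}
    [Fact p.Prime] (hP : IsPGroup p P) {y : G} (hy : y ∈ normalizer (P : Set G)) {m : ℕ}
    (hm : m.Coprime p) (hym : y ^ m = 1)
    (h : ∀ a ∈ P, y * a * y⁻¹ * a⁻¹ ∈ (frattini ↥P).map P.subtype) :
    y ∈ centralizer (P : Set G) := by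
  classical
  obtain ⟨Φ, hΦdef⟩ : ∃ Φ : Subgroup G, Φ = (frattini ↥P).map P.subtype := ⟨_, rfl⟩
  rw [← hΦdef] at h
  have hΦP : Φ ≤ P := hΦdef ▸ map_subtype_le _
  have hΦn : normalizer (P : Set G) ≤ normalizer (Φ : Set G) := by
    rw [hΦdef]
    exact fun g hg => HH.mem_normalizer_map_of_characteristic (frattini ↥P) hg
  have hmemΦ : ∀ a : ↥P, (a : G) ∈ Φ → a ∈ frattini ↥P := by
    intro a ha
    rw [hΦdef] at ha
    obtain ⟨b, hb, hba⟩ := ha
    have : b = a := Subtype.ext hba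
    rw [← this]
    exact hb
  let φ : ↥(normalizer (P : Set G)) →* MulAut (↥P ⧸ frattini ↥P) :=
    (HH.quotAut (frattini ↥P)).comp (HH.conjHom P)
  have hφ : ∀ (g : ↥(normalizer (P : Set G))) (a : ↥P),
      φ g (QuotientGroup.mk a) = QuotientGroup.mk (HH.conjHom P g a) :=
    fun g a => HH.quotAut_mk _ _ _
  have htrans : ∀ (g : ↥(normalizer (P : Set G))) (a : ↥P),
      φ g (QuotientGroup.mk a) = QuotientGroup.mk a →
      (a : G)⁻¹ * ((g : G) * a * (g : G)⁻¹) ∈ Φ := by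
    intro g a h
    rw [hφ, QuotientGroup.eq] at h
    have h1 : ((a⁻¹ * HH.conjHom P g a : ↥P) : G) ∈ Φ := by
      rw [hΦdef]
      refine ⟨a⁻¹ * HH.conjHom P g a, ?_, rfl⟩
      have h2 := inv_mem h
      have e : ((HH.conjHom P g a)⁻¹ * a)⁻¹ = a⁻¹ * HH.conjHom P g a := by group
      rw [e] at h2
      exact h2
    exact h1
  have hy1 : φ ⟨y, hy⟩ = 1 := by
    ext v
    induction v using QuotientGroup.induction_on with
    | H a =>
      rw [hφ, MulAut.one_apply, QuotientGroup.eq]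
      apply hmemΦ
      have h1 := h (a : G)⁻¹ (inv_mem a.2)
      have e : (((HH.conjHom P ⟨y, hy⟩ a)⁻¹ * a : ↥P) : G)
          = y * (a : G)⁻¹ * y⁻¹ * ((a : G)⁻¹)⁻¹ := by
        rw [Subgroup.coe_mul, Subgroup.coe_inv, HH.conjHom_apply]
        group
      rw [e]
      exact h1
  have hDP : zpowers y ≤ normalizer (P : Set G) := by
    rw [zpowers_le]
    exact hy
  have hD : ∀ d ∈ zpowers y, ∀ a ∈ P, a⁻¹ * (d * a * d⁻¹) ∈ Φ := by
    intro d hd a ha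
    obtain ⟨k, rfl⟩ := mem_zpowers_iff.1 hd
    have h1 : φ ((⟨y, hy⟩ : ↥(normalizer (P : Set G))) ^ k) = 1 := by
      rw [map_zpow, hy1, one_zpow]
    have h2 := htrans ((⟨y, hy⟩ : ↥(normalizer (P : Set G))) ^ k) ⟨a, ha⟩ (by rw [h1]; rfl)
    simpa using h2
  have hcopD : (Nat.card (zpowers y)).Coprime (Nat.card Φ) := by
    rw [Nat.card_zpowers]
    obtain ⟨n, hn⟩ := IsPGroup.iff_card.1 (hP.to_le hΦP)
    rw [hn]
    exact Nat.Coprime.pow_right n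
      (Nat.Coprime.coprime_dvd_left (orderOf_dvd_of_pow_eq_one hym) hm)
  have hgen : ((P ⊓ centralizer ((zpowers y : Subgroup G) : Set G)).subgroupOf P) ⊔
      frattini ↥P = ⊤ := by
    rw [eq_top_iff]
    intro a _
    obtain ⟨c, hc, hac⟩ := Cfsg.Agent.Lib.Helper1.coprime_coset_fixed (hDP.trans hΦn) hcopD
      (Or.inl inferInstance) (a : G) (fun d hd => hD d hd a a.2)
    rw [hΦdef] at hc
    obtain ⟨c', hc', rfl⟩ := hc
    have e : a = (a * c') * c'⁻¹ := by group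
    rw [e]
    refine mul_mem_sup ?_ (inv_mem hc')
    rw [mem_subgroupOf]
    exact mem_inf.2 ⟨(a * c').2, hac⟩
  have htop := frattini_nongenerating hgen
  rw [mem_centralizer_iff]
  intro a ha
  have h1 : (⟨a, ha⟩ : ↥P) ∈
      (P ⊓ centralizer ((zpowers y : Subgroup G) : Set G)).subgroupOf P := by
    rw [htop]; exact mem_top _
  rw [mem_subgroupOf] at h1
  have h2 := (mem_inf.1 h1).2
  exact (mem_centralizer_iff.1 h2 y (mem_zpowers y)).symm

theorem elem_abelian_of_frattini [Finite G] {V : Subgroup G} {p : ℕ} [Fact p.Prime]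
    (hV : IsPGroup p V) (h : (frattini ↥V).map V.subtype = ⊥) :
    (∀ a ∈ V, ∀ b ∈ V, a * b = b * a) ∧ ∀ v ∈ V, v ^ p = 1 := by
  have h0 : frattini ↥V = ⊥ := (map_eq_bot_iff_of_injective _ V.subtype_injective).1 h
  constructor
  · intro a ha b hb
    have h1 := comm_mem_frattini hV ⟨a, ha⟩ ⟨b, hb⟩
    rw [h0, mem_bot] at h1
    have h2 : a * b * a⁻¹ * b⁻¹ = 1 := congrArg Subtype.val h1
    rw [mul_inv_eq_one, mul_inv_eq_iff_eq_mul] at h2
    exact h2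
  · intro v hv
    have h1 := pow_mem_frattini hV ⟨v, hv⟩
    rw [h0, mem_bot] at h1
    exact congrArg Subtype.val h1

/-- in a finite cyclic group the elements of order dividing `p` are the powers of any one of
them of order `p` -/
theorem mem_zpowers_of_cyclic {T : Type*} [Group T] [Finite T] [IsCyclic T] {p : ℕ}
    [hp : Fact p.Prime] {x y : T} (hx : x ^ p = 1) (hx1 : x ≠ 1) (hy : y ^ p = 1) :
    y ∈ zpowers x := by
  obtain ⟨g, hg⟩ := IsCyclic.exists_generator (α := T)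
  have hc : ∀ a b : T, Commute a b := by
    intro a b
    obtain ⟨i, rfl⟩ := mem_zpowers_iff.1 (hg a)
    obtain ⟨j, rfl⟩ := mem_zpowers_iff.1 (hg b)
    exact (Commute.refl g).zpow_zpow i j
  let Kp : Subgroup T :=
    { carrier := {t | t ^ p = 1}
      mul_mem' := by
        intro a b ha hb
        have ha' : a ^ p = 1 := ha
        have hb' : b ^ p = 1 := hb
        show (a * b) ^ p = 1
        rw [(hc a b).mul_pow, ha', hb', one_mul]
      one_mem' := one_pow p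
      inv_mem' := by
        intro a ha
        have ha' : a ^ p = 1 := ha
        show a⁻¹ ^ p = 1
        rw [inv_pow, ha', inv_one] }
  have hxK : x ∈ Kp := hx
  have hyK : y ∈ Kp := hy
  obtain ⟨h, hh⟩ := IsCyclic.exists_generator (α := ↥Kp)
  have hhp : h ^ p = 1 := Subtype.ext h.2
  have hcard : Nat.card Kp ∣ p := by
    rw [← orderOf_eq_card_of_forall_mem_zpowers hh]
    exact orderOf_dvd_of_pow_eq_one hhp
  have hle : zpowers x ≤ Kp := by
    rw [zpowers_le]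
    exact hxK
  have heq : zpowers x = Kp := by
    apply eq_of_le_of_card_ge hle
    rw [Nat.card_zpowers, orderOf_eq_prime hx hx1]
    exact Nat.le_of_dvd hp.out.pos hcard
  rw [heq]
  exact hyK

theorem exists_pow_prime_order {p : ℕ} [hp : Fact p.Prime] {s : G} {k : ℕ}
    (hs : s ^ (p ^ k) = 1) (hs1 : s ≠ 1) : ∃ j : ℕ, (s ^ j) ^ p = 1 ∧ s ^ j ≠ 1 := by
  obtain ⟨i, hi, hord⟩ := (Nat.dvd_prime_pow hp.out).1 (orderOf_dvd_of_pow_eq_one hs)
  rcases i with _ | i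
  · rw [pow_zero, orderOf_eq_one_iff] at hord
    exact absurd hord hs1
  · refine ⟨p ^ i, ?_, ?_⟩
    · rw [← pow_mul, ← pow_succ, ← hord, pow_orderOf_eq_one]
    · intro h
      have h1 := orderOf_dvd_of_pow_eq_one h
      rw [hord] at h1
      have := (Nat.pow_dvd_pow_iff_le_right hp.out.one_lt).1 h1
      omega

theorem relIndex_coprime_of_step [Finite G] {p : ℕ} [hp : Fact p.Prime] {V L : Subgroup G}
    [hV : V.Normal] (h : ∀ x ∈ L, ∃ m : ℕ, m.Coprime p ∧ x ^ m ∈ V) :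
    (V.relIndex L).Coprime p := by
  by_contra hcon
  have hdvd : p ∣ V.relIndex L := by
    by_contra h'
    exact hcon ((Nat.Prime.coprime_iff_not_dvd hp.out).2 h').symm
  have hdvd' : p ∣ Nat.card (↥L ⧸ V.subgroupOf L) := by
    rw [← Subgroup.index_eq_card]
    exact hdvd
  obtain ⟨y, hy⟩ := exists_prime_orderOf_dvd_card' (G := ↥L ⧸ V.subgroupOf L) p hdvd'
  obtain ⟨x, rfl⟩ := QuotientGroup.mk_surjective y
  obtain ⟨m, hm, hxm⟩ := h x x.2
  have h1 : (QuotientGroup.mk x : ↥L ⧸ V.subgroupOf L) ^ m = 1 := by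
    rw [← QuotientGroup.mk_pow, QuotientGroup.eq_one_iff]
    exact mem_subgroupOf.2 hxm
  have h2 := orderOf_dvd_of_pow_eq_one h1
  rw [hy] at h2
  exact (Nat.Prime.coprime_iff_not_dvd hp.out).1 hm.symm h2

theorem exists_compl [Finite G] {p : ℕ} [hp : Fact p.Prime] {V L : Subgroup G} [hV : V.Normal]
    (hVL : V ≤ L) (hVp : IsPGroup p V) (h : ∀ x ∈ L, ∃ m : ℕ, m.Coprime p ∧ x ^ m ∈ V) :
    ∃ Q : Subgroup G, Q ≤ L ∧ (Nat.card Q).Coprime p ∧
      ∀ l ∈ L, ∃ v ∈ V, ∃ q ∈ Q, l = v * q := by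
  have hidx := relIndex_coprime_of_step h
  obtain ⟨k, hk⟩ := IsPGroup.iff_card.1 hVp
  have hcardV : Nat.card (V.subgroupOf L) = Nat.card V :=
    Cfsg.Agent.Lib.Helper1.card_subgroupOf_of_le hVL
  have hcop : (Nat.card (V.subgroupOf L)).Coprime (V.subgroupOf L).index := by
    rw [hcardV, hk]
    exact Nat.Coprime.pow_left k (Nat.coprime_comm.1 hidx)
  obtain ⟨Q₀, hQ₀⟩ := Subgroup.exists_right_complement'_of_coprime hcop
  refine ⟨Q₀.map L.subtype, map_subtype_le _, ?_, ?_⟩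
  · rw [Cfsg.Agent.Lib.Helper30.card_map_subtype]
    have h1 := hQ₀.card_mul_card
    have h2 := (V.subgroupOf L).card_mul_index
    have hpos : 0 < Nat.card (V.subgroupOf L) := Nat.card_pos
    have h3 : Nat.card Q₀ = (V.subgroupOf L).index := by
      apply Nat.eq_of_mul_eq_mul_left hpos
      rw [h1, h2]
    rw [h3]
    exact hidx
  · intro l hl
    obtain ⟨⟨⟨u, hu⟩, ⟨z, hz⟩⟩, huz⟩ := hQ₀.existsUnique (⟨l, hl⟩ : ↥L) |>.exists
    simp only at huz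
    refine ⟨(u : G), mem_subgroupOf.1 hu, (z : G), ⟨z, hz, rfl⟩, ?_⟩
    have := congrArg Subtype.val huz
    simpa using this.symm

theorem conj_compl [Finite G] [Group.IsSolvable G] {p : ℕ} [hp : Fact p.Prime]
    {V L Q : Subgroup G} [hV : V.Normal] [hL : L.Normal] (hVp : IsPGroup p V) (hQL : Q ≤ L)
    (hQp : (Nat.card Q).Coprime p) (hLVQ : ∀ l ∈ L, ∃ v ∈ V, ∃ q ∈ Q, l = v * q) (g : G) :
    ∃ v ∈ V, MulAut.conj v • Q = MulAut.conj g • Q := by
  obtain ⟨k, hk⟩ := IsPGroup.iff_card.1 hVp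
  apply Cfsg.Agent.Lib.Helper1.sz_conj_rel le_normalizer_of_normal'
    (by rw [hk]; exact Nat.Coprime.pow_right k hQp) (Or.inl inferInstance)
  · intro x hx
    rw [Cfsg.Agent.Lib.Helper1.mem_conj_smul_iff] at hx
    have hxL : x ∈ L := by
      have h1 := hL.conj_mem _ (hQL hx) g
      simpa [mul_assoc] using h1
    obtain ⟨v, hv, q, hq, rfl⟩ := hLVQ x hxL
    exact mul_mem (mem_sup_right hv) (mem_sup_left hq)
  · exact Cfsg.Agent.Lib.Helper1.card_conj_smul g Q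

theorem exists_Q [Finite G] [Group.IsSolvable G] {p : ℕ} [hp : Fact p.Prime]
    {V L R : Subgroup G} [hV : V.Normal] [hL : L.Normal] (hVL : V ≤ L) (hVp : IsPGroup p V)
    (h : ∀ x ∈ L, ∃ m : ℕ, m.Coprime p ∧ x ^ m ∈ V)
    (hRV : (Nat.card R).Coprime (Nat.card V)) :
    ∃ Q : Subgroup G, Q ≤ L ∧ (Nat.card Q).Coprime p ∧
      (∀ l ∈ L, ∃ v ∈ V, ∃ q ∈ Q, l = v * q) ∧ R ≤ normalizer (Q : Set G) := by
  obtain ⟨Q₁, hQ₁L, hQ₁p, hLVQ₁⟩ := exists_compl hVL hVp h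
  obtain ⟨k, hk, hR⟩ := Cfsg.Agent.Lib.Helper1.coprime_invariant_conj (A := R) (K := V)
    (P := Q₁) le_normalizer_of_normal' hRV (Or.inl inferInstance)
    (fun g _ => by
      obtain ⟨v, hv, hvg⟩ := conj_compl hVp hQ₁L hQ₁p hLVQ₁ g
      exact ⟨v, hv, hvg.symm⟩)
  refine ⟨MulAut.conj k • Q₁, ?_, ?_, ?_, hR⟩
  · intro x hx
    rw [Cfsg.Agent.Lib.Helper1.mem_conj_smul_iff] at hx
    have h1 := hL.conj_mem _ (hQ₁L hx) k
    simpa [mul_assoc] using h1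
  · rw [Cfsg.Agent.Lib.Helper1.card_conj_smul]
    exact hQ₁p
  · intro l hl
    have h1 : k⁻¹ * l * k ∈ L := by
      have := hL.conj_mem _ hl k⁻¹
      simpa using this
    obtain ⟨v, hv, q, hq, hvq⟩ := hLVQ₁ _ h1
    refine ⟨k * v * k⁻¹, hV.conj_mem _ hv k, k * q * k⁻¹, ?_, ?_⟩
    · rw [Cfsg.Agent.Lib.Helper1.mem_conj_smul_iff]
      have e : k⁻¹ * (k * q * k⁻¹) * k = q := by group
      rw [e]
      exact hq
    · calc l = k * (k⁻¹ * l * k) * k⁻¹ := by group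
        _ = k * (v * q) * k⁻¹ := by rw [hvq]
        _ = k * v * k⁻¹ * (k * q * k⁻¹) := by group

theorem mem_sup_normal_left {V B : Subgroup G} [V.Normal] {x : G} :
    x ∈ V ⊔ B ↔ ∃ v ∈ V, ∃ b ∈ B, x = v * b := by
  constructor
  · intro hx
    have hx' : x ∈ ((V ⊔ B : Subgroup G) : Set G) := hx
    rw [Subgroup.normal_mul, Set.mem_mul] at hx'
    obtain ⟨v, hv, b, hb, rfl⟩ := hx'
    exact ⟨v, hv, b, hb, rfl⟩
  · rintro ⟨v, hv, b, hb, rfl⟩
    exact mul_mem (mem_sup_left hv) (mem_sup_right hb)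

/-- an element of `V` normalizing the complement `Q` is trivial, when `C_V(L) = 1` -/
theorem eq_one_of_mem_V_normalizer [Finite G] {p : ℕ} [hp : Fact p.Prime] {V L Q : Subgroup G} [hV : V.Normal]
    (hVp : IsPGroup p V) (hVab : ∀ a ∈ V, ∀ b ∈ V, a * b = b * a)
    (hQp : (Nat.card Q).Coprime p) (hLVQ : ∀ l ∈ L, ∃ v ∈ V, ∃ q ∈ Q, l = v * q)
    (hM₁ : V ⊓ centralizer (L : Set G) = ⊥) {x : G} (hxV : x ∈ V)
    (hxQ : x ∈ normalizer (Q : Set G)) : x = 1 := by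
  have hQV : Q ⊓ V = ⊥ := by
    obtain ⟨k, hk⟩ := IsPGroup.iff_card.1 hVp
    exact Cfsg.Agent.Lib.Helper1.inf_eq_bot_of_coprime_card
      (by rw [hk]; exact Nat.Coprime.pow_right k hQp)
  have hxq : ∀ q ∈ Q, x * q = q * x := by
    intro q hq
    have h1 : x * q * x⁻¹ * q⁻¹ ∈ Q :=
      mul_mem (HH.conj_mem_of_mem_normalizer hxQ hq) (inv_mem hq)
    have h2 : x * q * x⁻¹ * q⁻¹ ∈ V := by
      have h3 := hV.conj_mem _ (inv_mem hxV) q
      have e : x * q * x⁻¹ * q⁻¹ = x * (q * x⁻¹ * q⁻¹) := by group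
      rw [e]
      exact mul_mem hxV h3
    have h4 : x * q * x⁻¹ * q⁻¹ ∈ Q ⊓ V := mem_inf.2 ⟨h1, h2⟩
    rw [hQV, mem_bot, mul_inv_eq_one, mul_inv_eq_iff_eq_mul] at h4
    exact h4
  have hxc : x ∈ centralizer (L : Set G) := by
    rw [mem_centralizer_iff]
    intro l hl
    obtain ⟨v, hv, q, hq, rfl⟩ := hLVQ l hl
    calc v * q * x = v * (q * x) := by group
      _ = v * (x * q) := by rw [hxq q hq]
      _ = (v * x) * q := by group
      _ = (x * v) * q := by rw [hVab x hxV v hv]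
      _ = x * (v * q) := by group
  have h5 : x ∈ V ⊓ centralizer (L : Set G) := mem_inf.2 ⟨hxV, hxc⟩
  rw [hM₁, mem_bot] at h5
  exact h5

/-- the Frattini argument: `K = V (K ∩ N(Q))` -/
theorem exists_mul_of_mem_K [Finite G] [Group.IsSolvable G] {p : ℕ} [hp : Fact p.Prime]
    {K V L Q : Subgroup G} [hV : V.Normal] [hL : L.Normal] (hVK : V ≤ K) (hVp : IsPGroup p V)
    (hQL : Q ≤ L) (hQp : (Nat.card Q).Coprime p)
    (hLVQ : ∀ l ∈ L, ∃ v ∈ V, ∃ q ∈ Q, l = v * q) :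
    ∀ k ∈ K, ∃ v ∈ V, ∃ n ∈ K ⊓ normalizer (Q : Set G), k = v * n := by
  intro k hk
  obtain ⟨v, hv, hvk⟩ := conj_compl hVp hQL hQp hLVQ k
  refine ⟨v, hv, v⁻¹ * k, mem_inf.2 ⟨mul_mem (inv_mem (hVK hv)) hk, ?_⟩, by group⟩
  rw [Cfsg.Agent.Lib.Helper1.mem_normalizer_iff_conj_smul, map_mul, map_inv, mul_smul, ← hvk,
    inv_smul_smul]

/-- `C_N(Q) ≤ Q` -/
theorem mem_Q_of_centralizes [Finite G] {p : ℕ} [hp : Fact p.Prime] {K V L Q : Subgroup G} [hV : V.Normal]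
    (hVp : IsPGroup p V) (hVab : ∀ a ∈ V, ∀ b ∈ V, a * b = b * a)
    (hQp : (Nat.card Q).Coprime p) (hLVQ : ∀ l ∈ L, ∃ v ∈ V, ∃ q ∈ Q, l = v * q)
    (hM₁ : V ⊓ centralizer (L : Set G) = ⊥)
    (hL4 : ∀ n ∈ K, (∀ l ∈ L, n * l * n⁻¹ * l⁻¹ ∈ V) → n ∈ L)
    {n : G} (hnK : n ∈ K) (hnQ : n ∈ normalizer (Q : Set G))
    (hnc : n ∈ centralizer (Q : Set G)) : n ∈ Q := by
  have hnL : n ∈ L := by
    apply hL4 n hnK
    intro l hl
    obtain ⟨v, hv, q, hq, rfl⟩ := hLVQ l hl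
    have h1 : q * n = n * q := mem_centralizer_iff.1 hnc q hq
    have h2 : n * q * n⁻¹ = q := by rw [← h1]; group
    have e : n * (v * q) * n⁻¹ * (v * q)⁻¹ = (n * v * n⁻¹) * v⁻¹ := by
      calc n * (v * q) * n⁻¹ * (v * q)⁻¹ = (n * v * n⁻¹) * (n * q * n⁻¹) * q⁻¹ * v⁻¹ := by group
        _ = (n * v * n⁻¹) * q * q⁻¹ * v⁻¹ := by rw [h2]
        _ = (n * v * n⁻¹) * v⁻¹ := by group
    rw [e]
    exact mul_mem (hV.conj_mem _ hv n) (inv_mem hv)
  obtain ⟨v, hv, q, hq, hvq⟩ := hLVQ n hnL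
  have hv1 : v = 1 := by
    apply eq_one_of_mem_V_normalizer hVp hVab hQp hLVQ hM₁ hv
    have e : v = n * q⁻¹ := by rw [hvq]; group
    rw [e]
    exact mul_mem hnQ (le_normalizer (inv_mem hq))
  rw [hvq, hv1, one_mul]
  exact hq

/-- `N = K ∩ N(Q)` has no nontrivial normal `p`-subgroup -/
theorem eq_bot_of_normal_pgroup [Finite G] {p : ℕ} [hp : Fact p.Prime] {K V L Q : Subgroup G} [hV : V.Normal]
    (hVK : V ≤ K) (hVp : IsPGroup p V) (hVab : ∀ a ∈ V, ∀ b ∈ V, a * b = b * a)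
    (hQp : (Nat.card Q).Coprime p) (hLVQ : ∀ l ∈ L, ∃ v ∈ V, ∃ q ∈ Q, l = v * q)
    (hM₁ : V ⊓ centralizer (L : Set G) = ⊥)
    (hmax : ∀ B : Subgroup G, B ≤ K → K ≤ normalizer (B : Set G) → IsPGroup p B → B ≤ V)
    (hKVN : ∀ k ∈ K, ∃ v ∈ V, ∃ n ∈ K ⊓ normalizer (Q : Set G), k = v * n)
    {B : Subgroup G} (hBN : B ≤ K ⊓ normalizer (Q : Set G))
    (hNB : K ⊓ normalizer (Q : Set G) ≤ normalizer (B : Set G)) (hBp : IsPGroup p B) :
    B = ⊥ := by
  have h1 : V ⊔ B ≤ V := by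
    apply hmax (V ⊔ B) (sup_le hVK (hBN.trans inf_le_left)) ?_
      (IsPGroup.to_sup_of_normal_left hVp hBp)
    apply HH.le_normalizer_of_conj_mem
    intro g hg y hy
    obtain ⟨v, hv, b, hb, rfl⟩ := mem_sup_normal_left.1 hy
    obtain ⟨v₀, hv₀, n, hn, rfl⟩ := hKVN g hg
    have hb' : n * b * n⁻¹ ∈ B := HH.conj_mem_of_mem_normalizer (hNB hn) hb
    have e : v₀ * n * (v * b) * (v₀ * n)⁻¹
        = (v₀ * n * v * (v₀ * n)⁻¹) * (v₀ * ((n * b * n⁻¹) * v₀⁻¹ * (n * b * n⁻¹)⁻¹)) *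
          (n * b * n⁻¹) := by group
    rw [e]
    refine mul_mem (mul_mem (mem_sup_left (hV.conj_mem _ hv _)) (mem_sup_left ?_))
      (mem_sup_right hb')
    exact mul_mem hv₀ (hV.conj_mem _ (inv_mem hv₀) _)
  rw [eq_bot_iff]
  intro b hb
  rw [mem_bot]
  exact eq_one_of_mem_V_normalizer hVp hVab hQp hLVQ hM₁ (h1 (mem_sup_right hb))
    (hBN hb).2

/-- `N = [N, R]` -/
theorem N_le_commutator [Finite G] {p : ℕ} [hp : Fact p.Prime] {K V L Q R : Subgroup G} [hV : V.Normal]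
    [hK : K.Normal] (hVp : IsPGroup p V) (hVab : ∀ a ∈ V, ∀ b ∈ V, a * b = b * a)
    (hQp : (Nat.card Q).Coprime p) (hLVQ : ∀ l ∈ L, ∃ v ∈ V, ∃ q ∈ Q, l = v * q)
    (hM₁ : V ⊓ centralizer (L : Set G) = ⊥)
    (hKVN : ∀ k ∈ K, ∃ v ∈ V, ∃ n ∈ K ⊓ normalizer (Q : Set G), k = v * n)
    (hKR : K ≤ ⁅K, R⁆) (hRQ : R ≤ normalizer (Q : Set G)) :
    K ⊓ normalizer (Q : Set G) ≤ ⁅K ⊓ normalizer (Q : Set G), R⁆ := by
  have hRN : R ≤ normalizer ((K ⊓ normalizer (Q : Set G) : Subgroup G) : Set G) := by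
    intro ρ hρ
    exact HH.mem_normalizer_inf (le_normalizer_of_normal' (X := R) hρ) (le_normalizer (hRQ hρ))
  have h1 : ⁅K, R⁆ ≤ V ⊔ ⁅K ⊓ normalizer (Q : Set G), R⁆ := by
    rw [Subgroup.commutator_le]
    intro k hk ρ hρ
    obtain ⟨v, hv, n, hn, rfl⟩ := hKVN k hk
    have e : ⁅v * n, ρ⁆ = v * ⁅n, ρ⁆ * (ρ * v⁻¹ * ρ⁻¹) := by
      simp only [commutatorElement_def]; group
    rw [e]
    exact mul_mem (mul_mem (mem_sup_left hv) (mem_sup_right (commutator_mem_commutator hn hρ)))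
      (mem_sup_left (hV.conj_mem _ (inv_mem hv) _))
  intro n hn
  obtain ⟨v, hv, d, hd, hvd⟩ := mem_sup_normal_left.1 (h1 (hKR hn.1))
  have hdN : d ∈ K ⊓ normalizer (Q : Set G) := HH.commutator_le_left_of_normalizer hRN hd
  have hv1 : v = 1 := by
    apply eq_one_of_mem_V_normalizer hVp hVab hQp hLVQ hM₁ hv
    have e : v = n * d⁻¹ := by rw [hvd]; group
    rw [e]
    exact mul_mem hn.2 (inv_mem hdN.2)
  rw [hvd, hv1, one_mul]
  exact hd

theorem coprime_of_sylow_map_eq_bot [Finite G] {p : ℕ} [hp : Fact p.Prime] {N : Subgroup G}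
    (P : Sylow p ↥N) (h : (P : Subgroup ↥N).map N.subtype = ⊥) : (Nat.card N).Coprime p := by
  have h0 : (P : Subgroup ↥N) = ⊥ := (map_eq_bot_iff_of_injective _ N.subtype_injective).1 h
  have h1 := P.not_dvd_index
  rw [h0, Subgroup.index_bot] at h1
  exact ((Nat.Prime.coprime_iff_not_dvd hp.out).2 h1).symm

theorem isCyclic_of_pgroup_le {C T : Subgroup G} [IsZGroup ↥C] {p : ℕ} [Fact p.Prime]
    (hTC : T ≤ C) (hT : IsPGroup p T) : IsCyclic ↥T := by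
  haveI := IsPGroup.isCyclic_of_isZGroup (G := ↥C) (P := T.subgroupOf C) hT.comap_subtype
  exact isCyclic_of_surjective (subgroupOfEquivOfLe hTC) (subgroupOfEquivOfLe hTC).surjective

theorem isZGroup_of_le {C T : Subgroup G} [IsZGroup ↥C] (hTC : T ≤ C) : IsZGroup ↥T :=
  IsZGroup.of_injective (f := Subgroup.inclusion hTC) (Subgroup.inclusion_injective hTC)

end Tools

section Cases

variable {G : Type u} [Group G] [Finite G]

/-- Case A: `C_V(R₀) = 1`. -/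
theorem caseA (H3764 : HH.S3764Prop.{u}) [Group.IsSolvable G] (hodd : Odd (Nat.card G))
    {H K V Q R R₀ : Subgroup G} {p : ℕ} [hp : Fact p.Prime] [hV : V.Normal] [hK : K.Normal]
    (hKH : K ≤ H) (hZ : IsZGroup ↥(H ⊓ centralizer (R₀ : Set G)))
    (hRR₀ : R₀ ≤ R) (hr : (Nat.card R₀).Prime) (hrp : p ≠ Nat.card R₀)
    (hVab : ∀ a ∈ V, ∀ b ∈ V, a * b = b * a) (hVexp : ∀ v ∈ V, v ^ p = 1)
    (hQK : Q ≤ K) (hQp : (Nat.card Q).Coprime p)
    (hcopK : (Nat.card K).Coprime (Nat.card R₀)) (hRQ : R ≤ normalizer (Q : Set G))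
    (hQV : Q ⊓ centralizer (V : Set G) = ⊥)
    (hNQ : ∀ n ∈ K, n ∈ normalizer (Q : Set G) → n ∈ centralizer (Q : Set G) → n ∈ Q)
    (hNp : ∀ B : Subgroup G, B ≤ K ⊓ normalizer (Q : Set G) →
      K ⊓ normalizer (Q : Set G) ≤ normalizer (B : Set G) → IsPGroup p B → B = ⊥)
    (hNR : K ⊓ normalizer (Q : Set G) ≤ ⁅K ⊓ normalizer (Q : Set G), R⁆)
    (hVfix : V ⊓ centralizer (R₀ : Set G) = ⊥) :
    (Nat.card ↥(K ⊓ normalizer (Q : Set G))).Coprime p := by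
  obtain ⟨N, hNdef⟩ : ∃ N : Subgroup G, N = K ⊓ normalizer (Q : Set G) := ⟨_, rfl⟩
  rw [← hNdef] at hNp hNR ⊢
  have hNK : N ≤ K := hNdef ▸ inf_le_left
  have hNnQ : N ≤ normalizer (Q : Set G) := hNdef ▸ inf_le_right
  have hRN : R ≤ normalizer (N : Set G) := by
    intro ρ hρ
    rw [hNdef]
    exact HH.mem_normalizer_inf (le_normalizer_of_normal' (X := R) hρ) (le_normalizer (hRQ hρ))
  have hR₀Q : R₀ ≤ normalizer (Q : Set G) := hRR₀.trans hRQ
  have hR₀N : R₀ ≤ normalizer (N : Set G) := hRR₀.trans hRN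
  have hcopQ : (Nat.card Q).Coprime (Nat.card R₀) :=
    Nat.Coprime.coprime_dvd_left (Subgroup.card_dvd_of_le hQK) hcopK
  have hrQ : ¬ Nat.card R₀ ∣ Nat.card Q := (Nat.Prime.coprime_iff_not_dvd hr).1 hcopQ.symm
  have hpQ : ¬ p ∣ Nat.card Q := (Nat.Prime.coprime_iff_not_dvd hp.out).1 hQp.symm
  have hQodd : Odd (Nat.card Q) := Odd.of_dvd_nat hodd (Subgroup.card_subgroup_dvd_card Q)
  have hVea : Cfsg.IsElementaryAbelian p V :=
    ⟨⟨⟨fun a b => Subtype.ext (hVab a a.2 b b.2)⟩⟩, hVexp⟩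
  have h1 := HH.s3769_core H3764 Q R₀ V hp.out hr rfl hR₀Q hrQ hQodd hVea hpQ hrp
    le_normalizer_of_normal' le_normalizer_of_normal' hVfix
  have h2 : ⁅R₀, Q⁆ = ⊥ := by
    rw [eq_bot_iff, ← hQV]
    refine le_inf ?_ h1
    rw [commutator_comm]
    exact HH.commutator_le_left_of_normalizer hR₀Q
  have hR₀cQ : R₀ ≤ centralizer (Q : Set G) := commutator_eq_bot_iff_le_centralizer.1 h2
  have h3 : ⁅N, R₀⁆ ≤ Q := by
    rw [Subgroup.commutator_le]
    intro n hn ρ hρ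
    have hc : ⁅n, ρ⁆ ∈ N := by
      have e : ⁅n, ρ⁆ = n * (ρ * n⁻¹ * ρ⁻¹) := by simp only [commutatorElement_def]; group
      rw [e]
      exact mul_mem hn (HH.conj_mem_of_mem_normalizer (hR₀N hρ) (inv_mem hn))
    apply hNQ _ (hNK hc) (hNnQ hc)
    rw [mem_centralizer_iff]
    intro q hq
    have hρq : ∀ q' ∈ Q, q' * ρ = ρ * q' :=
      fun q' hq' => mem_centralizer_iff.1 (hR₀cQ hρ) q' hq'
    have hq' : n⁻¹ * q * n ∈ Q := HH.conj_mem_of_mem_normalizer' (hNnQ hn) hq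
    have e1 : ρ⁻¹ * q = q * ρ⁻¹ := by
      have h4 := hρq q hq
      calc ρ⁻¹ * q = ρ⁻¹ * (q * ρ) * ρ⁻¹ := by group
        _ = ρ⁻¹ * (ρ * q) * ρ⁻¹ := by rw [h4]
        _ = q * ρ⁻¹ := by group
    have e2 := hρq _ hq'
    simp only [commutatorElement_def]
    calc q * (n * ρ * n⁻¹ * ρ⁻¹) = n * ((n⁻¹ * q * n) * ρ) * n⁻¹ * ρ⁻¹ := by group
      _ = n * (ρ * (n⁻¹ * q * n)) * n⁻¹ * ρ⁻¹ := by rw [e2]
      _ = n * ρ * n⁻¹ * (q * ρ⁻¹) := by group
      _ = n * ρ * n⁻¹ * (ρ⁻¹ * q) := by rw [e1]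
      _ = n * ρ * n⁻¹ * ρ⁻¹ * q := by group
  have hcopN : (Nat.card R₀).Coprime (Nat.card N) :=
    (Nat.Coprime.coprime_dvd_left (Subgroup.card_dvd_of_le hNK) hcopK).symm
  have h4 : ⁅N, R₀⁆ = ⊥ := by
    have h5 := commutator_commutator_eq hR₀N
      (le_cent_mul_commutator hR₀N hcopN (Or.inr inferInstance))
    rw [← h5, eq_bot_iff]
    calc ⁅⁅N, R₀⁆, R₀⁆ ≤ ⁅Q, R₀⁆ := Subgroup.commutator_mono h3 le_rfl
      _ = ⊥ := by rw [commutator_comm]; exact h2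
  have hNcR₀ : N ≤ centralizer (R₀ : Set G) := commutator_eq_bot_iff_le_centralizer.1 h4
  haveI : IsZGroup ↥(H ⊓ centralizer (R₀ : Set G)) := hZ
  haveI hZN : IsZGroup ↥N :=
    isZGroup_of_le (C := H ⊓ centralizer (R₀ : Set G)) (le_inf (hNK.trans hKH) hNcR₀)
  obtain ⟨X, hXdef⟩ : ∃ X : Subgroup G, X = (commutator ↥N).map N.subtype := ⟨_, rfl⟩
  have hXcyc : IsCyclic ↥X := by
    haveI : IsCyclic ↥(commutator ↥N) := IsZGroup.isCyclic_commutator ↥N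
    rw [hXdef]
    exact isCyclic_of_surjective
      ((commutator ↥N).equivMapOfInjective N.subtype N.subtype_injective)
      (MulEquiv.surjective _)
  obtain ⟨g, hg, hgen⟩ := exists_gen_of_isCyclic hXcyc
  have hnX : normalizer (N : Set G) ≤ normalizer (X : Set G) := by
    intro t ht
    rw [hXdef]
    exact HH.mem_normalizer_map_of_characteristic (commutator ↥N) ht
  have h6 : ⁅N, R⁆ ≤ centralizer (X : Set G) := by
    rw [Subgroup.commutator_le]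
    intro s hs ρ hρ
    exact comm_centralizes_of_gen hg hgen (hnX (le_normalizer hs)) (hnX (hRN hρ))
  have hNcX : N ≤ centralizer (X : Set G) := hNR.trans h6
  have hcen : commutator ↥N ≤ center ↥N := by
    intro c hc
    rw [Subgroup.mem_center_iff]
    intro n
    apply Subtype.ext
    have hcX : (c : G) ∈ X := by rw [hXdef]; exact ⟨c, hc, rfl⟩
    exact (mem_centralizer_iff.1 (hNcX n.2) (c : G) hcX).symm
  have hnil : Group.IsNilpotent ↥N := by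
    apply Subgroup.isNilpotent_of_ker_le_center (Abelianization.of (G := ↥N))
    rw [Abelianization.ker_of]
    exact hcen
  have hnormal := ((Group.isNilpotent_of_finite_tfae (G := ↥N)).out 0 3).1 hnil
  obtain ⟨P⟩ := (inferInstance : Nonempty (Sylow p ↥N))
  have hPn : (P : Subgroup ↥N).Normal := hnormal p hp P
  apply coprime_of_sylow_map_eq_bot P
  apply hNp
  · exact map_subtype_le _
  · apply HH.le_normalizer_of_conj_mem
    rintro n hn _ ⟨b, hb, rfl⟩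
    exact ⟨⟨n, hn⟩ * b * (⟨n, hn⟩ : ↥N)⁻¹, hPn.conj_mem b hb ⟨n, hn⟩, rfl⟩
  · exact P.isPGroup'.map _

/-- Case B: `C_V(R₀) ≠ 1`. -/
theorem caseB (H3764 : HH.S3764Prop.{u}) [Group.IsSolvable G] (hodd : Odd (Nat.card G))
    {H K V Q R₀ : Subgroup G} {p : ℕ} [hp : Fact p.Prime] [hV : V.Normal] [hK : K.Normal]
    (hKH : K ≤ H) (hZ : IsZGroup ↥(H ⊓ centralizer (R₀ : Set G)))
    (hr : (Nat.card R₀).Prime) (hrp : p ≠ Nat.card R₀)
    (hVK : V ≤ K) (hVp : IsPGroup p V)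
    (hVab : ∀ a ∈ V, ∀ b ∈ V, a * b = b * a) (hVexp : ∀ v ∈ V, v ^ p = 1)
    (hQK : Q ≤ K) (hQp : (Nat.card Q).Coprime p)
    (hcopK : (Nat.card K).Coprime (Nat.card R₀)) (hR₀Q : R₀ ≤ normalizer (Q : Set G))
    (hQV : Q ⊓ centralizer (V : Set G) = ⊥)
    (hNQ : ∀ n ∈ K, n ∈ normalizer (Q : Set G) → n ∈ centralizer (Q : Set G) → n ∈ Q)
    (hVN : ∀ x ∈ V, x ∈ normalizer (Q : Set G) → x = 1)
    (hVfix : V ⊓ centralizer (R₀ : Set G) ≠ ⊥) :
    (Nat.card ↥(K ⊓ normalizer (Q : Set G))).Coprime p := by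
  obtain ⟨N, hNdef⟩ : ∃ N : Subgroup G, N = K ⊓ normalizer (Q : Set G) := ⟨_, rfl⟩
  rw [← hNdef]
  have hNK : N ≤ K := hNdef ▸ inf_le_left
  have hNnQ : N ≤ normalizer (Q : Set G) := hNdef ▸ inf_le_right
  have hR₀N : R₀ ≤ normalizer (N : Set G) := by
    intro ρ hρ
    rw [hNdef]
    exact HH.mem_normalizer_inf (le_normalizer_of_normal' (X := R₀) hρ)
      (le_normalizer (hR₀Q hρ))
  haveI : IsZGroup ↥(H ⊓ centralizer (R₀ : Set G)) := hZ
  obtain ⟨W, hWdef⟩ : ∃ W : Subgroup G, W = V ⊓ centralizer (R₀ : Set G) := ⟨_, rfl⟩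
  have hWV : W ≤ V := hWdef ▸ inf_le_left
  have hWC : W ≤ H ⊓ centralizer (R₀ : Set G) := by
    rw [hWdef]
    exact inf_le_inf_right _ (hVK.trans hKH)
  have hWp : IsPGroup p W := hVp.to_le hWV
  have hcyc : ∀ x ∈ V ⊓ centralizer (R₀ : Set G), ∀ y ∈ V ⊓ centralizer (R₀ : Set G), x ≠ 1 →
      ∃ k : ℕ, y = x ^ k := by
    rw [← hWdef]
    intro x hx y hy hx1
    haveI : IsCyclic ↥W := isCyclic_of_pgroup_le hWC hWp
    have h1 : (⟨y, hy⟩ : ↥W) ∈ zpowers (⟨x, hx⟩ : ↥W) := by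
      apply mem_zpowers_of_cyclic (p := p)
      · exact Subtype.ext (hVexp x (hWV hx))
      · intro h
        exact hx1 (congrArg Subtype.val h)
      · exact Subtype.ext (hVexp y (hWV hy))
    rw [← mem_powers_iff_mem_zpowers, Submonoid.mem_powers_iff] at h1
    obtain ⟨k, hk⟩ := h1
    exact ⟨k, (congrArg Subtype.val hk).symm⟩
  have hcopN : (Nat.card R₀).Coprime (Nat.card N) :=
    (Nat.Coprime.coprime_dvd_left (Subgroup.card_dvd_of_le hNK) hcopK).symm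
  obtain ⟨P, hP⟩ := Cfsg.Agent.Lib.Helper1.exists_invariant_sylow hR₀N hcopN
    (Or.inl inferInstance) p
  obtain ⟨S₁, hS₁def⟩ : ∃ S₁ : Subgroup G, S₁ = (P : Subgroup ↥N).map N.subtype := ⟨_, rfl⟩
  rw [← hS₁def] at hP
  have hS₁N : S₁ ≤ N := hS₁def ▸ map_subtype_le _
  have hS₁p : IsPGroup p S₁ := by
    rw [hS₁def]
    exact P.isPGroup'.map _
  apply coprime_of_sylow_map_eq_bot P
  rw [← hS₁def]
  have hSfix : S₁ ⊓ centralizer (R₀ : Set G) = ⊥ := by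
    by_contra hne
    obtain ⟨s, hs, hs1⟩ := exists_ne_one_of_ne_bot hne
    obtain ⟨k, hk⟩ := hS₁p ⟨s, (mem_inf.1 hs).1⟩
    have hk' : s ^ (p ^ k) = 1 := congrArg Subtype.val hk
    obtain ⟨j, hj, hj1⟩ := exists_pow_prime_order hk' hs1
    have hs' : s ^ j ∈ S₁ ⊓ centralizer (R₀ : Set G) := pow_mem hs j
    obtain ⟨x, hx, hx1⟩ := exists_ne_one_of_ne_bot hVfix
    rw [← hWdef] at hx
    have hsW : s ^ j ∈ normalizer (W : Set G) := by
      rw [hWdef]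
      exact HH.mem_normalizer_inf (le_normalizer_of_normal' (X := ⊤) (mem_top _))
        (le_normalizer (mem_inf.1 hs').2)
    have hzp : IsPGroup p (zpowers (s ^ j)) := by
      apply IsPGroup.of_card (n := 1)
      rw [Nat.card_zpowers, orderOf_eq_prime hj hj1, pow_one]
    have hTp : IsPGroup p (W ⊔ zpowers (s ^ j) : Subgroup G) :=
      IsPGroup.to_sup_of_normal_left' hWp hzp (by rw [zpowers_le]; exact hsW)
    have hTC : W ⊔ zpowers (s ^ j) ≤ H ⊓ centralizer (R₀ : Set G) := by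
      apply sup_le hWC
      rw [zpowers_le]
      exact mem_inf.2 ⟨hKH (hNK (hS₁N (mem_inf.1 hs').1)), (mem_inf.1 hs').2⟩
    haveI : IsCyclic ↥(W ⊔ zpowers (s ^ j) : Subgroup G) := isCyclic_of_pgroup_le hTC hTp
    have hxT : x ∈ W ⊔ zpowers (s ^ j) := mem_sup_left hx
    have hsT : s ^ j ∈ W ⊔ zpowers (s ^ j) := mem_sup_right (mem_zpowers _)
    have h1 : (⟨s ^ j, hsT⟩ : ↥(W ⊔ zpowers (s ^ j) : Subgroup G)) ∈
        zpowers (⟨x, hxT⟩ : ↥(W ⊔ zpowers (s ^ j) : Subgroup G)) := by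
      apply mem_zpowers_of_cyclic (p := p)
      · exact Subtype.ext (hVexp x (hWV hx))
      · intro h
        exact hx1 (congrArg Subtype.val h)
      · exact Subtype.ext hj
    obtain ⟨i, hi⟩ := mem_zpowers_iff.1 h1
    have hi' : x ^ i = s ^ j := congrArg Subtype.val hi
    have hsV : s ^ j ∈ V := by
      rw [← hi']
      exact zpow_mem (hWV hx) i
    exact hj1 (hVN _ hsV (hNnQ (hS₁N (mem_inf.1 hs').1)))
  have hS₁Q : S₁ ≤ normalizer (Q : Set G) := hS₁N.trans hNnQ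
  haveI hZQ : IsZGroup ↥(Q ⊓ centralizer (R₀ : Set G)) :=
    isZGroup_of_le (C := H ⊓ centralizer (R₀ : Set G)) (inf_le_inf_right _ (hQK.trans hKH))
  have hkey := key H3764 hodd hS₁p hr hrp hP hSfix (Nat.card Q) Q V le_rfl hVab hVexp hQp
    (Nat.Coprime.coprime_dvd_left (Subgroup.card_dvd_of_le hQK) hcopK) hS₁Q hR₀Q
    le_normalizer_of_normal' le_normalizer_of_normal' le_normalizer_of_normal' hQV hcyc hZQ
  have hS₁cQ : S₁ ≤ centralizer (Q : Set G) := by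
    apply commutator_eq_bot_iff_le_centralizer.1
    rw [commutator_comm]
    exact hkey
  rw [eq_bot_iff]
  intro s hs
  have hsQ : s ∈ Q := hNQ s (hNK (hS₁N hs)) (hS₁Q hs) (hS₁cQ hs)
  obtain ⟨k, hk⟩ := hS₁p ⟨s, hs⟩
  have hk' : s ^ (p ^ k) = 1 := congrArg Subtype.val hk
  rw [mem_bot]
  exact eq_one_of_pow_of_pow (Nat.Coprime.pow_right k hQp) (pow_card_of_mem hsQ) hk'

/-- the split case: `K / V` is a `p'`-group -/
theorem split_case (H3764 : HH.S3764Prop.{u}) [Group.IsSolvable G] (hodd : Odd (Nat.card G))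
    {H K V L R R₀ : Subgroup G} {p : ℕ} [hp : Fact p.Prime] [hV : V.Normal] [hL : L.Normal]
    [hK : K.Normal] (hKH : K ≤ H) (hZ : IsZGroup ↥(H ⊓ centralizer (R₀ : Set G)))
    (hcop : (Nat.card H).Coprime (Nat.card R))
    (hRR₀ : R₀ ≤ R) (hr : (Nat.card R₀).Prime) (hrp : p ≠ Nat.card R₀)
    (hKR : K ≤ ⁅K, R⁆) (hVL : V ≤ L) (hLK : L ≤ K) (hVp : IsPGroup p V)
    (hVab : ∀ a ∈ V, ∀ b ∈ V, a * b = b * a) (hVexp : ∀ v ∈ V, v ^ p = 1)
    (hCV : K ⊓ centralizer (V : Set G) ≤ V)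
    (hmax : ∀ B : Subgroup G, B ≤ K → K ≤ normalizer (B : Set G) → IsPGroup p B → B ≤ V)
    (hL2 : ∀ x ∈ L, ∃ m : ℕ, m.Coprime p ∧ x ^ m ∈ V)
    (hL4 : ∀ n ∈ K, (∀ l ∈ L, n * l * n⁻¹ * l⁻¹ ∈ V) → n ∈ L)
    (hM₁ : V ⊓ centralizer (L : Set G) = ⊥) :
    ∀ x ∈ K, ∃ m : ℕ, m.Coprime p ∧ x ^ m ∈ V := by
  have hVK : V ≤ K := hVL.trans hLK
  have hcopK : (Nat.card K).Coprime (Nat.card R) :=
    Nat.Coprime.coprime_dvd_left (Subgroup.card_dvd_of_le hKH) hcop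
  have hcopK₀ : (Nat.card K).Coprime (Nat.card R₀) :=
    Nat.Coprime.coprime_dvd_right (Subgroup.card_dvd_of_le hRR₀) hcopK
  have hRV : (Nat.card R).Coprime (Nat.card V) :=
    (Nat.Coprime.coprime_dvd_left (Subgroup.card_dvd_of_le hVK) hcopK).symm
  obtain ⟨Q, hQL, hQp, hLVQ, hRQ⟩ := exists_Q hVL hVp hL2 hRV
  have hQK : Q ≤ K := hQL.trans hLK
  have hVN : ∀ x ∈ V, x ∈ normalizer (Q : Set G) → x = 1 :=
    fun x hxV hxQ => eq_one_of_mem_V_normalizer hVp hVab hQp hLVQ hM₁ hxV hxQ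
  have hKVN := exists_mul_of_mem_K hVK hVp hQL hQp hLVQ
  have hNQ : ∀ n ∈ K, n ∈ normalizer (Q : Set G) → n ∈ centralizer (Q : Set G) → n ∈ Q :=
    fun n hnK hnQ hnc => mem_Q_of_centralizes hVp hVab hQp hLVQ hM₁ hL4 hnK hnQ hnc
  have hQV : Q ⊓ centralizer (V : Set G) = ⊥ := by
    rw [eq_bot_iff]
    intro x hx
    have h1 : x ∈ V := hCV (mem_inf.2 ⟨hQK (mem_inf.1 hx).1, (mem_inf.1 hx).2⟩)
    rw [mem_bot]
    exact hVN x h1 (le_normalizer (mem_inf.1 hx).1)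
  have hNcop : (Nat.card ↥(K ⊓ normalizer (Q : Set G))).Coprime p := by
    by_cases hVfix : V ⊓ centralizer (R₀ : Set G) = ⊥
    · exact caseA H3764 hodd hKH hZ hRR₀ hr hrp hVab hVexp hQK hQp hcopK₀ hRQ hQV hNQ
        (fun B hBN hNB hBp =>
          eq_bot_of_normal_pgroup hVK hVp hVab hQp hLVQ hM₁ hmax hKVN hBN hNB hBp)
        (N_le_commutator hVp hVab hQp hLVQ hM₁ hKVN hKR hRQ) hVfix
    · exact caseB H3764 hodd hKH hZ hr hrp hVK hVp hVab hVexp hQK hQp hcopK₀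
        (hRR₀.trans hRQ) hQV hNQ hVN hVfix
  intro x hx
  obtain ⟨v, hv, n, hn, rfl⟩ := hKVN x hx
  refine ⟨Nat.card ↥(K ⊓ normalizer (Q : Set G)), hNcop, ?_⟩
  have hv' : n⁻¹ * v * n ∈ V := by
    have := hV.conj_mem _ hv n⁻¹
    simpa using this
  have h1 := Cfsg.Agent.S3790.pow_mul_mem V n (n⁻¹ * v * n) hv'
    (Nat.card ↥(K ⊓ normalizer (Q : Set G)))
  have e : n * (n⁻¹ * v * n) = v * n := by group
  rw [e, pow_card_of_mem hn, inv_one, one_mul] at h1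
  exact h1

end Cases

end Cfsg.Agent.Lib.Helper72.ZG
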