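import Mathlib
import Cfsg.Agent.Lib.Helper72.ZGCore

/-! `p`-length one of `[H, R]` when `C_H(R₀)` is a `Z`-group: the inductive step and the
induction (helper72). -/

set_option autoImplicit false
set_option linter.style.haveILetI false
set_option linter.unusedSectionVars false

namespace Cfsg.Agent.Lib.Helper72.ZG

open Subgroup Cfsg
open scoped commutatorElement Pointwise

universe u

theorem step (H3764 : HH.S3764Prop.{u}) {G : Type u} [Group G] [Finite G] [Group.IsSolvable G]
    (hodd : Odd (Nat.card G)) {H R R₀ : Subgroup G} [hH : H.Normal] (hHR : H ⊔ R = ⊤)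
    (hcop : (Nat.card H).Coprime (Nat.card R)) (hRR₀ : R₀ ≤ R) (hr : (Nat.card R₀).Prime)
    (hZ : IsZGroup ↥(H ⊓ centralizer (R₀ : Set G))) {p : ℕ} [hp : Fact p.Prime]
    (IH : ∀ (M : Subgroup G) [M.Normal], M ≠ ⊥ → M ≤ ⁅H, R⁆ →
      PL1 p ((⁅H, R⁆).map (QuotientGroup.mk' M))) :
    PL1 p ⁅H, R⁆ := by
  have hRH : R ≤ normalizer (H : Set G) := le_normalizer_of_normal'
  have hKR0 : ⁅H, R⁆ ≤ ⁅⁅H, R⁆, R⁆ := by
    have h1 := commutator_commutator_eq hRH
      (le_cent_mul_commutator hRH hcop.symm (Or.inl inferInstance))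
    rw [h1]
  have hKn0 : (⁅H, R⁆ : Subgroup G).Normal := by
    apply normal_of_forall_mem_normalizer
    intro g
    have hg : g ∈ H ⊔ R := by rw [hHR]; exact mem_top g
    have h1 : H ⊔ R ≤ normalizer ((⁅H, R⁆ : Subgroup G) : Set G) := by
      apply sup_le (HH.le_normalizer_commutator_self H R)
      rw [commutator_comm]
      exact HH.le_normalizer_commutator_self R H
    exact h1 hg
  obtain ⟨K, hKdef⟩ : ∃ K : Subgroup G, K = ⁅H, R⁆ := ⟨_, rfl⟩
  rw [← hKdef] at IH hKR0 hKn0 ⊢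
  haveI hKn : K.Normal := hKn0
  have hKR : K ≤ ⁅K, R⁆ := hKR0
  have hKH : K ≤ H := hKdef ▸ HH.commutator_le_left_of_normalizer hRH
  by_cases hKp : (Nat.card K).Coprime p
  · exact PL1_of_coprime hKp
  have hpK : p ∣ Nat.card K := by
    by_contra h
    exact hKp ((Nat.Prime.coprime_iff_not_dvd hp.out).2 h).symm
  have hrp : p ≠ Nat.card R₀ := by
    intro h
    have h1 : p ∣ Nat.card H := hpK.trans (Subgroup.card_dvd_of_le hKH)
    have h2 : p ∣ Nat.card R := by
      rw [h]
      exact Subgroup.card_dvd_of_le hRR₀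
    have h3 := Nat.eq_one_of_dvd_coprimes hcop h1 h2
    exact hp.out.one_lt.ne' h3
  by_cases hred : pPrimeCore p ↥K = ⊥
  swap
  · haveI : (pPrimeCore p ↥K).Characteristic :=
      Cfsg.Agent.Lib.Helper30.pPrimeCore_characteristic p
    haveI hMn : ((pPrimeCore p ↥K).map K.subtype).Normal := normal_map_of_characteristic _
    have hMK : (pPrimeCore p ↥K).map K.subtype ≤ K := map_subtype_le _
    have hM1 : (pPrimeCore p ↥K).map K.subtype ≠ ⊥ := by
      intro h
      exact hred ((map_eq_bot_iff_of_injective _ K.subtype_injective).1 h)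
    have hMc : (Nat.card ((pPrimeCore p ↥K).map K.subtype)).Coprime p := by
      rw [Cfsg.Agent.Lib.Helper30.card_map_subtype]
      exact Cfsg.Agent.Lib.Helper30.pPrimeCore_coprime p
    exact PL1_of_quot_pprime hMK hMc (IH _ hM1 hMK)
  obtain ⟨V, L, hVn, hLn, hVL, hLK, hVp, hCV, hmax, hL2, hL3, hL4⟩ :=
    exists_VL (K := K) (p := p) hred
  haveI := hVn
  haveI := hLn
  have hVK : V ≤ K := hVL.trans hLK
  have hKV : K ≤ normalizer (V : Set G) := le_normalizer_of_normal'
  have hcomm : ∀ (A : Subgroup G), K ≤ normalizer (A : Set G) → ∀ y ∈ A, ∀ v ∈ V,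
      y * v * y⁻¹ * v⁻¹ ∈ V ∧ y * v * y⁻¹ * v⁻¹ ∈ A := by
    intro A hKA y hyA v hv
    refine ⟨mul_mem (hVn.conj_mem _ hv y) (inv_mem hv), ?_⟩
    have e : y * v * y⁻¹ * v⁻¹ = y * (v * y⁻¹ * v⁻¹) := by group
    rw [e]
    exact mul_mem hyA (HH.conj_mem_of_mem_normalizer (hKA (hVK hv)) (inv_mem hyA))
  by_cases hΦ : (frattini ↥V).map V.subtype = ⊥
  swap
  · haveI hΦn : ((frattini ↥V).map V.subtype).Normal := normal_map_of_characteristic _
    have hΦV : (frattini ↥V).map V.subtype ≤ V := map_subtype_le _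
    apply PL1_of_quot_pgroup hΦV hVK hKV hVp hmax ?_ (IH _ hΦ (hΦV.trans hVK))
    intro A hΦA hAK hKA hA y hyA m hm hym
    have hyc : y ∈ centralizer (V : Set G) := by
      apply centralizes_of_frattini hVp (le_normalizer_of_normal' (X := ⊤) (mem_top y)) hm hym
      intro v hv
      obtain ⟨hcV, hcA⟩ := hcomm A hKA y hyA v hv
      obtain ⟨m', hm', hcm'⟩ := hA _ hcA
      obtain ⟨k, hk⟩ := hVp ⟨_, hcV⟩
      have hk' : (y * v * y⁻¹ * v⁻¹) ^ (p ^ k) = 1 := congrArg Subtype.val hk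
      have h1 := Cfsg.Agent.S3790.pow_gcd_mem ((frattini ↥V).map V.subtype)
        (y * v * y⁻¹ * v⁻¹) m' (p ^ k) hcm' (by rw [hk']; exact one_mem _)
      have h2 : Nat.gcd m' (p ^ k) = 1 := Nat.Coprime.pow_right k hm'
      rw [h2, pow_one] at h1
      exact h1
    have hyV : y ∈ V := hCV (mem_inf.2 ⟨hAK hyA, hyc⟩)
    obtain ⟨k, hk⟩ := hVp ⟨y, hyV⟩
    exact eq_one_of_pow_of_pow (Nat.Coprime.pow_right k hm) hym (congrArg Subtype.val hk)
  obtain ⟨hVab, hVexp⟩ := elem_abelian_of_frattini hVp hΦ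
  by_cases hM₁ : V ⊓ centralizer (L : Set G) = ⊥
  swap
  · haveI hM₁n : (V ⊓ centralizer (L : Set G)).Normal := by
      apply normal_of_forall_mem_normalizer
      intro g
      exact HH.mem_normalizer_inf (le_normalizer_of_normal' (X := ⊤) (mem_top g))
        (HH.mem_normalizer_centralizer (le_normalizer_of_normal' (X := ⊤) (mem_top g)))
    apply PL1_of_quot_pgroup inf_le_left hVK hKV hVp hmax ?_
      (IH _ hM₁ (inf_le_left.trans hVK))
    intro A hMA hAK hKA hA y hyA m hm hym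
    have hAL : A ≤ L := hL3 A hAK hKA (fun x hx => by
      obtain ⟨m', hm', hx'⟩ := hA x hx
      exact ⟨m', hm', (mem_inf.1 hx').1⟩)
    have hyc : y ∈ centralizer (V : Set G) := by
      rw [mem_centralizer_iff]
      intro v hv
      obtain ⟨hcV, hcA⟩ := hcomm A hKA y hyA v hv
      obtain ⟨m', hm', hcm'⟩ := hA _ hcA
      have hzM : y * v * y⁻¹ * v⁻¹ ∈ V ⊓ centralizer (L : Set G) := by
        have h1 := Cfsg.Agent.S3790.pow_gcd_mem (V ⊓ centralizer (L : Set G))
          (y * v * y⁻¹ * v⁻¹) m' p hcm' (by rw [hVexp _ hcV]; exact one_mem _)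
        have h2 : Nat.gcd m' p = 1 := hm'
        rw [h2, pow_one] at h1
        exact h1
      obtain ⟨z, hz⟩ : ∃ z : G, z = y * v * y⁻¹ * v⁻¹ := ⟨_, rfl⟩
      rw [← hz] at hzM hcV
      have hyv : y * v * y⁻¹ = z * v := by rw [hz]; group
      have hcz : Commute y z := mem_centralizer_iff.1 (mem_inf.1 hzM).2 y (hAL hyA)
      have hpow : ∀ j : ℕ, y ^ j * v * (y ^ j)⁻¹ = z ^ j * v := by
        intro j
        induction j with
        | zero => simp
        | succ j ih =>
          have h1 : y * z ^ j = z ^ j * y := (hcz.pow_right j).eq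
          calc y ^ (j + 1) * v * (y ^ (j + 1))⁻¹
              = y * (y ^ j * v * (y ^ j)⁻¹) * y⁻¹ := by rw [pow_succ']; group
            _ = y * (z ^ j * v) * y⁻¹ := by rw [ih]
            _ = (y * z ^ j) * v * y⁻¹ := by group
            _ = (z ^ j * y) * v * y⁻¹ := by rw [h1]
            _ = z ^ j * (y * v * y⁻¹) := by group
            _ = z ^ j * (z * v) := by rw [hyv]
            _ = z ^ (j + 1) * v := by rw [pow_succ]; group
      have hzm : z ^ m = 1 := by
        have h1 := hpow m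
        rw [hym] at h1
        have h2 : v = z ^ m * v := by simpa using h1
        calc z ^ m = z ^ m * v * v⁻¹ := by group
          _ = v * v⁻¹ := by rw [← h2]
          _ = 1 := by group
      have hz1 : z = 1 := eq_one_of_pow_of_pow hm hzm (hVexp z hcV)
      rw [hz1, one_mul] at hyv
      calc v * y = (y * v * y⁻¹) * y := by rw [hyv]
        _ = y * v := by group
    have hyV : y ∈ V := hCV (mem_inf.2 ⟨hAK hyA, hyc⟩)
    exact eq_one_of_pow_of_pow hm hym (hVexp y hyV)
  exact PL1_of_pcomp hVK hKV hVp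
    (split_case H3764 hodd hKH hZ hcop hRR₀ hr hrp hKR hVL hLK hVp hVab hVexp hCV hmax hL2 hL4
      hM₁)

end Cfsg.Agent.Lib.Helper72.ZG
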