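import Mathlib
import Cfsg.Agent.Lib.Helper72.ZGStep

/-! `p`-length one of `[H, R]` when `C_H(R₀)` is a `Z`-group: the induction on the order
(helper72). -/

set_option autoImplicit false
set_option linter.style.haveILetI false
set_option linter.unusedSectionVars false

namespace Cfsg.Agent.Lib.Helper72.ZG

open Subgroup Cfsg
open scoped commutatorElement Pointwise

universe u

/-- transport of the `Z`-group hypothesis to a quotient by a normal subgroup of `H` -/
theorem isZGroup_quot {G : Type u} [Group G] [Finite G] [Group.IsSolvable G]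
    {H R₀ M : Subgroup G} [hM : M.Normal] (hMH : M ≤ H)
    (hcop : (Nat.card R₀).Coprime (Nat.card M))
    (hZ : IsZGroup ↥(H ⊓ centralizer (R₀ : Set G))) :
    IsZGroup ↥(H.map (QuotientGroup.mk' M) ⊓
      centralizer ((R₀.map (QuotientGroup.mk' M) : Subgroup (G ⧸ M)) : Set (G ⧸ M))) := by
  haveI := hZ
  have hmem : ∀ x : ↥(H ⊓ centralizer (R₀ : Set G)),
      (QuotientGroup.mk' M).comp (H ⊓ centralizer (R₀ : Set G)).subtype x ∈
        H.map (QuotientGroup.mk' M) ⊓
          centralizer ((R₀.map (QuotientGroup.mk' M) : Subgroup (G ⧸ M)) : Set (G ⧸ M)) := by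
    intro x
    refine mem_inf.2 ⟨mem_map_of_mem _ (mem_inf.1 x.2).1, ?_⟩
    rw [mem_centralizer_iff]
    rintro _ ⟨y, hy, rfl⟩
    have h1 : y * (x : G) = (x : G) * y := mem_centralizer_iff.1 (mem_inf.1 x.2).2 y hy
    show QuotientGroup.mk' M y * QuotientGroup.mk' M (x : G)
      = QuotientGroup.mk' M (x : G) * QuotientGroup.mk' M y
    rw [← map_mul, ← map_mul, h1]
  apply IsZGroup.of_surjective
    (f := ((QuotientGroup.mk' M).comp (H ⊓ centralizer (R₀ : Set G)).subtype).codRestrict _ hmem)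
  rintro ⟨xb, hxb⟩
  obtain ⟨⟨x, hxH, rfl⟩, hxc⟩ := mem_inf.1 hxb
  have hx : ∀ a ∈ R₀, x⁻¹ * (a * x * a⁻¹) ∈ M := by
    intro a ha
    have h1 : QuotientGroup.mk' M a * QuotientGroup.mk' M x
        = QuotientGroup.mk' M x * QuotientGroup.mk' M a :=
      mem_centralizer_iff.1 hxc _ (mem_map_of_mem _ ha)
    rw [← QuotientGroup.eq_one_iff, ← QuotientGroup.mk'_apply, map_mul, map_mul, map_mul,
      map_inv, map_inv, h1]
    group
  obtain ⟨d, hd, hxd⟩ := Cfsg.Agent.Lib.Helper1.coprime_coset_fixed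
    (le_normalizer_of_normal' (X := R₀) (N := M)) hcop (Or.inl inferInstance) x hx
  refine ⟨⟨x * d, mem_inf.2 ⟨mul_mem hxH (hMH hd), hxd⟩⟩, ?_⟩
  apply Subtype.ext
  show QuotientGroup.mk' M (x * d) = QuotientGroup.mk' M x
  have hd1 : QuotientGroup.mk' M d = 1 := (QuotientGroup.eq_one_iff d).2 hd
  rw [map_mul, hd1, mul_one]

theorem core (H3764 : HH.S3764Prop.{u}) (p : ℕ) [hp : Fact p.Prime] :
    ∀ (n : ℕ) (G : Type u) [Group G] [Finite G] [Group.IsSolvable G], Nat.card G ≤ n →
      Odd (Nat.card G) → ∀ (H R R₀ : Subgroup G), H.Normal → H ⊔ R = ⊤ →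
      (Nat.card H).Coprime (Nat.card R) → R₀ ≤ R → (Nat.card R₀).Prime →
      IsZGroup ↥(H ⊓ centralizer (R₀ : Set G)) → PL1 p ⁅H, R⁆ := by
  intro n
  induction n with
  | zero =>
    intro G _ _ _ hn
    have := Nat.card_pos (α := G)
    omega
  | succ n ih =>
    intro G _ _ _ hn hodd H R R₀ hH hHR hcop hRR₀ hr hZ
    haveI := hH
    apply step H3764 hodd hHR hcop hRR₀ hr hZ
    intro M hM hM1 hMK
    have hRH : R ≤ normalizer (H : Set G) := le_normalizer_of_normal'
    have hMH : M ≤ H := hMK.trans (HH.commutator_le_left_of_normalizer hRH)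
    have hcard : Nat.card (G ⧸ M) ≤ n := by
      have := Cfsg.Agent.Lib.Helper1.card_quotient_lt hM1
      omega
    have hodd' : Odd (Nat.card (G ⧸ M)) :=
      Odd.of_dvd_nat hodd (Subgroup.card_quotient_dvd_card M)
    have hcopM : (Nat.card R₀).Coprime (Nat.card M) :=
      (Nat.Coprime.coprime_dvd_left (Subgroup.card_dvd_of_le hMH)
        (Nat.Coprime.coprime_dvd_right (Subgroup.card_dvd_of_le hRR₀) hcop)).symm
    have hR₀M : R₀ ⊓ M = ⊥ := Cfsg.Agent.Lib.Helper1.inf_eq_bot_of_coprime_card hcopM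
    have hcardR₀ : Nat.card ↥(R₀.map (QuotientGroup.mk' M)) = Nat.card R₀ := by
      symm
      apply Nat.card_congr
      refine Equiv.ofBijective ((QuotientGroup.mk' M).subgroupMap R₀)
        ⟨?_, (QuotientGroup.mk' M).subgroupMap_surjective R₀⟩
      intro a b hab
      have h1 : QuotientGroup.mk' M (a : G) = QuotientGroup.mk' M (b : G) :=
        congrArg Subtype.val hab
      have h2 : (a : G)⁻¹ * (b : G) ∈ M := QuotientGroup.eq.1 h1
      have h3 : (a : G)⁻¹ * (b : G) ∈ R₀ ⊓ M := mem_inf.2 ⟨mul_mem (inv_mem a.2) b.2, h2⟩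
      rw [hR₀M, mem_bot, inv_mul_eq_one] at h3
      exact Subtype.ext h3
    have h1 := ih (G ⧸ M) hcard hodd' (H.map (QuotientGroup.mk' M))
      (R.map (QuotientGroup.mk' M)) (R₀.map (QuotientGroup.mk' M))
      (hH.map _ (QuotientGroup.mk'_surjective M))
      (by rw [← Subgroup.map_sup, hHR, Subgroup.map_top_of_surjective _
        (QuotientGroup.mk'_surjective M)])
      (Nat.Coprime.coprime_dvd_left (Subgroup.card_map_dvd H (QuotientGroup.mk' M))
        (Nat.Coprime.coprime_dvd_right (Subgroup.card_map_dvd R (QuotientGroup.mk' M)) hcop))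
      (Subgroup.map_mono hRR₀) (by rw [hcardR₀]; exact hr) (isZGroup_quot hMH hcopM hZ)
    rw [← Subgroup.map_commutator] at h1
    exact h1

end Cfsg.Agent.Lib.Helper72.ZG
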